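import Mathlib
import Cfsg.Agent.Lib.H48.Unip
/-!
Conjugacy in `SL_n` versus conjugacy in `GL_n`.
-/
set_option autoImplicit false
set_option linter.unusedSectionVars false
set_option linter.style.haveILetI false

namespace H48.SLConj

open Polynomial H48.SimStruct H48.SimMatrix H48.Unip

variable {F : Type*} [Field F] {n : Type*} [Fintype n] [DecidableEq n]

/-- if the centralizer of `A` contains matrices of every determinant, `GL`-conjugacy gives
`SL`-conjugacy -/
theorem sl_conj_of_gl {A B : Matrix.SpecialLinearGroup n F}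
    (h : IsConj (A : Matrix n n F) (B : Matrix n n F))
    (hdet : ∀ d : F, d ≠ 0 → ∃ D : Matrix n n F, D * A = A * D ∧ D.det = d) : IsConj A B := by
  obtain ⟨c, hc⟩ := h
  have hc' : (c : Matrix n n F) * A = B * (c : Matrix n n F) := hc
  have hdc : (c : Matrix n n F).det ≠ 0 :=
    ((Matrix.isUnit_iff_isUnit_det _).1 c.isUnit).ne_zero
  obtain ⟨D, hD, hDd⟩ := hdet ((c : Matrix n n F).det)⁻¹ (inv_ne_zero hdc)
  let g : Matrix.SpecialLinearGroup n F := ⟨(c : Matrix n n F) * D, by
    rw [Matrix.det_mul, hDd, mul_inv_cancel₀ hdc]⟩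
  rw [isConj_iff]
  refine ⟨g, ?_⟩
  rw [mul_inv_eq_iff_eq_mul]
  apply Subtype.ext
  change (c : Matrix n n F) * D * A = B * ((c : Matrix n n F) * D)
  rw [mul_assoc, hD, ← mul_assoc, hc', mul_assoc]

/-- conversely -/
theorem gl_conj_of_sl {A B : Matrix.SpecialLinearGroup n F} (h : IsConj A B) :
    IsConj (A : Matrix n n F) (B : Matrix n n F) := by
  obtain ⟨c, hc⟩ := isConj_iff.1 h
  refine ⟨⟨(c : Matrix n n F), ((c⁻¹ : Matrix.SpecialLinearGroup n F) : Matrix n n F), ?_, ?_⟩, ?_⟩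
  · rw [← Matrix.SpecialLinearGroup.coe_mul, mul_inv_cancel, Matrix.SpecialLinearGroup.coe_one]
  · rw [← Matrix.SpecialLinearGroup.coe_mul, inv_mul_cancel, Matrix.SpecialLinearGroup.coe_one]
  · change (c : Matrix n n F) * A = B * (c : Matrix n n F)
    rw [← Matrix.SpecialLinearGroup.coe_mul, ← Matrix.SpecialLinearGroup.coe_mul, ← hc]
    simp [mul_assoc]

/-- determinant of a rank-one perturbation -/
theorem det_one_add_vecMulVec (w f : n → F) : (1 + Matrix.vecMulVec w f).det = 1 + f ⬝ᵥ w := by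
  rw [Matrix.vecMulVec_eq Unit, Matrix.det_one_add_replicateCol_mul_replicateRow]

/-- rank one matrices -/
theorem exists_vecMulVec_of_rank_one {N : Matrix n n F} (h : N.rank = 1) :
    ∃ u f : n → F, N = Matrix.vecMulVec u f ∧ u ≠ 0 ∧ f ≠ 0 := by
  have h1 : Module.finrank F (LinearMap.range N.mulVecLin) = 1 := h
  obtain ⟨⟨u, hu⟩, hu0, hspan⟩ := finrank_eq_one_iff'.1 h1
  have hu0' : u ≠ 0 := fun h0 => hu0 (Subtype.ext h0)
  have hcol : ∀ j, ∃ c : F, c • u = N.mulVec (Pi.single j 1) := by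
    intro j
    obtain ⟨c, hc⟩ := hspan ⟨N.mulVec (Pi.single j 1), ⟨Pi.single j 1, rfl⟩⟩
    exact ⟨c, congrArg Subtype.val hc⟩
  choose f hf using hcol
  have hN : N = Matrix.vecMulVec u f := by
    ext i j
    have := congrFun (hf j) i
    rw [Matrix.mulVec_single_one] at this
    simp only [Pi.smul_apply, smul_eq_mul, Matrix.col_apply] at this
    rw [Matrix.vecMulVec_apply, ← this, mul_comm]
  refine ⟨u, f, hN, hu0', ?_⟩
  rintro rfl
  rw [hN, Matrix.vecMulVec_zero, Matrix.rank_zero] at h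
  exact zero_ne_one h

end H48.SLConj
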