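import Cfsg.Agent.Lib.H48.InvC3
import Cfsg.Agent.Lib.H48.OInvMain
import Cfsg.Agent.Lib.H49.OrthStab

/-!
Counting vectors whose value is of the form `y ^ 2 + y`, characteristic two.
-/

set_option autoImplicit false
set_option linter.unusedSectionVars false

namespace H48.Cd

open QuadraticMap H48.QuadSplit H48.FinFieldSq H18.MaxSing Module

variable {F : Type*} [Field F]

/-- values of `y ^ 2 + y` -/
def AS (c : F) : Prop := ∃ y : F, y ^ 2 + y = c

theorem AS.zero : AS (0 : F) := ⟨0, by ring⟩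

section two

variable [CharP F 2]

theorem AS.add {a b : F} (ha : AS a) (hb : AS b) : AS (a + b) := by
  obtain ⟨y, rfl⟩ := ha
  obtain ⟨z, rfl⟩ := hb
  refine ⟨y + z, ?_⟩
  have h2 : (2 : F) = 0 := CharTwo.two_eq_zero
  linear_combination (y * z) * h2

theorem AS.of_add {a b : F} (h : AS (a + b)) (ha : AS a) : AS b := by
  have h1 := h.add ha
  have h2 : (2 : F) = 0 := CharTwo.two_eq_zero
  have h3 : a + b + a = b := by linear_combination a * h2
  rwa [h3] at h1

variable [Finite F]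

theorem exists_not_AS : ∃ a : F, ¬ AS a := by
  obtain ⟨z, hz⟩ := exists_irred (F := F)
  refine ⟨z, ?_⟩
  rintro ⟨y, hy⟩
  apply hz y
  have h2 : (2 : F) = 0 := CharTwo.two_eq_zero
  linear_combination hy + z * h2

theorem AS_add_iff {a₀ : F} (h₀ : ¬ AS a₀) (a : F) : AS (a + a₀) ↔ ¬ AS a := by
  constructor
  · intro h1 h3
    exact h₀ (h1.of_add h3)
  · intro h1
    have e : ∀ c : F, ¬ AS c → ∀ t : F, t ^ 2 + t + c ≠ 0 := by
      intro c hc t ht
      apply hc
      refine ⟨t, ?_⟩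
      have h2 : (2 : F) = 0 := CharTwo.two_eq_zero
      linear_combination ht - c * h2
    obtain ⟨t, ht⟩ := wp_diff (e a h1) (e a₀ h₀)
    refine ⟨t, ?_⟩
    have h2 : (2 : F) = 0 := CharTwo.two_eq_zero
    linear_combination ht - a * h2

end two

/-- a bijection exchanging a property and its negation -/
theorem half {α : Type*} [Finite α] (S P : α → Prop) (σ : α → α) (h1 : ∀ a, S a → S (σ a))
    (h2 : ∀ a, S a → σ (σ a) = a) (h3 : ∀ a, S a → (P (σ a) ↔ ¬ P a)) :
    2 * Nat.card {a // S a ∧ P a} = Nat.card {a // S a} := by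
  classical
  have e1 : Nat.card {a // S a ∧ P a} = Nat.card {a // S a ∧ ¬ P a} := by
    refine Nat.card_congr ⟨fun a => ⟨σ a.1, h1 _ a.2.1, fun h => (h3 _ a.2.1).mp h a.2.2⟩,
      fun a => ⟨σ a.1, h1 _ a.2.1, (h3 _ a.2.1).mpr a.2.2⟩, ?_, ?_⟩
    · intro a
      exact Subtype.ext (h2 _ a.2.1)
    · intro a
      exact Subtype.ext (h2 _ a.2.1)
  have e2 : Nat.card {a // S a} = Nat.card {a // S a ∧ P a} + Nat.card {a // S a ∧ ¬ P a} := by
    rw [← Nat.card_sum]
    refine Nat.card_congr ⟨fun a => if h : P a.1 then Sum.inl ⟨a.1, a.2, h⟩ else Sum.inr ⟨a.1, a.2, h⟩,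
      fun a => Sum.elim (fun a => ⟨a.1, a.2.1⟩) (fun a => ⟨a.1, a.2.1⟩) a, ?_, ?_⟩
    · intro a
      by_cases h : P a.1 <;> simp [h]
    · rintro (a | a)
      · simp [a.2.2]
      · simp [a.2.2]
  omega

/-! ### counting -/

variable [CharP F 2] [Finite F] {V : Type*} [AddCommGroup V] [Module F V] [FiniteDimensional F V] [Finite V]
  {Q : QuadraticForm F V}

theorem exists_sqrt_not : ∀ {b : F}, b ≠ 0 → ∀ a : F, ∃ l : F, l * l * b = a := by
  intro b hb a
  obtain ⟨l, hl⟩ := exists_sqrt (a * b⁻¹)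
  refine ⟨l, ?_⟩
  have : l * l = a * b⁻¹ := by rw [← hl]; ring
  rw [this, mul_assoc, inv_mul_cancel₀ hb, mul_one]

theorem add_add_cancel' (F : Type*) [Field F] [CharP F 2] {V : Type*} [AddCommGroup V] [Module F V] (v w : V) : v + w + w = v := by
  have h2 : (2 : F) = 0 := CharTwo.two_eq_zero
  have : v + w + w = v + (2 : F) • w := by module
  rw [this, h2, zero_smul, add_zero]

/-- the non-alternating types -/
theorem count_na (R : Submodule F V) {w : V} (hw : w ∈ R) (hQw : Q w ≠ 0) (hort : ∀ c ∈ R, polar Q w c = 0) :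
    2 * Nat.card {c : V // c ∈ R ∧ AS (Q c)} = Nat.card ↥R := by
  obtain ⟨a₀, ha₀⟩ := exists_not_AS (F := F)
  obtain ⟨l, hl⟩ := exists_sqrt_not hQw a₀
  apply half (fun c : V => c ∈ R) (fun c => AS (Q c)) (fun c => c + l • w)
  · intro c hc
    exact R.add_mem hc (R.smul_mem _ hw)
  · intro c _
    exact add_add_cancel' F _ _
  · intro c hc
    have e : Q (c + l • w) = Q c + a₀ := by
      rw [QuadraticMap.map_add Q, QuadraticMap.map_smul, polar_smul_right, polar_comm, hort c hc, smul_zero, add_zero,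
        smul_eq_mul, hl]
    rw [e]
    exact AS_add_iff ha₀ _

/-- the alternating type -/
theorem count_alt (R E : Submodule F V) (hER : E ≤ R) (hE : TS Q E)
    (hEo : ∀ v, (∀ e ∈ E, polar Q v e = 0) → v ∈ E) :
    2 * Nat.card {c : V // c ∈ R ∧ AS (Q c)} = Nat.card ↥R + Nat.card ↥E := by
  classical
  obtain ⟨a₀, ha₀⟩ := exists_not_AS (F := F)
  have hpE : ∀ x ∈ E, ∀ y ∈ E, polar Q x y = 0 := by
    intro x hx y hy
    rw [polar, hE _ (E.add_mem hx hy), hE _ hx, hE _ hy]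
    ring
  -- a vector for every coset
  have hex : ∀ c, c ∉ E → ∃ e ∈ E, polar Q c e = a₀ := by
    intro c hc
    have h1 : ¬ ∀ e ∈ E, polar Q c e = 0 := fun h => hc (hEo c h)
    push Not at h1
    obtain ⟨e, he, h3⟩ := h1
    refine ⟨(a₀ * (polar Q c e)⁻¹) • e, E.smul_mem _ he, ?_⟩
    rw [polar_smul_right, smul_eq_mul, mul_assoc, inv_mul_cancel₀ h3, mul_one]
  let ε : V ⧸ E → V := fun q => if h : ∃ e ∈ E, polar Q q.out e = a₀ then h.choose else 0
  have hε : ∀ c, c ∉ E → ε (Submodule.Quotient.mk c) ∈ E ∧ polar Q c (ε (Submodule.Quotient.mk c)) = a₀ := by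
    intro c hc
    have h1 : c - (Submodule.Quotient.mk c : V ⧸ E).out ∈ E := by
      rw [← Submodule.Quotient.eq]
      exact (Quotient.out_eq' _).symm
    have h3 : ∀ e ∈ E, polar Q (Submodule.Quotient.mk c : V ⧸ E).out e = polar Q c e := by
      intro e he
      have := hpE _ h1 _ he
      rw [polar_sub_left, sub_eq_zero] at this
      exact this.symm
    have h4 : ∃ e ∈ E, polar Q (Submodule.Quotient.mk c : V ⧸ E).out e = a₀ := by
      obtain ⟨e, he, h5⟩ := hex c hc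
      exact ⟨e, he, by rw [h3 e he, h5]⟩
    have h5 : ε (Submodule.Quotient.mk c) = h4.choose := dif_pos h4
    rw [h5]
    exact ⟨h4.choose_spec.1, by rw [← h3 _ h4.choose_spec.1]; exact h4.choose_spec.2⟩
  have key : 2 * Nat.card {c : V // (c ∈ R ∧ c ∉ E) ∧ AS (Q c)} = Nat.card {c : V // c ∈ R ∧ c ∉ E} := by
    have hmem : ∀ c, c ∉ E → c + ε (Submodule.Quotient.mk c) ∉ E := by
      intro c hc h
      apply hc
      have := E.sub_mem h (hε c hc).1
      rwa [add_sub_cancel_right] at this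
    have hmk : ∀ c, c ∉ E → (Submodule.Quotient.mk (c + ε (Submodule.Quotient.mk c)) : V ⧸ E) =
        Submodule.Quotient.mk c := by
      intro c hc
      rw [Submodule.Quotient.eq, add_sub_cancel_left]
      exact (hε c hc).1
    apply half (fun c : V => c ∈ R ∧ c ∉ E) (fun c => AS (Q c)) (fun c => c + ε (Submodule.Quotient.mk c))
    · rintro c ⟨hc1, hc2⟩
      exact ⟨R.add_mem hc1 (hER (hε c hc2).1), hmem c hc2⟩
    · rintro c ⟨hc1, hc2⟩
      change c + ε (Submodule.Quotient.mk c) + ε (Submodule.Quotient.mk (c + ε (Submodule.Quotient.mk c))) = c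
      rw [hmk c hc2]
      exact add_add_cancel' F _ _
    · rintro c ⟨hc1, hc2⟩
      have e : Q (c + ε (Submodule.Quotient.mk c)) = Q c + a₀ := by
        rw [QuadraticMap.map_add Q, hE _ (hε c hc2).1, (hε c hc2).2, add_zero]
      rw [e]
      exact AS_add_iff ha₀ _
  have e1 : Nat.card {c : V // c ∈ R ∧ AS (Q c)} = Nat.card {c : V // (c ∈ R ∧ c ∉ E) ∧ AS (Q c)} + Nat.card ↥E := by
    rw [← Nat.card_sum]
    refine Nat.card_congr ⟨fun a => if h : a.1 ∈ E then Sum.inr ⟨a.1, h⟩ else Sum.inl ⟨a.1, ⟨a.2.1, h⟩, a.2.2⟩,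
      fun a => Sum.elim (fun a => ⟨a.1, a.2.1.1, a.2.2⟩)
        (fun a => ⟨a.1, hER a.2, by rw [hE _ a.2]; exact AS.zero⟩) a, ?_, ?_⟩
    · intro a
      by_cases h : a.1 ∈ E <;> simp [h]
    · rintro (a | a)
      · simp [a.2.1.2]
      · simp [a.2]
  have e2 : Nat.card ↥R = Nat.card {c : V // c ∈ R ∧ c ∉ E} + Nat.card ↥E := by
    rw [← Nat.card_sum]
    refine Nat.card_congr ⟨fun a => if h : a.1 ∈ E then Sum.inr ⟨a.1, h⟩ else Sum.inl ⟨a.1, a.2, h⟩,
      fun a => Sum.elim (fun a => ⟨a.1, a.2.1⟩) (fun a => ⟨a.1, hER a.2⟩) a, ?_, ?_⟩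
    · intro a
      by_cases h : a.1 ∈ E <;> simp [h]
    · rintro (a | a)
      · simp [a.2.2]
      · simp [a.2]
  omega

end H48.Cd
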