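import Cfsg.Agent.Lib.H48.Cd1

/-!
Quadratic forms with the same polarization, characteristic two.
-/

set_option autoImplicit false
set_option linter.unusedSectionVars false

namespace H48.Cd

open QuadraticMap H48.QuadSplit H48.FinFieldSq H18.MaxSing Module

variable {F : Type*} [Field F] [CharP F 2] {V : Type*} [AddCommGroup V] [Module F V] [FiniteDimensional F V]
  {Q Q' : QuadraticForm F V}

theorem AS_of_equiv (hQ : ND Q) {m : ℕ} (hm : finrank F V = 2 * m) {E E' : Submodule F V} (hE : TS Q E)
    (hEm : finrank F E = m) (hE' : TS Q' E') (hEm' : finrank F E' = m) {c : V}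
    (h : ∀ v, Q' v = Q v + polar Q v c ^ 2) : AS (Q c) := by
  have h2 : (2 : F) = 0 := CharTwo.two_eq_zero
  have hcc : polar Q c c = 0 := by rw [polar_self, two_nsmul]; exact CharTwo.add_self_eq_zero _
  have hpol : ∀ u v, polar Q' u v = polar Q u v := by
    intro u v
    have h3 : Q (u + v) = Q u + Q v + polar Q u v := QuadraticMap.map_add Q u v
    have h4 : polar Q' u v = Q' (u + v) - Q' u - Q' v := rfl
    rw [h4, h, h, h, polar_add_left, h3]
    linear_combination (polar Q u c * polar Q v c) * h2
  have hQ' : ND Q' := fun u hu => hQ u (fun v => by rw [← hpol]; exact hu v)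
  by_cases hc : Q c = 0
  · rw [hc]
    exact AS.zero
  have hpE : ∀ x ∈ E, ∀ y ∈ E, polar Q x y = 0 := by
    intro x hx y hy
    rw [polar, hE _ (E.add_mem hx hy), hE _ hx, hE _ hy]
    ring
  have hc0 : c ≠ 0 := by
    rintro rfl
    exact hc (QuadraticMap.map_zero Q)
  have hEc : E ⊓ Submodule.span F {c} = ⊥ := by
    rw [eq_bot_iff]
    rintro x ⟨hx1, hx2⟩
    obtain ⟨a, rfl⟩ := Submodule.mem_span_singleton.mp hx2
    have h3 := hE _ hx1
    rw [QuadraticMap.map_smul, smul_eq_mul] at h3
    have h4 : a = 0 := mul_self_eq_zero.mp ((mul_eq_zero.mp h3).resolve_right hc)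
    rw [h4, zero_smul]
    exact Submodule.zero_mem _
  set D := E ⊓ orth Q (Submodule.span F {c}) with hD
  have hDm := finrank_inf_orth hQ hm hE hEm (H := Submodule.span F {c})
  rw [hEc, finrank_bot, finrank_span_singleton hc0, ← hD] at hDm
  have hDc : ∀ x ∈ D, polar Q x c = 0 := by
    intro x hx
    rw [polar_comm]
    exact hx.2 c (Submodule.mem_span_singleton_self c)
  have hDTS : TS Q' D := by
    intro x hx
    rw [h, hE _ hx.1, hDc x hx]
    ring
  have hmemD : ∀ x ∈ E, polar Q x c = 0 → x ∈ D := by
    intro x hx hxc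
    refine ⟨hx, ?_⟩
    intro u hu
    obtain ⟨a, rfl⟩ := Submodule.mem_span_singleton.mp hu
    rw [polar_smul_left, polar_comm, hxc, smul_zero]
  -- the vector `e`
  obtain ⟨e, he, hec⟩ : ∃ e ∈ E, polar Q e c = 1 := by
    by_contra hcon
    push Not at hcon
    have h3 : E ≤ D := by
      intro x hx
      apply hmemD x hx
      by_contra h4
      apply hcon ((polar Q x c)⁻¹ • x) (E.smul_mem _ hx)
      rw [polar_smul_left, smul_eq_mul, inv_mul_cancel₀ h4]
    have := Submodule.finrank_mono h3
    omega
  -- the subspace `E''`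
  have hT := ts_replace hE' hDTS
  have hTm := finrank_replace hQ' hm hE' hEm' hDTS
  obtain ⟨z, hz, hzD⟩ : ∃ z ∈ (E' ⊓ orth Q' D) ⊔ D, z ∉ D := by
    by_contra hcon
    push Not at hcon
    have := Submodule.finrank_mono (show (E' ⊓ orth Q' D) ⊔ D ≤ D from hcon)
    omega
  have hzorth : ∀ x ∈ D, polar Q x z = 0 := by
    intro x hx
    obtain ⟨u, hu, w, hw, rfl⟩ := Submodule.mem_sup.mp hz
    rw [polar_add_right, ← hpol x u, hu.2 x hx, hpE x hx.1 w hw.1, add_zero]
  have hee : polar Q e e = 0 := hpE e he e he
  have hce : polar Q c e = 1 := by rw [polar_comm]; exact hec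
  set x := polar Q z e with hxdef
  set y := polar Q z c with hydef
  have hsc : ∀ v w : V, polar Q v (-w) = polar Q v w := by
    intro v w
    rw [polar_neg_right, CharTwo.neg_eq]
  set d := z - x • c - y • e with hd
  have hzd : z = x • c + y • e + d := by rw [hd]; abel
  have hdc : polar Q d c = 0 := by
    rw [hd, polar_sub_left, polar_sub_left, polar_smul_left, polar_smul_left, hcc, hec, ← hydef, smul_zero, smul_eq_mul]
    ring
  have hde : polar Q d e = 0 := by
    rw [hd, polar_sub_left, polar_sub_left, polar_smul_left, polar_smul_left, hce, hee, ← hxdef, smul_zero, smul_eq_mul]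
    ring
  have hdD : ∀ u ∈ D, polar Q u d = 0 := by
    intro u hu
    rw [hd, polar_sub_right, polar_sub_right, polar_smul_right, polar_smul_right, hzorth u hu, hDc u hu,
      hpE u hu.1 e he, smul_zero, smul_zero, sub_zero, sub_zero]
  have hdE : d ∈ E := by
    have h3 : d ∈ orth Q E := by
      intro u hu
      have h4 : u - polar Q u c • e ∈ D := by
        apply hmemD _ (E.sub_mem hu (E.smul_mem _ he))
        rw [polar_sub_left, polar_smul_left, hec, smul_eq_mul, mul_one, sub_self]
      have h5 := hdD _ h4
      rw [polar_sub_left, polar_smul_left, polar_comm Q e d, hde, smul_zero, sub_zero] at h5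
      exact h5
    rwa [orth_eq_self hQ hm hE hEm] at h3
  have hdD' : d ∈ D := hmemD d hdE hdc
  have hQz : Q' z = 0 := hT z hz
  have hQz2 : x * x * Q c + x * y + y * y = 0 := by
    rw [h z, ← hydef] at hQz
    have h6 : Q z = x * x * Q c + x * y := by
      have h7 : polar Q (x • c + y • e) d = 0 := by
        rw [polar_add_left, polar_smul_left, polar_smul_left, polar_comm Q c d, hdc, polar_comm Q e d, hde, smul_zero,
          smul_zero, add_zero]
      rw [hzd, QuadraticMap.map_add Q (x • c + y • e) d, h7, hE d hdE, QuadraticMap.map_add Q (x • c) (y • e),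
        QuadraticMap.map_smul, QuadraticMap.map_smul, hE e he, polar_smul_left, polar_smul_right, hce]
      simp only [smul_eq_mul]
      ring
    rw [h6] at hQz
    linear_combination hQz
  have hx0 : x ≠ 0 := by
    intro hx0
    rw [hx0] at hQz2
    have hy0 : y = 0 := by
      have : y * y = 0 := by linear_combination hQz2
      exact mul_self_eq_zero.mp this
    apply hzD
    rw [hzd, hx0, hy0, zero_smul, zero_smul, zero_add, zero_add]
    exact hdD'
  refine ⟨y / x, ?_⟩
  field_simp
  linear_combination hQz2 - (x * x * Q c) * h2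

end H48.Cd
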