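import Mathlib
import Cfsg.Agent.Lib.H48.QuadStd
/-!
Characteristic two: quadratic forms with a given polar form, preserved by an isometry of the
polar form.
-/
set_option autoImplicit false
set_option linter.unusedSectionVars false
set_option linter.style.haveILetI false

namespace H48.CharTwoQ

open QuadraticMap H48.QuadWitt H48.QuadSplit H48.FinFieldSq H48.QuadStd

variable {F : Type*} [Field F] [Finite F] [CharP F 2] {V : Type*} [AddCommGroup V] [Module F V]

/-- the inverse of Frobenius -/
noncomputable def sqrt (a : F) : F := (exists_sqrt a).choose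

theorem sqrt_sq (a : F) : sqrt a ^ 2 = a := (exists_sqrt a).choose_spec

theorem sq_inj {a b : F} (h : a ^ 2 = b ^ 2) : a = b := by
  have : (a + b) ^ 2 = 0 := by
    rw [CharTwo.add_sq, h]; exact CharTwo.add_self_eq_zero _
  have h2 : a + b = 0 := pow_eq_zero_iff (two_ne_zero) |>.1 this
  rw [← CharTwo.neg_eq b]
  exact eq_neg_of_add_eq_zero_left h2

theorem sqrt_eq {a b : F} (h : b ^ 2 = a) : sqrt a = b := sq_inj (by rw [sqrt_sq, h])

/-- the square root of an additive function with `D (c v) = c² D v` is linear -/
noncomputable def sqrtLin (D : V → F) (hadd : ∀ u v, D (u + v) = D u + D v)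
    (hsmul : ∀ (c : F) v, D (c • v) = c ^ 2 * D v) : V →ₗ[F] F where
  toFun v := sqrt (D v)
  map_add' u v := by
    apply sqrt_eq
    rw [CharTwo.add_sq, sqrt_sq, sqrt_sq, hadd]
  map_smul' c v := by
    apply sqrt_eq
    rw [RingHom.id_apply, smul_eq_mul, mul_pow, sqrt_sq, hsmul]

theorem sqrtLin_sq (D : V → F) (hadd : ∀ u v, D (u + v) = D u + D v)
    (hsmul : ∀ (c : F) v, D (c • v) = c ^ 2 * D v) (v : V) : sqrtLin D hadd hsmul v ^ 2 = D v :=
  sqrt_sq _

/-- two quadratic forms with the same polar form differ by the square of a linear form -/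
theorem exists_diff {Q Q' : QuadraticForm F V} (h : ∀ u v, polar Q u v = polar Q' u v) :
    ∃ l : V →ₗ[F] F, ∀ v, Q' v = Q v + l v ^ 2 := by
  refine ⟨sqrtLin (fun v => Q v + Q' v) (fun u v => ?_) (fun c v => ?_), fun v => ?_⟩
  · rw [QuadraticMap.map_add Q, QuadraticMap.map_add Q', h]
    have := CharTwo.add_self_eq_zero (polar Q' u v)
    linear_combination this
  · rw [QuadraticMap.map_smul, QuadraticMap.map_smul]; simp only [smul_eq_mul]; ring
  · rw [sqrtLin_sq]
    have := CharTwo.add_self_eq_zero (Q v)
    linear_combination -this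

/-- adding the square of a linear form -/
def addSq (Q : QuadraticForm F V) (l : V →ₗ[F] F) : QuadraticForm F V :=
  Q + QuadraticMap.linMulLin l l

theorem addSq_apply (Q : QuadraticForm F V) (l : V →ₗ[F] F) (v : V) :
    addSq Q l v = Q v + l v ^ 2 := by
  simp [addSq, pow_two]

theorem polar_addSq (Q : QuadraticForm F V) (l : V →ₗ[F] F) (u v : V) :
    polar (addSq Q l) u v = polar Q u v := by
  simp only [polar, addSq_apply, _root_.map_add]
  have := CharTwo.add_self_eq_zero (l u * l v)
  linear_combination this

/-- a functional vanishing on the kernel of `g` factors through `g` -/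
theorem exists_factor (g : V →ₗ[F] V) (l : V →ₗ[F] F) (h : ∀ v, g v = 0 → l v = 0) :
    ∃ m : V →ₗ[F] F, ∀ v, m (g v) = l v := by
  obtain ⟨m', hm'⟩ := (LinearMap.range g).subtype.exists_leftInverse_of_injective (by simp)
  -- section of g onto its range
  obtain ⟨s, hs⟩ := g.rangeRestrict.exists_rightInverse_of_surjective
    (LinearMap.range_eq_top.2 g.surjective_rangeRestrict)
  refine ⟨l ∘ₗ s ∘ₗ m', fun v => ?_⟩
  have h1 : m' (g v) = g.rangeRestrict v := by
    have := congrArg (fun f => f (g.rangeRestrict v)) hm'
    simpa using this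
  have h2 : g (s (g.rangeRestrict v)) = g v := by
    have := congrArg (fun f => (f (g.rangeRestrict v) : V)) hs
    simpa using this
  simp only [LinearMap.comp_apply, h1]
  have h3 : l (s (g.rangeRestrict v) - v) = 0 := h _ (by rw [_root_.map_sub, h2, sub_self])
  rw [_root_.map_sub] at h3
  exact sub_eq_zero.1 h3

/-- an isometry of the polar form preserves some quadratic form with that polar form -/
theorem exists_invariant (Q : QuadraticForm F V) (g : V →ₗ[F] V)
    (hg : ∀ u v, polar Q (g u) (g v) = polar Q u v) :
    ∃ l : V →ₗ[F] F, ∀ v, addSq Q l (g v) = addSq Q l v := by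
  obtain ⟨l, hl⟩ := exists_diff (Q := Q) (Q' := Q.comp g) (fun u v => by
    simp only [polar, QuadraticMap.comp_apply]
    have := hg u v
    simp only [polar] at this
    rw [_root_.map_add g, this])
  simp only [QuadraticMap.comp_apply] at hl
  obtain ⟨m, hm⟩ := exists_factor (g + LinearMap.id) l (fun v hv => by
    have h1 : g v = v := by
      simp only [LinearMap.add_apply, LinearMap.id_apply] at hv
      have h2 : v + v = 0 := by
        rw [← two_smul F, show (2 : F) = 0 from by exact_mod_cast CharP.cast_eq_zero F 2, zero_smul]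
      have : g v + v - (v + v) = 0 := by rw [hv, h2, sub_zero]
      rw [add_sub_add_right_eq_sub] at this
      exact sub_eq_zero.1 this
    have h3 := hl v
    rw [h1] at h3
    have : l v ^ 2 = 0 := by linear_combination -h3
    exact pow_eq_zero_iff (two_ne_zero) |>.1 this)
  refine ⟨m, fun v => ?_⟩
  have h1 := hm v
  simp only [LinearMap.add_apply, LinearMap.id_apply, _root_.map_add] at h1
  rw [addSq_apply, addSq_apply, hl, ← h1, CharTwo.add_sq]
  have := CharTwo.add_self_eq_zero (m (g v) ^ 2)
  linear_combination this

end H48.CharTwoQ
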