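import Cfsg.Agent.Lib.H48.Cd2
import Cfsg.Agent.Lib.H48.OInvPara
import Cfsg.Agent.Lib.H48.CharTwoQ

/-!
The centralizer of an involution in the symplectic group and in the orthogonal group, characteristic two.
-/

set_option autoImplicit false
set_option linter.unusedSectionVars false

namespace H48.Cd

open Matrix Cfsg Module H16.Symp H48.InvC QuadraticMap H48.QuadStd H48.QuadSplit H18.MaxSing H48.CharTwoQ

variable {F : Type*} [Field F] [CharP F 2] {m : ℕ}

theorem sf_comm (u v : Fin m ⊕ Fin m → F) : sympForm m F u v = sympForm m F v u := by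
  rw [sympForm_swap, CharTwo.neg_eq]

theorem pol_eq (u v : Fin m ⊕ Fin m → F) : polar (qPlus m F) u v = sympForm m F u v := by
  rw [polar_qPlus, sympForm_eq_sum]
  apply Finset.sum_congr rfl
  intro i _
  have h2 : (2 : F) = 0 := CharTwo.two_eq_zero
  linear_combination (u (.inl i) * v (.inr i)) * h2

/-- the matrix of a symplectic map -/
abbrev mA (A : symplecticGroup (Fin m) F) : Matrix (Fin m ⊕ Fin m) (Fin m ⊕ Fin m) F := A.1

theorem mA_mul (A B : symplecticGroup (Fin m) F) (v : Fin m ⊕ Fin m → F) :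
    mA (A * B) *ᵥ v = mA A *ᵥ (mA B *ᵥ v) := by
  rw [Matrix.mulVec_mulVec]
  rfl

theorem mA_one (v : Fin m ⊕ Fin m → F) : mA (1 : symplecticGroup (Fin m) F) *ᵥ v = v :=
  Matrix.one_mulVec v

theorem mA_inv_mul (A : symplecticGroup (Fin m) F) (v : Fin m ⊕ Fin m → F) :
    mA A⁻¹ *ᵥ (mA A *ᵥ v) = v := by
  rw [← mA_mul, inv_mul_cancel, mA_one]

theorem mA_mul_inv (A : symplecticGroup (Fin m) F) (v : Fin m ⊕ Fin m → F) :
    mA A *ᵥ (mA A⁻¹ *ᵥ v) = v := by
  rw [← mA_mul, mul_inv_cancel, mA_one]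

theorem mA_form (A : symplecticGroup (Fin m) F) (u v : Fin m ⊕ Fin m → F) :
    sympForm m F (mA A *ᵥ u) (mA A *ᵥ v) = sympForm m F u v := (mem_symplecticGroup_iff _).mp A.2 u v

theorem mA_ext {A B : symplecticGroup (Fin m) F} (h : ∀ v, mA A *ᵥ v = mA B *ᵥ v) : A = B :=
  Subtype.ext (mulVec_ext h)

variable [Finite F]

theorem c_unique {c c' : Fin m ⊕ Fin m → F} (h : ∀ v, sympForm m F v c ^ 2 = sympForm m F v c' ^ 2) : c = c' := by
  have h1 : c - c' = 0 := by
    apply eq_zero_of_forall_sympForm_left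
    intro v
    rw [sympForm_sub_right, sq_inj (h v), sub_self]
  exact sub_eq_zero.mp h1

theorem exists_c (A : symplecticGroup (Fin m) F) :
    ∃ c, ∀ v, qPlus m F (mA A⁻¹ *ᵥ v) = qPlus m F v + sympForm m F v c ^ 2 := by
  obtain ⟨l, hl⟩ := exists_diff (Q := qPlus m F) (Q' := (qPlus m F).comp (Matrix.mulVecLin (mA A⁻¹))) (by
    intro u v
    have e : polar ((qPlus m F).comp (Matrix.mulVecLin (mA A⁻¹))) u v = polar (qPlus m F) (mA A⁻¹ *ᵥ u) (mA A⁻¹ *ᵥ v) := by
      simp only [polar, QuadraticMap.comp_apply, Matrix.mulVecLin_apply, Matrix.mulVec_add]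
    rw [e, pol_eq, pol_eq, mA_form])
  refine ⟨((sympBilin m F).toDual sympBilin_nondegenerate).symm l, ?_⟩
  intro v
  have h1 := hl v
  rw [QuadraticMap.comp_apply, Matrix.mulVecLin_apply] at h1
  rw [h1, sf_comm v, ← sympBilin_apply, LinearMap.BilinForm.apply_toDual_symm_apply]

/-- the class of a symplectic map -/
noncomputable def cc (A : symplecticGroup (Fin m) F) : Fin m ⊕ Fin m → F := (exists_c A).choose

theorem cc_spec (A : symplecticGroup (Fin m) F) (v : Fin m ⊕ Fin m → F) :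
    qPlus m F (mA A⁻¹ *ᵥ v) = qPlus m F v + sympForm m F v (cc A) ^ 2 := (exists_c A).choose_spec v

theorem cc_eq {A : symplecticGroup (Fin m) F} {c : Fin m ⊕ Fin m → F}
    (h : ∀ v, qPlus m F (mA A⁻¹ *ᵥ v) = qPlus m F v + sympForm m F v c ^ 2) : cc A = c := by
  apply c_unique
  intro v
  have h1 := cc_spec A v
  rw [h v] at h1
  exact (add_left_cancel h1).symm

theorem AS_cc (A : symplecticGroup (Fin m) F) : AS (qPlus m F (cc A)) := by
  have hfin : finrank F (Fin m ⊕ Fin m → F) = 2 * m := finrank_space m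
  have hi : Function.Injective (Matrix.mulVecLin (mA A)) := by
    intro x y hxy
    rw [← mA_inv_mul A x, ← mA_inv_mul A y]
    exact congrArg _ hxy
  refine AS_of_equiv (Q' := (qPlus m F).comp (Matrix.mulVecLin (mA A⁻¹))) (nd_qPlus m) hfin (ts_stdE m) (finrank_stdE m)
    (E' := (stdE m F).map (Matrix.mulVecLin (mA A))) ?_ ?_ ?_
  · rintro _ ⟨x, hx, rfl⟩
    rw [QuadraticMap.comp_apply, Matrix.mulVecLin_apply, Matrix.mulVecLin_apply, mA_inv_mul]
    exact ts_stdE m x hx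
  · rw [(Submodule.equivMapOfInjective _ hi (stdE m F)).symm.finrank_eq]
    exact finrank_stdE m
  · intro v
    rw [QuadraticMap.comp_apply, Matrix.mulVecLin_apply, cc_spec, pol_eq]

theorem exists_T {c : Fin m ⊕ Fin m → F} (hc : AS (qPlus m F c)) : ∃ T : symplecticGroup (Fin m) F, T * T = 1 ∧
    (∀ v, qPlus m F (mA T *ᵥ v) = qPlus m F v + sympForm m F v c ^ 2) ∧
    (∀ t : symplecticGroup (Fin m) F, mA t *ᵥ c = c → T * t = t * T) := by
  have h2 : (2 : F) = 0 := CharTwo.two_eq_zero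
  obtain ⟨l, hl⟩ : ∃ l : F, l * l * qPlus m F c + l = 1 := by
    obtain ⟨z, hz⟩ := hc
    by_cases h0 : z = 0
    · refine ⟨1, ?_⟩
      rw [← hz, h0]
      ring
    · refine ⟨z⁻¹, ?_⟩
      rw [← hz]
      field_simp
      linear_combination h2
  refine ⟨⟨sympTransvection m c l, sympTransvection_mem c l⟩, ?_, ?_, ?_⟩
  · apply mA_ext
    intro v
    rw [mA_mul, mA_one]
    change sympTransvection m c l *ᵥ (sympTransvection m c l *ᵥ v) = v
    rw [Matrix.mulVec_mulVec, sympTransvection_mul, sympTransvection_mulVec]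
    have : l + l = 0 := by linear_combination l * h2
    rw [this, zero_mul, zero_smul, add_zero]
  · intro v
    change qPlus m F (sympTransvection m c l *ᵥ v) = _
    rw [sympTransvection_mulVec, QuadraticMap.map_add (qPlus m F), QuadraticMap.map_smul, polar_smul_right, pol_eq]
    simp only [smul_eq_mul]
    linear_combination (sympForm m F v c ^ 2) * hl
  · intro t ht
    apply mA_ext
    intro v
    rw [mA_mul, mA_mul]
    change sympTransvection m c l *ᵥ (mA t *ᵥ v) = mA t *ᵥ (sympTransvection m c l *ᵥ v)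
    rw [sympTransvection_mulVec, sympTransvection_mulVec, Matrix.mulVec_add, Matrix.mulVec_smul, ht]
    congr 3
    conv_lhs => rw [← ht]
    exact mA_form t v c

/-- transvections -/
noncomputable def TT (c : Fin m ⊕ Fin m → F) : symplecticGroup (Fin m) F := by
  classical
  exact if hc : AS (qPlus m F c) then (exists_T hc).choose else 1

theorem TT_spec {c : Fin m ⊕ Fin m → F} (hc : AS (qPlus m F c)) : TT c * TT c = 1 ∧
    (∀ v, qPlus m F (mA (TT c) *ᵥ v) = qPlus m F v + sympForm m F v c ^ 2) ∧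
    (∀ t : symplecticGroup (Fin m) F, mA t *ᵥ c = c → TT c * t = t * TT c) := by
  unfold TT
  rw [dif_pos hc]
  exact (exists_T hc).choose_spec

theorem card_cent_split {t : symplecticGroup (Fin m) F} (ht : ∀ v, qPlus m F (mA t *ᵥ v) = qPlus m F v) :
    Nat.card ↥(Subgroup.centralizer ({t} : Set ↥(symplecticGroup (Fin m) F))) =
      Nat.card {c : Fin m ⊕ Fin m → F // c ∈ LinearMap.ker (NN t) ∧ AS (qPlus m F c)} *
        Nat.card {A : symplecticGroup (Fin m) F // A * t = t * A ∧ ∀ v, qPlus m F (mA A *ᵥ v) = qPlus m F v} := by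
  rw [← Nat.card_prod]
  have hker : ∀ c, c ∈ LinearMap.ker (NN t) ↔ mA t *ᵥ c = c := by
    intro c
    rw [LinearMap.mem_ker, NN_apply, sub_eq_zero]
  have key : ∀ A : symplecticGroup (Fin m) F, A * t = t * A → mA t *ᵥ cc A = cc A := by
    intro A hA
    apply c_unique
    intro v
    have hA' : A⁻¹ * t = t * A⁻¹ := by
      have : A⁻¹ * (A * t) * A⁻¹ = A⁻¹ * (t * A) * A⁻¹ := by rw [hA]
      rw [inv_mul_cancel_left, mul_assoc, mul_assoc, mul_inv_cancel, mul_one] at this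
      exact this.symm
    have h1 := cc_spec A v
    have h3 := cc_spec A (mA t⁻¹ *ᵥ v)
    have h4 : mA A⁻¹ *ᵥ (mA t⁻¹ *ᵥ v) = mA t⁻¹ *ᵥ (mA A⁻¹ *ᵥ v) := by
      rw [← mA_mul, ← mA_mul, ← _root_.mul_inv_rev, ← _root_.mul_inv_rev, hA]
    have h5 : ∀ w, qPlus m F (mA t⁻¹ *ᵥ w) = qPlus m F w := by
      intro w
      rw [← ht (mA t⁻¹ *ᵥ w), mA_mul_inv]
    rw [h4, h5, h5, h1] at h3
    have h6 := add_left_cancel h3
    rw [h6, ← mA_form t (mA t⁻¹ *ᵥ v) (cc A), mA_mul_inv]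
  symm
  refine Nat.card_congr (Equiv.ofBijective (fun p => ⟨TT p.1.1 * p.2.1, ?_⟩) ⟨?_, ?_⟩)
  · rw [Subgroup.mem_centralizer_singleton_iff]
    rw [mul_assoc, p.2.2.1, ← mul_assoc, (TT_spec p.1.2.2).2.2 t ((hker _).mp p.1.2.1), mul_assoc]
  · rintro ⟨⟨c, hc1, hc2⟩, ⟨k, hk1, hk2⟩⟩ ⟨⟨c', hc1', hc2'⟩, ⟨k', hk1', hk2'⟩⟩ h
    have h1 : TT c * k = TT c' * k' := congrArg Subtype.val h
    have e : ∀ c k, AS (qPlus m F c) → (∀ v, qPlus m F (mA k *ᵥ v) = qPlus m F v) → cc (TT c * k) = c := by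
      intro c k hc hk
      apply cc_eq
      intro v
      have hk' : ∀ w, qPlus m F (mA k⁻¹ *ᵥ w) = qPlus m F w := by
        intro w
        rw [← hk (mA k⁻¹ *ᵥ w), mA_mul_inv]
      have hT : (TT c)⁻¹ = TT c := inv_eq_of_mul_eq_one_left (TT_spec hc).1
      rw [_root_.mul_inv_rev, mA_mul, hk', hT, (TT_spec hc).2.1]
    have h3 : c = c' := by rw [← e c k hc2 hk2, h1, e c' k' hc2' hk2']
    subst h3
    have h4 : k = k' := mul_left_cancel h1
    subst h4
    rfl
  · rintro ⟨A, hA⟩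
    rw [Subgroup.mem_centralizer_singleton_iff] at hA
    have h1 := key A hA
    have h3 := AS_cc A
    obtain ⟨hT1, hT2, hT3⟩ := TT_spec h3
    have hT : (TT (cc A))⁻¹ = TT (cc A) := inv_eq_of_mul_eq_one_left hT1
    refine ⟨⟨⟨cc A, (hker _).mpr h1, h3⟩, ⟨TT (cc A) * A, ?_, ?_⟩⟩, ?_⟩
    · rw [mul_assoc, hA, ← mul_assoc, hT3 t h1, mul_assoc]
    · intro v
      have h5 := hT2 (mA (TT (cc A) * A) *ᵥ v)
      rw [← mA_mul, ← mul_assoc, hT1, one_mul] at h5
      -- `Q (A v) = Q w + (w, c)^2` with `w = T A v`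
      have h6 := cc_spec A (mA A *ᵥ v)
      rw [mA_inv_mul] at h6
      rw [h6, h5]
      have h7 : sympForm m F (mA (TT (cc A) * A) *ᵥ v) (cc A) ^ 2 = sympForm m F (mA A *ᵥ v) (cc A) ^ 2 := by
        have h8 := hT2 (mA A *ᵥ v)
        rw [← mA_mul] at h8
        rw [h8] at h5
        have h9 : (2 : F) = 0 := CharTwo.two_eq_zero
        linear_combination -h5 - (sympForm m F (mA A *ᵥ v) (cc A) ^ 2) * h9
      rw [h7]
      have h9 : (2 : F) = 0 := CharTwo.two_eq_zero
      linear_combination -(sympForm m F (mA A *ᵥ v) (cc A) ^ 2) * h9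
    · apply Subtype.ext
      change TT (cc A) * (TT (cc A) * A) = A
      rw [← mul_assoc, hT1, one_mul]

end H48.Cd
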