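import Cfsg.Agent.Lib.H48.Cd3

/-!
Centralizer orders of involutions in `Ω⁺`, characteristic two.
-/

set_option autoImplicit false
set_option linter.unusedSectionVars false

namespace H48.Cd

open Matrix Cfsg Module H16.Symp H48.InvC QuadraticMap H48.QuadStd H48.QuadSplit H18.MaxSing H49.OrthAdj H48.OInv

section grp

theorem card_two {G : Type*} [Group G] [Finite G] (H : Subgroup G) (hidx : H.index = 2) (x c : G) (hc : c * x = x * c)
    (hcH : c ∉ H) : Nat.card {g : G // g * x = x * g} = 2 * Nat.card {g : ↥H // (g : G) * x = x * g} := by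
  rw [two_mul, ← Nat.card_sum]
  symm
  have hmul : ∀ g : G, g * x = x * g → (c * g) * x = x * (c * g) := by
    intro g hg
    rw [mul_assoc, hg, ← mul_assoc, hc, mul_assoc]
  refine Nat.card_congr (Equiv.ofBijective (Sum.elim (fun g => ⟨g.1.1, g.2⟩) (fun g => ⟨c * g.1.1, hmul _ g.2⟩)) ⟨?_, ?_⟩)
  · rintro (a | a) (b | b) h
    · have h1 : a.1.1 = b.1.1 := congrArg (fun z : {g : G // g * x = x * g} => z.1) h
      rw [Subtype.ext (Subtype.ext h1)]
    · exfalso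
      have h1 : a.1.1 = c * b.1.1 := congrArg (fun z : {g : G // g * x = x * g} => z.1) h
      apply hcH
      have : c = a.1.1 * (b.1.1)⁻¹ := by rw [h1, mul_inv_cancel_right]
      rw [this]
      exact H.mul_mem a.1.2 (H.inv_mem b.1.2)
    · exfalso
      have h1 : c * a.1.1 = b.1.1 := congrArg (fun z : {g : G // g * x = x * g} => z.1) h
      apply hcH
      have : c = b.1.1 * (a.1.1)⁻¹ := by rw [← h1, mul_inv_cancel_right]
      rw [this]
      exact H.mul_mem b.1.2 (H.inv_mem a.1.2)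
    · have h1 : c * a.1.1 = c * b.1.1 := congrArg (fun z : {g : G // g * x = x * g} => z.1) h
      rw [Subtype.ext (Subtype.ext (mul_left_cancel h1))]
  · rintro ⟨g, hg⟩
    by_cases hgH : g ∈ H
    · exact ⟨Sum.inl ⟨⟨g, hgH⟩, hg⟩, rfl⟩
    · have h1 : c⁻¹ * g ∈ H := by
        rw [Subgroup.mul_mem_iff_of_index_two hidx, inv_mem_iff]
        exact iff_of_false hcH hgH
      have h2 : (c⁻¹ * g) * x = x * (c⁻¹ * g) := by
        have h3 : c⁻¹ * x = x * c⁻¹ := by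
          rw [inv_mul_eq_iff_eq_mul, ← mul_assoc, hc, mul_inv_cancel_right]
        rw [mul_assoc, hg, ← mul_assoc, h3, mul_assoc]
      refine ⟨Sum.inr ⟨⟨c⁻¹ * g, h1⟩, h2⟩, ?_⟩
      apply Subtype.ext
      exact mul_inv_cancel_left c g

theorem card_one {G : Type*} [Group G] (H : Subgroup G) (x : G) (h : ∀ c, c * x = x * c → c ∈ H) :
    Nat.card {g : G // g * x = x * g} = Nat.card {g : ↥H // (g : G) * x = x * g} := by
  refine Nat.card_congr ⟨fun g => ⟨⟨g.1, h _ g.2⟩, g.2⟩, fun g => ⟨g.1.1, g.2⟩, ?_, ?_⟩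
  · intro g; rfl
  · intro g; rfl

end grp

section arith

theorem exp3 {m s : ℕ} (h : s ≤ m) (hs : 1 ≤ s) :
    2 * m * s - (3 * s ^ 2 - s) / 2 = (2 * m - s) + (2 * m * (s - 1) - (3 * s ^ 2 - 3 * s) / 2) := by
  obtain ⟨r, rfl⟩ := Nat.exists_eq_add_of_le h
  obtain ⟨k, rfl⟩ := Nat.exists_eq_add_of_le hs
  obtain ⟨c, h1, h2, h3⟩ := exists_tri (1 + k)
  have h4 : (1 + k) ^ 2 + (1 + k) = 2 * c := by linarith [h1, show (1 + k) * ((1 + k) + 1) = (1 + k) ^ 2 + (1 + k) by ring]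
  have h6 : (1 + k) ≤ (1 + k) ^ 2 := by nlinarith
  have h5 : (3 * (1 + k) ^ 2 - 3 * (1 + k)) / 2 = 2 * (1 + k) ^ 2 - c - (1 + k) := by
    have : 3 * (1 + k) ^ 2 - 3 * (1 + k) = 2 * (2 * (1 + k) ^ 2 - c - (1 + k)) := by omega
    rw [this, Nat.mul_div_cancel_left _ two_pos]
  rw [h3, h5, Nat.add_sub_cancel_left]
  have e1 : 2 * (1 + k + r) * (1 + k) = 2 * (1 + k) ^ 2 + 2 * (r * (1 + k)) := by ring
  have e2 : 2 * (1 + k + r) * k + 2 * (1 + k + r) = 2 * (1 + k + r) * (1 + k) := by ring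
  have e3 : 2 * (1 + k + r) * k = 2 * (1 + k) ^ 2 + 2 * (r * (1 + k)) - 2 * (1 + k + r) := by omega
  rw [e1, e3]
  have e5 : r ≤ r * (1 + k) := Nat.le_mul_of_pos_right _ (by omega)
  have e4 : 2 * (1 + k + r) ≤ 2 * (1 + k) ^ 2 + 2 * (r * (1 + k)) := by omega
  omega

theorem exp4 {m s : ℕ} (h : s ≤ m) (hs : 2 ≤ s) :
    2 * m * s - (3 * s ^ 2 - 3 * s) / 2 - 1 = (2 * m - s) + (2 * m * (s - 1) - (3 * s ^ 2 - 5 * s) / 2 - 1) := by
  obtain ⟨r, rfl⟩ := Nat.exists_eq_add_of_le h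
  obtain ⟨k, rfl⟩ := Nat.exists_eq_add_of_le hs
  obtain ⟨c, h1, h2, h3⟩ := exists_tri (2 + k)
  have h4 : (2 + k) ^ 2 + (2 + k) = 2 * c := by linarith [h1, show (2 + k) * ((2 + k) + 1) = (2 + k) ^ 2 + (2 + k) by ring]
  have h6 : 2 * (2 + k) ≤ (2 + k) ^ 2 := by nlinarith
  have h5 : (3 * (2 + k) ^ 2 - 3 * (2 + k)) / 2 = 2 * (2 + k) ^ 2 - c - (2 + k) := by
    have : 3 * (2 + k) ^ 2 - 3 * (2 + k) = 2 * (2 * (2 + k) ^ 2 - c - (2 + k)) := by omega
    rw [this, Nat.mul_div_cancel_left _ two_pos]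
  have h7 : (3 * (2 + k) ^ 2 - 5 * (2 + k)) / 2 = 2 * (2 + k) ^ 2 - c - 2 * (2 + k) := by
    have : 3 * (2 + k) ^ 2 - 5 * (2 + k) = 2 * (2 * (2 + k) ^ 2 - c - 2 * (2 + k)) := by omega
    rw [this, Nat.mul_div_cancel_left _ two_pos]
  rw [h5, h7]
  have e0 : 2 + k - 1 = 1 + k := by omega
  rw [e0]
  have e1 : 2 * (2 + k + r) * (2 + k) = 2 * (2 + k) ^ 2 + 2 * (r * (2 + k)) := by ring
  have e2 : 2 * (2 + k + r) * (1 + k) + 2 * (2 + k + r) = 2 * (2 + k + r) * (2 + k) := by ring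
  have e3 : 2 * (2 + k + r) * (1 + k) = 2 * (2 + k) ^ 2 + 2 * (r * (2 + k)) - 2 * (2 + k + r) := by omega
  rw [e1, e3]
  have e5 : r ≤ r * (2 + k) := Nat.le_mul_of_pos_right _ (by omega)
  have e6 : r * 2 ≤ r * (2 + k) := Nat.mul_le_mul_left _ (by omega)
  have e4 : 2 * (2 + k + r) ≤ 2 * (2 + k) ^ 2 + 2 * (r * (2 + k)) := by omega
  omega

theorem exp5 {m s : ℕ} (h : s ≤ m) :
    2 * m * s - (3 * s ^ 2 - s) / 2 = s + (2 * m * s - (3 * s ^ 2 + s) / 2) := by
  obtain ⟨r, rfl⟩ := Nat.exists_eq_add_of_le h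
  obtain ⟨c, h1, h2, h3⟩ := exists_tri s
  have h4 : s ^ 2 + s = 2 * c := by linarith [h1, show s * (s + 1) = s ^ 2 + s by ring]
  have h6 : s ≤ s ^ 2 := by nlinarith
  have h5 : (3 * s ^ 2 + s) / 2 = s ^ 2 + c := by
    have : 3 * s ^ 2 + s = 2 * (s ^ 2 + c) := by omega
    rw [this, Nat.mul_div_cancel_left _ two_pos]
  rw [h3, h5]
  have e1 : 2 * (s + r) * s = 2 * s ^ 2 + 2 * (r * s) := by ring
  rw [e1]
  omega

end arith

variable {F : Type*} [Field F] [CharP F 2] {m : ℕ}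

/-- isometries as symplectic maps -/
def toSp (g : G (qPlus m F)) : symplecticGroup (Fin m) F :=
  ⟨mt g, (mem_symplecticGroup_iff _).mpr fun u v => by
    rw [← pol_eq, ← pol_eq]
    simp only [polar, ← Matrix.mulVec_add, isom]⟩

theorem toSp_mul (g h : G (qPlus m F)) : toSp (g * h) = toSp g * toSp h := Subtype.ext (mt_mul g h)

theorem mA_toSp (g : G (qPlus m F)) : mA (toSp g) = mt g := rfl

theorem toSp_inj : Function.Injective (toSp (F := F) (m := m)) := fun g h hgh =>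
  mt_ext (fun x => congrArg (fun A : symplecticGroup (Fin m) F => mA A *ᵥ x) hgh)

theorem exists_toSp (A : symplecticGroup (Fin m) F) (hA : ∀ v, qPlus m F (mA A *ᵥ v) = qPlus m F v) :
    ∃ g : G (qPlus m F), toSp g = A := by
  let e : (Fin m ⊕ Fin m → F) ≃ₗ[F] (Fin m ⊕ Fin m → F) :=
    LinearEquiv.ofLinearMap (Matrix.mulVecLin (mA A)) (Matrix.mulVecLin (mA A⁻¹))
      (LinearMap.ext fun v => mA_mul_inv A v) (LinearMap.ext fun v => mA_inv_mul A v)
  obtain ⟨g, hg⟩ := exists_coe (qPlus m F) e (fun v => hA v)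
  exact ⟨g, mA_ext fun v => hg v⟩

theorem card_K (x : G (qPlus m F)) : Nat.card {A : symplecticGroup (Fin m) F // A * toSp x = toSp x * A ∧
    ∀ v, qPlus m F (mA A *ᵥ v) = qPlus m F v} = Nat.card {g : G (qPlus m F) // g * x = x * g} := by
  symm
  refine Nat.card_congr (Equiv.ofBijective (fun g => ⟨toSp g.1, by rw [← toSp_mul, g.2, toSp_mul], isom g.1⟩) ⟨?_, ?_⟩)
  · intro g h hgh
    exact Subtype.ext (toSp_inj (congrArg Subtype.val hgh))
  · rintro ⟨A, hA1, hA2⟩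
    obtain ⟨g, rfl⟩ := exists_toSp A hA2
    refine ⟨⟨g, ?_⟩, rfl⟩
    apply toSp_inj
    rw [toSp_mul, toSp_mul, hA1]

theorem NN_toSp (x : G (qPlus m F)) : NN (toSp x) = mN x := rfl

variable [Fintype F]

theorem card_ker (t : symplecticGroup (Fin m) F) {s : ℕ} (hs : finrank F ↥(LinearMap.range (NN t)) = s) :
    Nat.card ↥(LinearMap.ker (NN t)) = Fintype.card F ^ (2 * m - s) := by
  have h1 := LinearMap.finrank_range_add_finrank_ker (NN t)
  rw [finrank_space, hs] at h1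
  rw [Module.natCard_eq_pow_finrank (K := F), Nat.card_eq_fintype_card]
  congr 1
  omega

section main

variable {x : G (qPlus m F)} (hx : x * x = 1) {s : ℕ} (hs : finrank F ↥(LinearMap.range (mN x)) = s)
include hx hs

theorem range_le_ker : LinearMap.range (mN x) ≤ LinearMap.ker (mN x) := by
  rintro _ ⟨v, rfl⟩
  exact (oi_of_sq x hx).sq v

theorem orth_rk {u v : Fin m ⊕ Fin m → F} (hu : u ∈ LinearMap.range (mN x)) (hv : v ∈ LinearMap.ker (mN x)) :
    polar (qPlus m F) u v = 0 := by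
  obtain ⟨y, rfl⟩ := hu
  rw [(oi_of_sq x hx).adj, LinearMap.mem_ker.mp hv, QuadraticMap.polar_zero_right]

theorem s_le' : s ≤ m := by
  rw [← hs]
  exact (oi_of_sq x hx).rank_le (finrank_space m)

/-- the common part -/
theorem cent_aux : ∃ n : ℕ, n = Nat.card {c : Fin m ⊕ Fin m → F // c ∈ LinearMap.ker (mN x) ∧ AS (qPlus m F c)} ∧
    Nat.card ↥(Subgroup.centralizer ({toSp x} : Set ↥(symplecticGroup (Fin m) F))) =
      n * Nat.card {g : G (qPlus m F) // g * x = x * g} := by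
  refine ⟨_, rfl, ?_⟩
  have hc := card_cent_split (t := toSp x) (isom x)
  rw [card_K] at hc
  exact hc

theorem card_ker' : Nat.card ↥(LinearMap.ker (mN x)) = Fintype.card F ^ (2 * m - s) := card_ker (toSp x) hs

/-- types `b` and `c` -/
theorem cent_na (hidx : (Cfsg.Omega F (⇑(qPlus m F))).index = 2) (hna : ∃ v, qPlus m F (mN x v) ≠ 0) :
    Nat.card ↥(Subgroup.centralizer ({toSp x} : Set ↥(symplecticGroup (Fin m) F))) =
      Fintype.card F ^ (2 * m - s) *
        Nat.card {g : ↥(Cfsg.Omega F (⇑(qPlus m F))) // (g : G (qPlus m F)) * x = x * (g : G (qPlus m F))} := by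
  obtain ⟨v, hv⟩ := hna
  obtain ⟨n, hn, hc⟩ := cent_aux hx hs
  have h1 := count_na (Q := qPlus m F) (LinearMap.ker (mN x)) (w := mN x v)
    (range_le_ker hx hs ⟨v, rfl⟩) hv (fun c hc => orth_rk hx hs ⟨v, rfl⟩ hc)
  rw [card_ker' hx hs, ← hn] at h1
  obtain ⟨c, hcm, hcc⟩ := exists_commute_not_mem (nd_qPlus (F := F) m) (m := m) (by simp [two_mul]) x hx
    (fun h => hv (h.2 v))
  have h2 := card_two (Cfsg.Omega F (⇑(qPlus m F))) hidx x c hcc.symm hcm
  rw [hc, h2, ← h1]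
  ring

/-- a maximal totally singular subspace -/
theorem exists_E (halt : ∀ v, qPlus m F (mN x v) = 0) : ∃ E : Submodule F (Fin m ⊕ Fin m → F),
    E ≤ LinearMap.ker (mN x) ∧ TS (qPlus m F) E ∧ finrank F ↥E = m := by
  have hR : TS (qPlus m F) (LinearMap.range (mN x)) := by
    rintro _ ⟨v, rfl⟩
    exact halt v
  refine ⟨(stdE m F ⊓ orth (qPlus m F) (LinearMap.range (mN x))) ⊔ LinearMap.range (mN x), ?_, ?_, ?_⟩
  · apply sup_le
    · rintro v ⟨-, hv⟩
      rw [LinearMap.mem_ker]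
      apply nd_qPlus (F := F) m
      intro u
      rw [(oi_of_sq x hx).adj, polar_comm]
      exact hv _ ⟨u, rfl⟩
    · exact range_le_ker hx hs
  · exact ts_replace (ts_stdE m) hR
  · exact finrank_replace (nd_qPlus m) (finrank_space m) (ts_stdE m) (finrank_stdE m) hR

theorem count_a (halt : ∀ v, qPlus m F (mN x v) = 0) :
    2 * Nat.card {c : Fin m ⊕ Fin m → F // c ∈ LinearMap.ker (mN x) ∧ AS (qPlus m F c)} =
      Fintype.card F ^ (2 * m - s) + Fintype.card F ^ m := by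
  obtain ⟨E, hE1, hE2, hE3⟩ := exists_E hx hs halt
  have h1 := count_alt (Q := qPlus m F) (LinearMap.ker (mN x)) E hE1 hE2 (by
    intro v hv
    rw [← orth_eq_self (nd_qPlus m) (finrank_space m) hE2 hE3]
    intro u hu
    rw [polar_comm]
    exact hv u hu)
  rw [card_ker' hx hs, Module.natCard_eq_pow_finrank (K := F) (V := ↥E), hE3, Nat.card_eq_fintype_card (α := F)] at h1
  exact h1

/-- type `a`, rank less than `m` -/
theorem cent_alt_lt (hidx : (Cfsg.Omega F (⇑(qPlus m F))).index = 2) (halt : ∀ v, qPlus m F (mN x v) = 0) (hsm : s < m) :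
    Nat.card ↥(Subgroup.centralizer ({toSp x} : Set ↥(symplecticGroup (Fin m) F))) =
      (Fintype.card F ^ (2 * m - s) + Fintype.card F ^ m) *
        Nat.card {g : ↥(Cfsg.Omega F (⇑(qPlus m F))) // (g : G (qPlus m F)) * x = x * (g : G (qPlus m F))} := by
  obtain ⟨n, hn, hc⟩ := cent_aux hx hs
  have h1 := count_a hx hs halt
  rw [← hn] at h1
  obtain ⟨c, hcm, hcc⟩ := exists_commute_not_mem (nd_qPlus (F := F) m) (m := m) (by simp [two_mul]) x hx
    (fun h => by have := h.1; omega)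
  have h2 := card_two (Cfsg.Omega F (⇑(qPlus m F))) hidx x c hcc.symm hcm
  rw [hc, h2, ← h1]
  ring

/-- type `a`, rank `m` -/
theorem cent_alt_eq (hidx : (Cfsg.Omega F (⇑(qPlus m F))).index = 2) (halt : ∀ v, qPlus m F (mN x v) = 0) (hsm : s = m) (hm : 1 ≤ m) :
    Nat.card ↥(Subgroup.centralizer ({toSp x} : Set ↥(symplecticGroup (Fin m) F))) =
      Fintype.card F ^ m *
        Nat.card {g : ↥(Cfsg.Omega F (⇑(qPlus m F))) // (g : G (qPlus m F)) * x = x * (g : G (qPlus m F))} := by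
  obtain ⟨n, hn, hc⟩ := cent_aux hx hs
  have h1 := count_a hx hs halt
  rw [← hn] at h1
  have h2 := card_one (Cfsg.Omega F (⇑(qPlus m F))) x
    (fun c hc => alt_max_centralizer hm hidx x hx (hs.trans hsm) halt c hc.symm)
  have h3 : 2 * m - s = m := by omega
  rw [h3, ← two_mul] at h1
  rw [hc, h2, Nat.eq_of_mul_eq_mul_left two_pos h1]

end main

end H48.Cd
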