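import Cfsg.Agent.Lib.H48.Cd4

/-!
Centralizer orders of involutions in `Ω⁺`, characteristic two: the formulas.
-/

set_option autoImplicit false
set_option linter.unusedSectionVars false

namespace H48.Cd

open Matrix Cfsg Module H16.Symp H48.InvC QuadraticMap H48.QuadStd H48.QuadSplit H18.MaxSing H49.OrthAdj H48.OInv

variable {F : Type*} [Field F] [CharP F 2] [Fintype F] {m : ℕ}

theorem hidx_of (hm : 1 ≤ m) (h : Fintype.card F ≠ 2 ∨ m ≠ 2) : (Cfsg.Omega F (⇑(qPlus m F))).index = 2 :=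
  (H17.DicksonInv.main_even (nd_iff.mp (nd_qPlus m)) (by simp; omega)
    (by
      rcases h with h | h
      · exact Or.inl h
      · right
        simp only [Fintype.card_sum, Fintype.card_fin]
        omega)).1

variable {x : G (qPlus m F)} (hx : x ^ 2 = 1) {s : ℕ} (hs : (mt x - 1).rank = s)
include hx hs

theorem m_pos (hx1 : x ≠ 1) : 1 ≤ m := by
  rcases Nat.eq_zero_or_pos m with rfl | h
  · exfalso
    apply hx1
    apply mt_ext
    intro v
    ext i
    rcases i with i | i <;> exact i.elim0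
  · exact h

theorem spsq : (toSp x) ^ 2 = 1 := by
  rw [pow_two, ← toSp_mul, ← pow_two, hx]
  rfl

theorem r2683 {q : ℕ} (hF : Fintype.card F = q) (h : Fintype.card F ≠ 2 ∨ m ≠ 2) (hodd : Odd s) :
    Nat.card {g : ↥(Cfsg.Omega F (⇑(qPlus m F))) // (g : G (qPlus m F)) * x = x * (g : G (qPlus m F))} =
      q ^ (2 * m * (s - 1) - (3 * s ^ 2 - 3 * s) / 2) * ((q : ℕ) ^ (((s - 1) / 2) ^ 2) * ∏ i : Fin ((s - 1) / 2), (q ^ (2 * ((i : ℕ) + 1)) - 1)) * ((q : ℕ) ^ ((m - s) ^ 2) * ∏ i : Fin (m - s), (q ^ (2 * ((i : ℕ) + 1)) - 1)) := by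
  have hx' : x * x = 1 := by rw [← pow_two]; exact hx
  have hna : ∃ v, qPlus m F (mN x v) ≠ 0 := by
    by_contra hcon
    push Not at hcon
    have h1 := (oi_of_sq x hx').even_rank (nd_qPlus m) hcon
    have h2 : finrank F (LinearMap.range (mN x)) = s := hs
    rw [h2] at h1
    exact (Nat.not_even_iff_odd.mpr hodd) h1
  have hs1 : 1 ≤ s := by
    obtain ⟨k, rfl⟩ := hodd
    omega
  have hsm := s_le' hx' (s := s) hs
  have h1 := cent_na hx' (s := s) hs (hidx_of (by omega) h) hna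
  have h2 := s2680 (t := toSp x) (spsq hx hs) hF (s := s) hs hodd
  rw [h2, exp3 hsm hs1, pow_add, hF] at h1
  have hq : 0 < q ^ (2 * m - s) := Nat.pow_pos (by rw [← hF]; exact Fintype.card_pos)
  apply Nat.eq_of_mul_eq_mul_left hq
  rw [← h1]
  ring

theorem r2685 {q : ℕ} (hF : Fintype.card F = q) (h : Fintype.card F ≠ 2 ∨ m ≠ 2) (heven : Even s)
    (hna : ∃ v, qPlus m F (mN x v) ≠ 0) :
    Nat.card {g : ↥(Cfsg.Omega F (⇑(qPlus m F))) // (g : G (qPlus m F)) * x = x * (g : G (qPlus m F))} =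
      q ^ (2 * m * (s - 1) - (3 * s ^ 2 - 5 * s) / 2 - 1) * ((q : ℕ) ^ (((s - 2) / 2) ^ 2) * ∏ i : Fin ((s - 2) / 2), (q ^ (2 * ((i : ℕ) + 1)) - 1)) * ((q : ℕ) ^ ((m - s) ^ 2) * ∏ i : Fin (m - s), (q ^ (2 * ((i : ℕ) + 1)) - 1)) := by
  have hx' : x * x = 1 := by rw [← pow_two]; exact hx
  have hs0 : 0 < s := by
    obtain ⟨v, hv⟩ := hna
    have h1 : 0 < finrank F (LinearMap.range (mN x)) := OI.rank_pos ⟨v, hv⟩
    have h2 : finrank F (LinearMap.range (mN x)) = s := hs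
    omega
  have hs2 : 2 ≤ s := by
    obtain ⟨k, rfl⟩ := heven
    omega
  have hsm := s_le' hx' (s := s) hs
  have h1 := cent_na hx' (s := s) hs (hidx_of (by omega) h) hna
  have hna' : ∃ v, sympForm m F v ((toSp x : Matrix (Fin m ⊕ Fin m) (Fin m ⊕ Fin m) F).mulVec v) ≠ 0 := by
    obtain ⟨v, hv⟩ := hna
    refine ⟨v, ?_⟩
    rw [(oi_of_sq x hx').Q_N, pol_eq, mN_apply, sympForm_sub_right, sympForm_self, sub_zero] at hv
    exact hv
  have h2 := s2682 (t := toSp x) (spsq hx hs) hF (s := s) hs heven hna'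
  rw [h2, exp4 hsm hs2, pow_add, hF] at h1
  have hq : 0 < q ^ (2 * m - s) := Nat.pow_pos (by rw [← hF]; exact Fintype.card_pos)
  apply Nat.eq_of_mul_eq_mul_left hq
  rw [← h1]
  ring

theorem r2684 {q : ℕ} (hF : Fintype.card F = q) (h : Fintype.card F ≠ 2 ∨ m ≠ 2) (hx1 : x ≠ 1) (heven : Even s)
    (halt : ∀ v, qPlus m F (mN x v) = 0) :
    Nat.card {g : ↥(Cfsg.Omega F (⇑(qPlus m F))) // (g : G (qPlus m F)) * x = x * (g : G (qPlus m F))} =
      q ^ (2 * m * s - (3 * s ^ 2 + s) / 2) * ((q : ℕ) ^ ((s / 2) ^ 2) * ∏ i : Fin (s / 2), (q ^ (2 * ((i : ℕ) + 1)) - 1)) * (if s = m then 1 else q ^ ((m - s) * (m - s - 1)) * (q ^ (m - s) - 1) * ∏ i : Fin (m - s - 1), (q ^ (2 * ((i : ℕ) + 1)) - 1)) := by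
  have hx' : x * x = 1 := by rw [← pow_two]; exact hx
  have hm := m_pos hx hs hx1
  have hsm := s_le' hx' (s := s) hs
  have hqp : 0 < q := by rw [← hF]; exact Fintype.card_pos
  have hq1 : 1 < q := by rw [← hF]; exact Fintype.one_lt_card
  have halt' : ∀ v, sympForm m F v ((toSp x : Matrix (Fin m ⊕ Fin m) (Fin m ⊕ Fin m) F).mulVec v) = 0 := by
    intro v
    have hv := halt v
    rw [(oi_of_sq x hx').Q_N, pol_eq, mN_apply, sympForm_sub_right, sympForm_self, sub_zero] at hv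
    exact hv
  have h2 := s2681 (t := toSp x) (spsq hx hs) hF (s := s) hs heven halt'
  by_cases he : s = m
  · have h1 := cent_alt_eq hx' (s := s) hs (hidx_of hm h) halt he hm
    rw [h2, exp5 hsm, pow_add, hF] at h1
    rw [if_pos he]
    have hq : 0 < q ^ m := Nat.pow_pos hqp
    apply Nat.eq_of_mul_eq_mul_left hq
    rw [← h1, he, Nat.sub_self]
    simp only [Finset.univ_eq_empty, Finset.prod_empty, mul_one]
    have : q ^ 0 ^ 2 = 1 := by norm_num
    rw [this]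
    ring
  · have h1 := cent_alt_lt hx' (s := s) hs (hidx_of hm h) halt (by omega)
    rw [h2, exp5 hsm, pow_add, hF] at h1
    rw [if_neg he]
    obtain ⟨k, rfl⟩ : ∃ k, m = s + (k + 1) := ⟨m - s - 1, by omega⟩
    have e1 : s + (k + 1) - s = k + 1 := by omega
    have e2 : k + 1 - 1 = k := by omega
    have e3 : 2 * (s + (k + 1)) - s = s + (k + 1) + (k + 1) := by omega
    rw [e1, e2]
    rw [e1, e3, Fin.prod_univ_castSucc] at h1
    simp only [Fin.val_castSucc, Fin.val_last] at h1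
    have hpos : 0 < q ^ (s + (k + 1) + (k + 1)) + q ^ (s + (k + 1)) := by positivity
    apply Nat.eq_of_mul_eq_mul_left hpos
    rw [← h1]
    obtain ⟨z, hz⟩ : ∃ z, q ^ (k + 1) = z + 1 := ⟨q ^ (k + 1) - 1, by have := Nat.one_le_pow (k + 1) q hqp; omega⟩
    have e4 : q ^ (2 * (k + 1)) - 1 = z * (z + 2) := by
      have : q ^ (2 * (k + 1)) = z * (z + 2) + 1 := by
        rw [mul_comm 2, pow_mul, hz]
        ring
      rw [this, Nat.add_sub_cancel]
    have e5 : q ^ (k + 1) - 1 = z := by rw [hz, Nat.add_sub_cancel]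
    have e6 : q ^ (s + (k + 1) + (k + 1)) + q ^ (s + (k + 1)) = q ^ s * q ^ (k + 1) * (z + 2) := by
      rw [pow_add _ (s + (k + 1)), pow_add, hz]
      ring
    have e7 : q ^ ((k + 1) ^ 2) = q ^ ((k + 1) * k) * q ^ (k + 1) := by
      rw [← pow_add]
      congr 1
      ring
    rw [e4, e5, e6, e7]
    ring

end H48.Cd
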