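import Mathlib
import Cfsg.Agent.Lib.H1.Coprime2
import Cfsg.Agent.Lib.H27.GenSub

set_option autoImplicit false

/-! Indices under coprime action: `|G : K|` divides the product of the indices of the fixed points. -/

namespace H48.Dr

open Subgroup
open scoped Pointwise commutatorElement

section ab

variable {Q : Type*} [Group Q] [Finite Q]

theorem card_sup_le (hc : ∀ x y : Q, x * y = y * x) (H K : Subgroup Q) :
    Nat.card (H ⊔ K : Subgroup Q) ≤ Nat.card H * Nat.card K := by
  have hn : K.Normal := ⟨fun x hx g => by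
    have : g * x * g⁻¹ = x := by rw [hc g x, mul_inv_cancel_right]
    rwa [this]⟩
  have h1 : ((H ⊔ K : Subgroup Q) : Set Q) = (H : Set Q) * (K : Set Q) := mul_normal H K
  have h2 : Nat.card (H ⊔ K : Subgroup Q) = Nat.card ((H : Set Q) * (K : Set Q) : Set Q) := by
    rw [← h1]; rfl
  rw [h2]
  have := Set.natCard_mul_le (s := (H : Set Q)) (t := (K : Set Q))
  exact this

theorem card_biSup_le (hc : ∀ x y : Q, x * y = y * x) {ι : Type*} (s : Finset ι) (D : ι → Subgroup Q) :
    Nat.card (⨆ i ∈ s, D i : Subgroup Q) ≤ ∏ i ∈ s, Nat.card (D i) := by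
  classical
  induction s using Finset.induction_on with
  | empty => simp
  | insert a s ha ih =>
    rw [Finset.iSup_insert, Finset.prod_insert ha]
    exact (card_sup_le hc _ _).trans (Nat.mul_le_mul_left _ ih)

end ab

theorem index_le_prod {Γ : Type*} [Group Γ] [Finite Γ] (N : Subgroup Γ) [N.Normal] (hN : commutator Γ ≤ N)
    {ι : Type*} (s : Finset ι) (C : ι → Subgroup Γ) (hC : N ⊔ ⨆ i ∈ s, C i = ⊤) :
    N.index ≤ ∏ i ∈ s, N.relIndex (C i) := by
  have hc : ∀ x y : Γ ⧸ N, x * y = y * x := by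
    intro x y
    obtain ⟨x, rfl⟩ := QuotientGroup.mk'_surjective N x
    obtain ⟨y, rfl⟩ := QuotientGroup.mk'_surjective N y
    rw [← map_mul, ← map_mul]
    rw [QuotientGroup.mk'_eq_mk']
    refine ⟨y⁻¹ * x⁻¹ * y * x, ?_, by group⟩
    apply hN
    have : y⁻¹ * x⁻¹ * y * x = ⁅y⁻¹, x⁻¹⁆ := by rw [commutatorElement_def]; group
    rw [this]
    exact commutator_mem_commutator (mem_top _) (mem_top _)
  have h1 := card_biSup_le hc s (fun i => (C i).map (QuotientGroup.mk' N))
  have h2 : (⨆ i ∈ s, (C i).map (QuotientGroup.mk' N)) = ⊤ := by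
    have h3 : ((⨆ i ∈ s, C i).map (QuotientGroup.mk' N)) = ⊤ := by
      have := congrArg (Subgroup.map (QuotientGroup.mk' N)) hC
      rw [Subgroup.map_sup, QuotientGroup.map_mk'_self, bot_sup_eq] at this
      rw [this, ← MonoidHom.range_eq_map, QuotientGroup.range_mk']
    rw [← h3, Subgroup.map_iSup]
    congr 1
    ext1 i
    rw [Subgroup.map_iSup]
  rw [h2, Subgroup.card_top] at h1
  rw [Subgroup.index]
  refine h1.trans (le_of_eq ?_)
  apply Finset.prod_congr rfl
  intro i _
  rw [← relIndex_ker, QuotientGroup.ker_mk']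

variable {X : Type*} [Group X] [Finite X]

theorem relIndex_mul {R R' T C : Subgroup X} (h1 : R ≤ R') (h2 : R' ≤ T) :
    R.relIndex (R' ⊓ C) * R'.relIndex (T ⊓ C) = R.relIndex (T ⊓ C) := by
  have h := relIndex_mul_relIndex (R ⊓ C) (R' ⊓ C) (T ⊓ C) (inf_le_inf_right _ h1) (inf_le_inf_right _ h2)
  have a1 : (R ⊓ C).relIndex (R' ⊓ C) = R.relIndex (R' ⊓ C) := by
    rw [← inf_relIndex_right, ← inf_relIndex_right (H := R)]
    congr 1
    apply le_antisymm
    · exact le_inf (inf_le_left.trans inf_le_left) inf_le_right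
    · exact le_inf (le_inf inf_le_left (inf_le_right.trans inf_le_right)) inf_le_right
  have a2 : (R' ⊓ C).relIndex (T ⊓ C) = R'.relIndex (T ⊓ C) := by
    rw [← inf_relIndex_right, ← inf_relIndex_right (H := R')]
    congr 1
    apply le_antisymm
    · exact le_inf (inf_le_left.trans inf_le_left) inf_le_right
    · exact le_inf (le_inf inf_le_left (inf_le_right.trans inf_le_right)) inf_le_right
  have a3 : (R ⊓ C).relIndex (T ⊓ C) = R.relIndex (T ⊓ C) := by
    rw [← inf_relIndex_right, ← inf_relIndex_right (H := R)]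
    congr 1
    apply le_antisymm
    · exact le_inf (inf_le_left.trans inf_le_left) inf_le_right
    · exact le_inf (le_inf inf_le_left (inf_le_right.trans inf_le_right)) inf_le_right
  rw [a1, a2, a3] at h
  exact h

/-- one step -/
theorem step {ι : Type*} (s : Finset ι) (B : ι → Subgroup X) {R R' : Subgroup X} (hRR : R ≤ R')
    (hn : R' ≤ normalizer (R : Set X)) (hcom : ⁅R', R'⁆ ≤ R)
    (hgen : R' = ⨆ i ∈ s, R' ⊓ centralizer (B i : Set X)) :
    R.relIndex R' ≤ ∏ i ∈ s, R.relIndex (R' ⊓ centralizer (B i : Set X)) := by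
  have : (R.subgroupOf R').Normal := (Subgroup.normal_subgroupOf_iff_le_normalizer hRR).mpr hn
  have h := index_le_prod (R.subgroupOf R') (by
    rw [← Subgroup.map_subtype_le_map_subtype, Subgroup.map_subgroupOf_eq_of_le hRR, map_subtype_commutator]
    exact hcom) s (fun i => (R' ⊓ centralizer (B i : Set X)).subgroupOf R') (by
    rw [eq_top_iff, ← Subgroup.map_subtype_le_map_subtype, Subgroup.map_sup, Subgroup.map_iSup,
      ← MonoidHom.range_eq_map, Subgroup.range_subtype]
    refine le_trans ?_ le_sup_right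
    conv_lhs => rw [hgen]
    apply iSup_mono
    intro i
    rw [Subgroup.map_iSup]
    apply iSup_mono
    intro hi
    rw [Subgroup.map_subgroupOf_eq_of_le inf_le_left])
  rw [Subgroup.relIndex]
  refine h.trans (le_of_eq ?_)
  apply Finset.prod_congr rfl
  intro i _
  rw [Subgroup.relIndex_subgroupOf inf_le_left]

theorem relIndex_le {ι : Type*} (s : Finset ι) (B : ι → Subgroup X) {p : ℕ} [Fact p.Prime] {A P : Subgroup X}
    (hP : IsPGroup p P) (hAP : A ≤ normalizer (P : Set X))
    (hgen : ∀ K : Subgroup X, K ≤ P → A ≤ normalizer (K : Set X) →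
      K = ⨆ i ∈ s, K ⊓ centralizer (B i : Set X)) :
    ∀ R : Subgroup X, R ≤ P → A ≤ normalizer (R : Set X) →
      R.relIndex P ≤ ∏ i ∈ s, R.relIndex (P ⊓ centralizer (B i : Set X)) := by
  intro R
  induction hd : R.relIndex P using Nat.strong_induction_on generalizing R with
  | _ d ih =>
  intro hRP hAR
  by_cases hRe : R = P
  · subst hRe
    rw [← hd, Subgroup.relIndex_self]
    exact Nat.one_le_iff_ne_zero.mpr (Finset.prod_ne_zero_iff.mpr fun i _ => Subgroup.FiniteIndex.index_ne_zero)
  have hlt : R < P := lt_of_le_of_ne hRP hRe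
  obtain ⟨R', hR'P, hR'⟩ := Finite.exists_le_minimal
    (p := fun U : Subgroup X => R < U ∧ A ≤ normalizer (U : Set X)) (a := P) ⟨hlt, hAP⟩
  obtain ⟨⟨hRR', hAR'⟩, hmin⟩ := hR'
  have hmin' : ∀ U : Subgroup X, R < U → U ≤ R' → A ≤ normalizer (U : Set X) → U = R' :=
    fun U h1 h2 h3 => le_antisymm h2 (hmin ⟨h1, h3⟩ h2)
  have hR'p : IsPGroup p R' := hP.to_le hR'P
  have : Group.IsNilpotent R' := hR'p.isNilpotent
  -- normal
  have hnor : R' ≤ normalizer (R : Set X) := by
    have hlt2 : R < R' ⊓ normalizer (R : Set X) := by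
      refine lt_of_le_of_ne (le_inf hRR'.le Subgroup.le_normalizer) ?_
      intro heq
      have hnc := Group.normalizerCondition_of_isNilpotent (G := R') (R.subgroupOf R') (by
        rw [lt_top_iff_ne_top, Ne, Subgroup.subgroupOf_eq_top]
        exact not_le_of_gt hRR')
      obtain ⟨x, hx1, hx2⟩ := SetLike.exists_of_lt hnc
      apply hx2
      rw [Subgroup.mem_subgroupOf, heq]
      refine mem_inf.mpr ⟨x.2, ?_⟩
      rw [mem_normalizer_iff] at hx1 ⊢
      intro h
      constructor
      · intro hh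
        have := (hx1 ⟨h, hRR'.le hh⟩).mp hh
        exact this
      · intro hh
        have hh' : h ∈ R' := by
          have h5 : (x : X)⁻¹ * ((x : X) * h * (x : X)⁻¹) * (x : X) ∈ R' :=
            mul_mem (mul_mem (inv_mem x.2) (hRR'.le hh)) x.2
          have : (x : X)⁻¹ * ((x : X) * h * (x : X)⁻¹) * (x : X) = h := by group
          rwa [this] at h5
        exact (hx1 ⟨h, hh'⟩).mpr hh
    have := hmin' _ hlt2 inf_le_left (H1.Coprime2.le_normalizer_inf hAR' (H1.Coprime2.le_normalizer_normalizer hAR))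
    rw [← this]
    exact inf_le_right
  have hcom : ⁅R', R'⁆ ≤ R := by
    by_contra hc
    have hlt2 : R < ⁅R', R'⁆ ⊔ R := by
      refine lt_of_le_of_ne le_sup_right ?_
      intro heq
      exact hc (heq ▸ le_sup_left)
    have hcR : ⁅R', R'⁆ ≤ R' := Subgroup.commutator_le_self R'
    have h3 := hmin' _ hlt2 (sup_le hcR hRR'.le)
      (H1.Coprime2.le_normalizer_sup (H1.Coprime2.le_normalizer_commutator hAR' hAR') hAR)
    have : (R.subgroupOf R').Normal := (Subgroup.normal_subgroupOf_iff_le_normalizer hRR'.le).mpr hnor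
    have h4 : commutator R' ⊔ R.subgroupOf R' = ⊤ := by
      rw [eq_top_iff, ← Subgroup.map_subtype_le_map_subtype, Subgroup.map_sup,
        Subgroup.map_subgroupOf_eq_of_le hRR'.le, map_subtype_commutator, ← MonoidHom.range_eq_map,
        Subgroup.range_subtype, h3]
    have h5 : commutator (R' ⧸ R.subgroupOf R') = ⊤ := by
      have h6 := congrArg (Subgroup.map (QuotientGroup.mk' (R.subgroupOf R'))) h4
      rw [Subgroup.map_sup, QuotientGroup.map_mk'_self, sup_bot_eq, _root_.commutator_def,
        Subgroup.map_commutator, ← MonoidHom.range_eq_map, QuotientGroup.range_mk'] at h6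
      rw [_root_.commutator_def]
      exact h6
    have h7 : (⊤ : Subgroup (R' ⧸ R.subgroupOf R')) ≠ ⊥ := by
      intro h8
      have h9 : R.subgroupOf R' = ⊤ := by
        rw [eq_top_iff]
        intro x _
        have : (QuotientGroup.mk' (R.subgroupOf R') x) ∈ (⊥ : Subgroup (R' ⧸ R.subgroupOf R')) := by
          rw [← h8]; trivial
        rw [mem_bot, ← MonoidHom.mem_ker, QuotientGroup.ker_mk'] at this
        exact this
      rw [Subgroup.subgroupOf_eq_top] at h9
      exact not_le_of_gt hRR' h9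
    have h8 := H1.Coprime2.commutator_lt_of_isNilpotent (⊤ : Subgroup (R' ⧸ R.subgroupOf R')) h7
    exact h8.ne h5
  have h1 := step s B hRR'.le hnor hcom (hgen R' hR'P hAR')
  have hmul := relIndex_mul_relIndex R R' P hRR'.le hR'P
  have hlt3 : R'.relIndex P < d := by
    rw [← hd, ← hmul]
    have h10 : 1 < R.relIndex R' := by
      have h11 : R.relIndex R' ≠ 0 := Subgroup.FiniteIndex.index_ne_zero
      have h12 : R.relIndex R' ≠ 1 := by
        rw [Ne, Subgroup.relIndex_eq_one]
        exact not_le_of_gt hRR'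
      omega
    have h13 : 0 < R'.relIndex P := Nat.pos_of_ne_zero Subgroup.FiniteIndex.index_ne_zero
    nlinarith
  have h2 := ih _ hlt3 R' rfl hR'P hAR'
  rw [← hd, ← hmul]
  refine (Nat.mul_le_mul h1 h2).trans (le_of_eq ?_)
  rw [← Finset.prod_mul_distrib]
  apply Finset.prod_congr rfl
  intro i _
  exact relIndex_mul hRR'.le hR'P

end H48.Dr
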