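import Mathlib
import Cfsg.Agent.Lib.H48.Dr1

set_option autoImplicit false

/-! The index inequality for an invariant subgroup under coprime action of an elementary abelian group. -/

namespace H48.Dr

open Subgroup H1.Coprime2
open scoped Pointwise commutatorElement

variable {X : Type*} [Group X] [Finite X]

theorem le_normalizer_centralizer_of_comm {A B : Subgroup X} (hAc : ∀ x ∈ A, ∀ y ∈ A, x * y = y * x) (hB : B ≤ A) :
    A ≤ normalizer ((centralizer (B : Set X) : Subgroup X) : Set X) := by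
  apply H1.Coprime2.le_normalizer_centralizer
  apply le_trans _ (centralizer_le_normalizer (B : Set X))
  intro a ha
  rw [mem_centralizer_iff]
  intro b hb
  exact hAc b (hB hb) a ha

theorem sylow_centralizer {A G B : Subgroup X} (hAG : A ≤ normalizer (G : Set X))
    (hcop : (Nat.card A).Coprime (Nat.card G)) (hAs : Group.IsSolvable A)
    (hAc : ∀ x ∈ A, ∀ y ∈ A, x * y = y * x) (hB : B ≤ A) {p : ℕ} [Fact p.Prime] {S : Subgroup X}
    (hS : IsSylIn p G S) (hSA : A ≤ normalizer (S : Set X)) :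
    IsSylIn p (G ⊓ centralizer (B : Set X)) (S ⊓ centralizer (B : Set X)) := by
  have hAB := le_normalizer_centralizer_of_comm hAc hB
  obtain ⟨T, hT, hUT, hTA⟩ := exists_invariant_sylow_ge A (G ⊓ centralizer (B : Set X))
    (H1.Coprime2.le_normalizer_inf hAG hAB)
    (Nat.Coprime.coprime_dvd_right (Subgroup.card_dvd_of_le inf_le_left) hcop) (Or.inl hAs) p
    (S ⊓ centralizer (B : Set X)) (inf_le_inf_right _ hS.1) (hS.isPGroup.to_le inf_le_left)
    (H1.Coprime2.le_normalizer_inf hSA hAB)
  obtain ⟨S', hS', hTS, hSA'⟩ := exists_invariant_sylow_ge A G hAG hcop (Or.inl hAs) p T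
    (hT.1.trans inf_le_left) hT.isPGroup hTA
  obtain ⟨c, hc, hcS⟩ := conj_invariant_sylow A G hAG hcop (Or.inl hAs) p S S' hS hS' hSA hSA'
  have h1 : T ≤ MulAut.conj c • (S ⊓ centralizer (B : Set X)) := by
    intro t ht
    rw [Subgroup.mem_pointwise_smul_iff_inv_smul_mem]
    refine mem_inf.mpr ⟨?_, ?_⟩
    · rw [← Subgroup.mem_pointwise_smul_iff_inv_smul_mem, hcS]
      exact hTS ht
    · have h2 := (mem_inf.mp (hT.1 ht)).2
      rw [mem_centralizer_iff] at h2 ⊢
      intro b hb
      have h3 := h2 b hb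
      have h4 := (mem_inf.mp hc).2
      rw [mem_centralizer_iff] at h4
      have h5 := h4 b (hB hb)
      rw [← map_inv, MulAut.smul_def, MulAut.conj_apply]
      calc b * (c⁻¹ * t * c⁻¹⁻¹) = c⁻¹ * (c * b) * c⁻¹ * t * c := by group
        _ = c⁻¹ * (b * c) * c⁻¹ * t * c := by rw [h5]
        _ = c⁻¹ * (b * t) * c := by group
        _ = c⁻¹ * (t * b) * c := by rw [h3]
        _ = c⁻¹ * t * (b * c) := by group
        _ = c⁻¹ * t * (c * b) := by rw [h5]
        _ = c⁻¹ * t * c⁻¹⁻¹ * b := by group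
  have h2 : Nat.card T ≤ Nat.card (S ⊓ centralizer (B : Set X) : Subgroup X) := by
    refine (Subgroup.card_le_of_le h1).trans (le_of_eq ?_)
    exact H1.SZ.card_conj_smul _ _
  have h3 : (S ⊓ centralizer (B : Set X)) = T := Subgroup.eq_of_le_of_card_ge hUT h2
  rw [h3]
  exact hT

theorem card_mul_relIndex' {K G : Subgroup X} (h : K ≤ G) : Nat.card K * K.relIndex G = Nat.card G := by
  have := relIndex_mul_relIndex (⊥ : Subgroup X) K G bot_le h
  rwa [relIndex_bot_left, relIndex_bot_left] at this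

theorem fact_relIndex {K G : Subgroup X} (h : K ≤ G) (p : ℕ) :
    (K.relIndex G).factorization p + (Nat.card K).factorization p = (Nat.card G).factorization p := by
  have h1 : Nat.card K * K.relIndex G = Nat.card G := card_mul_relIndex' h
  have h0 : K.relIndex G ≠ 0 := Subgroup.FiniteIndex.index_ne_zero
  rw [← h1, Nat.factorization_mul Nat.card_pos.ne' h0, Finsupp.add_apply, add_comm]

theorem relIndex_syl {K G S T : Subgroup X} (hKG : K ≤ G) {p : ℕ} [hp : Fact p.Prime] (hS : IsSylIn p K S)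
    (hT : IsSylIn p G T) (hST : S ≤ T) : S.relIndex T = p ^ (K.relIndex G).factorization p := by
  have h1 : Nat.card S * S.relIndex T = Nat.card T := card_mul_relIndex' hST
  rw [hS.2, hT.2, ← fact_relIndex hKG p, pow_add, mul_comm (p ^ _)] at h1
  exact Nat.eq_of_mul_eq_mul_right (Nat.pow_pos hp.out.pos) h1

theorem relIndex_dvd {ι : Type*} (s : Finset ι) (B : ι → Subgroup X) {A G : Subgroup X}
    (hAG : A ≤ normalizer (G : Set X)) (hcop : (Nat.card A).Coprime (Nat.card G)) (hAs : Group.IsSolvable A)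
    (hAc : ∀ x ∈ A, ∀ y ∈ A, x * y = y * x) (hB : ∀ i ∈ s, B i ≤ A)
    (hgen : ∀ K : Subgroup X, K ≤ G → A ≤ normalizer (K : Set X) →
      K = ⨆ i ∈ s, K ⊓ centralizer (B i : Set X))
    {K : Subgroup X} (hKG : K ≤ G) (hAK : A ≤ normalizer (K : Set X)) :
    K.relIndex G ∣ ∏ i ∈ s, K.relIndex (G ⊓ centralizer (B i : Set X)) := by
  have hne : (∏ i ∈ s, K.relIndex (G ⊓ centralizer (B i : Set X))) ≠ 0 :=
    Finset.prod_ne_zero_iff.mpr fun i _ => Subgroup.FiniteIndex.index_ne_zero
  have hne2 : K.relIndex G ≠ 0 := Subgroup.FiniteIndex.index_ne_zero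
  rw [← Nat.factorization_prime_le_iff_dvd hne2 hne]
  intro p hp
  haveI : Fact p.Prime := ⟨hp⟩
  have hne3 : ∀ i ∈ s, K.relIndex (G ⊓ centralizer (B i : Set X)) ≠ 0 :=
    fun i _ => Subgroup.FiniteIndex.index_ne_zero
  rw [Nat.factorization_prod hne3, Finset.sum_apply']
  have hcopK : (Nat.card A).Coprime (Nat.card K) :=
    Nat.Coprime.coprime_dvd_right (Subgroup.card_dvd_of_le hKG) hcop
  obtain ⟨S, hS, hSA⟩ := exists_invariant_sylow A K hAK hcopK (Or.inl hAs) p
  obtain ⟨T, hT, hST, hTA⟩ := exists_invariant_sylow_ge A G hAG hcop (Or.inl hAs) p S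
    (hS.1.trans hKG) hS.isPGroup hSA
  have h1 := relIndex_le s B hT.isPGroup hTA (fun L hL hAL => hgen L (hL.trans hT.1) hAL) S hST hSA
  rw [relIndex_syl hKG hS hT hST] at h1
  have h2 : ∏ i ∈ s, S.relIndex (T ⊓ centralizer (B i : Set X)) =
      p ^ (∑ i ∈ s, (K.relIndex (G ⊓ centralizer (B i : Set X))).factorization p) := by
    rw [← Finset.prod_pow_eq_pow_sum]
    apply Finset.prod_congr rfl
    intro i hi
    have a1 := sylow_centralizer hAK hcopK hAs hAc (hB i hi) hS hSA
    have a2 := sylow_centralizer hAG hcop hAs hAc (hB i hi) hT hTA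
    have a3 := relIndex_syl (inf_le_inf_right (centralizer (B i : Set X)) hKG) a1 a2 (inf_le_inf_right _ hST)
    have a4 : (S ⊓ centralizer (B i : Set X)).relIndex (T ⊓ centralizer (B i : Set X)) =
        S.relIndex (T ⊓ centralizer (B i : Set X)) := by
      rw [← inf_relIndex_right, ← inf_relIndex_right (H := S)]
      congr 1
      apply le_antisymm
      · exact le_inf (inf_le_left.trans inf_le_left) inf_le_right
      · exact le_inf (le_inf inf_le_left (inf_le_right.trans inf_le_right)) inf_le_right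
    have a5 : (K ⊓ centralizer (B i : Set X)).relIndex (G ⊓ centralizer (B i : Set X)) =
        K.relIndex (G ⊓ centralizer (B i : Set X)) := by
      rw [← inf_relIndex_right, ← inf_relIndex_right (H := K)]
      congr 1
      apply le_antisymm
      · exact le_inf (inf_le_left.trans inf_le_left) inf_le_right
      · exact le_inf (le_inf inf_le_left (inf_le_right.trans inf_le_right)) inf_le_right
    rw [← a4, a3, a5]
  rw [h2] at h1
  exact (Nat.pow_le_pow_iff_right hp.one_lt).mp h1

end H48.Dr
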