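import Mathlib

set_option autoImplicit false

/-! A BFC argument: groups generated by subgroups whose elements have few conjugates. -/

namespace H48.Dr

open Subgroup
open scoped Pointwise commutatorElement

variable {Γ : Type*} [Group Γ] [Finite Γ]

/-- the number of conjugates -/
noncomputable def idx (x : Γ) : ℕ := (centralizer ({x} : Set Γ)).index

/-- the conjugacy class -/
def cl (x : Γ) : Set Γ := Set.range fun g : Γ => g * x * g⁻¹

theorem ncard_cl (x : Γ) : (cl x).ncard = idx x := by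
  have h1 : cl x = MulAction.orbit (ConjAct Γ) x := by
    ext y
    constructor
    · rintro ⟨g, rfl⟩
      exact ⟨ConjAct.toConjAct g, by simp [ConjAct.smul_def]⟩
    · rintro ⟨g, rfl⟩
      exact ⟨ConjAct.ofConjAct g, by simp [ConjAct.smul_def]⟩
  rw [h1, ← MulAction.index_stabilizer, idx]
  have h2 : (MulAction.stabilizer (ConjAct Γ) x) = (centralizer ({x} : Set Γ)).map (ConjAct.toConjAct (G := Γ)).toMonoidHom := by
    ext g
    constructor
    · intro hg
      rw [MulAction.mem_stabilizer_iff, ConjAct.smul_def] at hg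
      refine ⟨ConjAct.ofConjAct g, ?_, by simp⟩
      rw [SetLike.mem_coe, mem_centralizer_singleton_iff]
      exact mul_inv_eq_iff_eq_mul.mp hg
    · rintro ⟨h, hh, rfl⟩
      rw [SetLike.mem_coe, mem_centralizer_singleton_iff] at hh
      rw [MulAction.mem_stabilizer_iff, ConjAct.smul_def]
      exact mul_inv_eq_iff_eq_mul.mpr hh
  rw [h2]
  exact Subgroup.index_map_of_bijective (f := (ConjAct.toConjAct (G := Γ)).toMonoidHom)
    (ConjAct.toConjAct (G := Γ)).bijective (centralizer ({x} : Set Γ))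

theorem idx_pos (x : Γ) : 0 < idx x := Nat.pos_of_ne_zero Subgroup.FiniteIndex.index_ne_zero

theorem idx_mul (x y : Γ) : idx (x * y) ≤ idx x * idx y := by
  refine le_trans ?_ (index_inf_le (H := centralizer ({x} : Set Γ)) (K := centralizer ({y} : Set Γ)))
  apply Nat.le_of_dvd (Nat.pos_of_ne_zero Subgroup.FiniteIndex.index_ne_zero)
  apply Subgroup.index_dvd_of_le
  intro g hg
  rw [mem_inf, mem_centralizer_singleton_iff, mem_centralizer_singleton_iff] at hg
  rw [mem_centralizer_singleton_iff, ← mul_assoc, hg.1, mul_assoc, hg.2, mul_assoc]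

theorem idx_one : idx (1 : Γ) = 1 := by
  rw [idx, Subgroup.index_eq_one, eq_top_iff]
  intro g _
  rw [mem_centralizer_singleton_iff, one_mul, mul_one]

theorem mem_cl_self (x : Γ) : x ∈ cl x := ⟨1, by simp⟩

theorem cl_finite (x : Γ) : (cl x).Finite := Set.toFinite _

/-- short words reach all conjugates -/
theorem exists_short {S : Set Γ} (hS : closure S = ⊤) {M : ℕ} (hM : ∀ x ∈ S, idx x ≤ M) (hM1 : 1 ≤ M)
    (a : Γ) (ha : idx a ≤ M) (g : Γ) : ∃ w : Γ, idx w ≤ M ^ M ∧ w * a * w⁻¹ = g * a * g⁻¹ := by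
  classical
  let W : ℕ → Set Γ := fun k => Nat.rec ({1} : Set Γ) (fun _ s => insert 1 S * s) k
  have hW0 : W 0 = {1} := rfl
  have hWs : ∀ k, W (k + 1) = insert 1 S * W k := fun k => rfl
  have hWi : ∀ k, ∀ w ∈ W k, idx w ≤ M ^ k := by
    intro k
    induction k with
    | zero =>
      intro w hw
      rw [hW0, Set.mem_singleton_iff] at hw
      rw [hw, idx_one, pow_zero]
    | succ k ih =>
      intro w hw
      rw [hWs] at hw
      obtain ⟨x, hx, y, hy, rfl⟩ := hw
      refine (idx_mul x y).trans ?_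
      rw [pow_succ']
      apply Nat.mul_le_mul _ (ih y hy)
      rcases hx with rfl | hx
      · rw [idx_one]; exact hM1
      · exact hM x hx
  let O : ℕ → Set Γ := fun k => (fun w => w * a * w⁻¹) '' W k
  have hOc : ∀ k, O k ⊆ cl a := by
    rintro k _ ⟨w, -, rfl⟩
    exact ⟨w, rfl⟩
  have hWm : ∀ k, W k ⊆ W (k + 1) := by
    intro k w hw
    rw [hWs]
    exact ⟨1, Set.mem_insert _ _, w, hw, one_mul w⟩
  have hOm : ∀ k, O k ⊆ O (k + 1) := fun k => Set.image_mono (hWm k)
  have h1W : ∀ k, (1 : Γ) ∈ W k := by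
    intro k
    induction k with
    | zero => rw [hW0]; rfl
    | succ k ih => exact hWm k ih
  have hstab : ∀ k, O k = O (k + 1) → O k = cl a := by
    intro k hk
    apply Set.Subset.antisymm (hOc k)
    -- stabilised by S
    have h1 : ∀ x ∈ S, ∀ y ∈ O k, x * y * x⁻¹ ∈ O k := by
      rintro x hx _ ⟨w, hw, rfl⟩
      rw [hk]
      refine ⟨x * w, ?_, ?_⟩
      · rw [hWs]; exact ⟨x, Set.mem_insert_of_mem _ hx, w, hw, rfl⟩
      · simp only; group
    have h2 : ∀ g : Γ, ∀ y ∈ O k, g * y * g⁻¹ ∈ O k := by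
      intro g
      have hg : g ∈ closure S := by rw [hS]; trivial
      -- use submonoid closure via finiteness
      have hg' : g ∈ Submonoid.closure S := by
        rw [← Subgroup.closure_toSubmonoid_of_finite]
        exact hg
      induction hg' using Submonoid.closure_induction with
      | mem x hx => exact h1 x hx
      | one => intro y hy; simpa using hy
      | mul x y _ _ ihx ihy =>
        intro z hz
        have := ihx (by rw [hS]; trivial) _ (ihy (by rw [hS]; trivial) z hz)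
        have e : x * y * z * (x * y)⁻¹ = x * (y * z * y⁻¹) * x⁻¹ := by group
        rw [e]
        exact this
    rintro _ ⟨g, rfl⟩
    exact h2 g a ⟨1, h1W k, by simp⟩
  have hcount : ∀ k, O k = cl a ∨ k + 1 ≤ (O k).ncard := by
    intro k
    induction k with
    | zero =>
      right
      have hne : (O 0).Nonempty := ⟨a, 1, h1W 0, by simp⟩
      have := (Set.ncard_pos (s := O 0) ((cl_finite a).subset (hOc 0))).mpr hne
      omega
    | succ k ih =>
      rcases ih with h | h
      · left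
        exact Set.Subset.antisymm (hOc (k + 1)) (h ▸ hOm k)
      · by_cases he : O k = O (k + 1)
        · left
          rw [← he]
          exact hstab k he
        · right
          have := Set.ncard_lt_ncard (lt_of_le_of_ne (hOm k) he) (Set.toFinite _)
          omega
  have hfin : O M = cl a := by
    rcases hcount M with h | h
    · exact h
    · have := Set.ncard_le_ncard (hOc M) (Set.toFinite _)
      rw [ncard_cl] at this
      omega
  have hg : g * a * g⁻¹ ∈ O M := by rw [hfin]; exact ⟨g, rfl⟩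
  obtain ⟨w, hw, hwe⟩ := hg
  exact ⟨w, hWi M w hw, hwe⟩

/-- the commutators with a subgroup of bounded class sizes lie in the normal closure of few elements -/
theorem exists_few {H : Subgroup Γ} {M M' : ℕ} (hM : ∀ x ∈ H, idx x ≤ M) (hM1 : 1 ≤ M')
    (hw : ∀ a ∈ H, ∀ g : Γ, ∃ w : Γ, idx w ≤ M' ∧ w * a * w⁻¹ = g * a * g⁻¹) :
    ∃ F : Finset Γ, (∀ t ∈ F, idx t ≤ M) ∧ F.card ≤ M' ^ M + 1 ∧
      ∀ h ∈ H, ∀ g : Γ, g * h * g⁻¹ * h⁻¹ ∈ normalClosure (F : Set Γ) := by
  classical
  obtain ⟨a, ha, hmax⟩ := Set.exists_max_image (H : Set Γ) idx (Set.toFinite _) ⟨1, H.one_mem⟩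
  have ha' : a ∈ H := ha
  -- choose words
  have hch : ∀ c : cl a, ∃ w : Γ, idx w ≤ M' ∧ w * a * w⁻¹ = c := by
    rintro ⟨_, g, rfl⟩
    exact hw a ha' g
  choose w hwi hwe using hch
  haveI : Fintype (cl a) := Fintype.ofFinite _
  set C : Subgroup Γ := ⨅ c : cl a, centralizer ({w c} : Set Γ) with hC
  have hCi : C.index ≤ M' ^ M := by
    refine (index_iInf_le _).trans ?_
    calc ∏ c : cl a, (centralizer ({w c} : Set Γ)).index ≤ ∏ _c : cl a, M' :=
          Finset.prod_le_prod' fun c _ => hwi c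
      _ = M' ^ (Fintype.card (cl a)) := by rw [Finset.prod_const, Finset.card_univ]
      _ ≤ M' ^ M := by
          apply Nat.pow_le_pow_right hM1
          rw [← Nat.card_eq_fintype_card, Nat.card_coe_set_eq, ncard_cl]
          exact hM a ha'
  have hu : ∀ u ∈ H, u ∈ C → ∀ g : Γ, g * u * g⁻¹ * u⁻¹ ∈ normalClosure ({a} : Set Γ) := by
    intro u huH huC g
    have h1 : (fun c => u * c) '' cl a ⊆ cl (u * a) := by
      rintro _ ⟨c, hc, rfl⟩
      refine ⟨w ⟨c, hc⟩, ?_⟩
      have h2 := (mem_iInf.mp huC) ⟨c, hc⟩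
      rw [mem_centralizer_singleton_iff] at h2
      have h3 := hwe ⟨c, hc⟩
      simp only at h3 ⊢
      calc w ⟨c, hc⟩ * (u * a) * (w ⟨c, hc⟩)⁻¹ = (w ⟨c, hc⟩ * u) * a * (w ⟨c, hc⟩)⁻¹ := by group
        _ = (u * w ⟨c, hc⟩) * a * (w ⟨c, hc⟩)⁻¹ := by rw [h2]
        _ = u * (w ⟨c, hc⟩ * a * (w ⟨c, hc⟩)⁻¹) := by group
        _ = u * c := by rw [h3]
    have h2 : (fun c => u * c) '' cl a = cl (u * a) := by
      apply Set.eq_of_subset_of_ncard_le h1 _ (Set.toFinite _)
      rw [Set.ncard_image_of_injective _ (mul_right_injective u), ncard_cl, ncard_cl]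
      exact hmax _ (H.mul_mem huH ha')
    have h3 : g * (u * a) * g⁻¹ ∈ cl (u * a) := ⟨g, rfl⟩
    rw [← h2] at h3
    obtain ⟨c, ⟨k, rfl⟩, hc⟩ := h3
    simp only at hc
    have h4 : g * u * g⁻¹ * u⁻¹ = u * (k * a * k⁻¹ * (g * a * g⁻¹)⁻¹) * u⁻¹ := by
      have : g * u * g⁻¹ = u * (k * a * k⁻¹) * (g * a * g⁻¹)⁻¹ := by
        rw [hc]; group
      rw [this]; group
    rw [h4]
    have hn : (normalClosure ({a} : Set Γ)).Normal := normalClosure_normal
    have haN : a ∈ normalClosure ({a} : Set Γ) := subset_normalClosure rfl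
    apply hn.conj_mem
    exact mul_mem (hn.conj_mem _ haN k) (inv_mem (hn.conj_mem _ haN g))
  -- representatives
  haveI : Finite (H ⧸ C.subgroupOf H) := inferInstance
  haveI : Fintype (H ⧸ C.subgroupOf H) := Fintype.ofFinite _
  let T : Finset Γ := Finset.univ.image (fun x : H ⧸ C.subgroupOf H => ((x.out : H) : Γ))
  have hTc : T.card ≤ M' ^ M := by
    refine Finset.card_image_le.trans ?_
    rw [Finset.card_univ, ← Nat.card_eq_fintype_card]
    have : Nat.card (H ⧸ C.subgroupOf H) = C.relIndex H := rfl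
    rw [this]
    refine le_trans ?_ hCi
    have h5 : C.relIndex H ≤ C.relIndex ⊤ := by
      apply relIndex_le_of_le_right le_top
      rw [relIndex_top_right]
      exact Subgroup.FiniteIndex.index_ne_zero
    rwa [relIndex_top_right] at h5
  have hTH : ∀ t ∈ T, t ∈ H := by
    intro t ht
    obtain ⟨x, -, rfl⟩ := Finset.mem_image.mp ht
    exact (x.out : H).2
  refine ⟨insert a T, ?_, (Finset.card_insert_le _ _).trans (Nat.succ_le_succ hTc), ?_⟩
  · intro t ht
    rcases Finset.mem_insert.mp ht with rfl | ht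
    · exact hM _ ha'
    · exact hM _ (hTH t ht)
  · intro h hh g
    set N := normalClosure ((insert a T : Finset Γ) : Set Γ) with hN
    have hn : N.Normal := normalClosure_normal
    obtain ⟨u, hu1⟩ : ∃ u : C.subgroupOf H, ((QuotientGroup.mk (⟨h, hh⟩ : H) : H ⧸ C.subgroupOf H).out : H) = ⟨h, hh⟩ * u :=
      QuotientGroup.mk_out_eq_mul _ _
    set t : H := ((QuotientGroup.mk (⟨h, hh⟩ : H) : H ⧸ C.subgroupOf H).out : H) with ht
    have htT : (t : Γ) ∈ T := Finset.mem_image.mpr ⟨_, Finset.mem_univ _, rfl⟩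
    have htN : (t : Γ) ∈ N := subset_normalClosure (by
      rw [Finset.coe_insert]; exact Set.mem_insert_of_mem _ htT)
    have huC : (((u : H) : Γ)) ∈ C := Subgroup.mem_subgroupOf.mp u.2
    have h6 : ((u : H) : Γ)⁻¹ ∈ C := inv_mem huC
    have h7 := hu _ (inv_mem (u : H).2) h6 g
    have h8 : g * ((u : H) : Γ)⁻¹ * g⁻¹ * (((u : H) : Γ)⁻¹)⁻¹ ∈ N := by
      apply normalClosure_mono (s := {a}) _ h7
      rw [Finset.coe_insert]
      intro x hx
      rw [Set.mem_singleton_iff] at hx
      rw [hx]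
      exact Set.mem_insert _ _
    have h9 : h = (t : Γ) * ((u : H) : Γ)⁻¹ := by
      rw [hu1]; simp
    rw [h9]
    have h10 : g * ((t : Γ) * ((u : H) : Γ)⁻¹) * g⁻¹ * ((t : Γ) * ((u : H) : Γ)⁻¹)⁻¹ =
        (g * t * g⁻¹) * (g * ((u : H) : Γ)⁻¹ * g⁻¹ * (((u : H) : Γ)⁻¹)⁻¹) * (t : Γ)⁻¹ := by group
    rw [h10]
    exact mul_mem (mul_mem (hn.conj_mem _ htN g) h8) (inv_mem htN)

end H48.Dr
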