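import Mathlib
import Cfsg.Agent.Lib.H48.Dr1
import Cfsg.Agent.Lib.H48.Dr3

set_option autoImplicit false

/-! A BFC argument, conclusion. -/

namespace H48.Dr

open Subgroup
open scoped Pointwise commutatorElement

/-- Schur -/
theorem card_commutator_le {N : Type*} [Group N] [Finite N] {k : ℕ} (hk : (center N).index ≤ k) :
    Nat.card (commutator N) ≤ k ^ (k * k ^ 2 + 1) := by
  have h0 : (center N).index ≠ 0 := Subgroup.FiniteIndex.index_ne_zero
  have h1 := card_commutator_dvd_index_center_pow N
  have h2 : Nat.card (commutatorSet N) ≤ (center N).index ^ 2 := by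
    let f : (N ⧸ center N) × (N ⧸ center N) → N := fun p => ⁅p.1.out, p.2.out⁆
    have h3 : commutatorSet N ⊆ Set.range f := by
      rintro _ ⟨x, y, rfl⟩
      refine ⟨(QuotientGroup.mk x, QuotientGroup.mk y), ?_⟩
      obtain ⟨u, hu⟩ := QuotientGroup.mk_out_eq_mul (center N) x
      obtain ⟨v, hv⟩ := QuotientGroup.mk_out_eq_mul (center N) y
      simp only [f]
      rw [hu, hv]
      have hu' := mem_center_iff.mp u.2
      have hv' := mem_center_iff.mp v.2
      rw [commutatorElement_def, commutatorElement_def]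
      calc x * (u : N) * (y * v) * (x * u)⁻¹ * (y * v)⁻¹
          = x * ((u : N) * (y * v)) * (u : N)⁻¹ * x⁻¹ * (v : N)⁻¹ * y⁻¹ := by group
        _ = x * ((y * v) * (u : N)) * (u : N)⁻¹ * x⁻¹ * (v : N)⁻¹ * y⁻¹ := by rw [hu' (y * v)]
        _ = x * y * ((v : N) * x⁻¹) * (v : N)⁻¹ * y⁻¹ := by group
        _ = x * y * (x⁻¹ * (v : N)) * (v : N)⁻¹ * y⁻¹ := by rw [hv' x⁻¹]
        _ = x * y * x⁻¹ * y⁻¹ := by group
    have h4 := Nat.card_mono (Set.toFinite _) h3
    refine h4.trans ?_
    refine (Finite.card_range_le f).trans ?_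
    rw [Nat.card_prod, ← pow_two]
    rfl
  refine (Nat.le_of_dvd (Nat.pos_of_ne_zero (pow_ne_zero _ h0)) h1).trans ?_
  have hkpos : 0 < k := lt_of_lt_of_le (Nat.pos_of_ne_zero h0) hk
  calc (center N).index ^ ((center N).index * Nat.card (commutatorSet N) + 1)
      ≤ k ^ ((center N).index * Nat.card (commutatorSet N) + 1) := Nat.pow_le_pow_left hk _
    _ ≤ k ^ (k * k ^ 2 + 1) := by
        apply Nat.pow_le_pow_right hkpos
        apply Nat.succ_le_succ
        exact Nat.mul_le_mul hk (h2.trans (Nat.pow_le_pow_left hk 2))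

/-- the torsion of a finitely generated abelian group -/
theorem card_torsion_le {Q : Type*} [Group Q] [Finite Q] (hc : ∀ x y : Q, x * y = y * x) (s : Finset Q)
    (hs : closure (s : Set Q) = ⊤) {e : ℕ} (he : 0 < e) (D : Subgroup Q) (hD : ∀ d ∈ D, d ^ e = 1) :
    Nat.card D ≤ e ^ s.card := by
  let f : Q →* Q :=
    { toFun := fun x => x ^ e
      map_one' := one_pow e
      map_mul' := fun x y => (Commute.mul_pow (hc x y) e) }
  have h1 : D ≤ f.ker := fun d hd => hD d hd
  have h2 : Nat.card f.ker * Nat.card f.range = Nat.card Q := by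
    rw [← Subgroup.index_ker f]
    exact Subgroup.card_mul_index f.ker
  have h3 : Nat.card f.range * f.range.index = Nat.card Q := Subgroup.card_mul_index f.range
  have h4 : Nat.card f.ker = f.range.index := by
    have : Nat.card f.range * Nat.card f.ker = Nat.card f.range * f.range.index := by
      rw [h3, mul_comm, h2]
    exact Nat.eq_of_mul_eq_mul_left Nat.card_pos this
  have hn : f.range.Normal := ⟨fun x hx g => by
    have : g * x * g⁻¹ = x := by rw [hc g x, mul_inv_cancel_right]
    rwa [this]⟩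
  refine (Subgroup.card_le_of_le h1).trans ?_
  rw [h4]
  have hcq : ∀ x y : Q ⧸ f.range, x * y = y * x := by
    intro x y
    obtain ⟨x, rfl⟩ := QuotientGroup.mk'_surjective f.range x
    obtain ⟨y, rfl⟩ := QuotientGroup.mk'_surjective f.range y
    rw [← map_mul, ← map_mul, hc]
  have h5 := card_biSup_le hcq s (fun x => zpowers (QuotientGroup.mk' f.range x))
  have h6 : (⨆ i ∈ s, zpowers (QuotientGroup.mk' f.range i)) = ⊤ := by
    rw [eq_top_iff]
    intro x _
    obtain ⟨x, rfl⟩ := QuotientGroup.mk'_surjective f.range x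
    have h7 : closure (s : Set Q) ≤ (⨆ i ∈ s, zpowers (QuotientGroup.mk' f.range i)).comap (QuotientGroup.mk' f.range) := by
      rw [closure_le]
      intro y hy
      rw [SetLike.mem_coe, mem_comap]
      exact (le_iSup₂_of_le (f := fun i (_ : i ∈ s) => zpowers (QuotientGroup.mk' f.range i)) y hy le_rfl)
        (mem_zpowers _)
    rw [hs] at h7
    exact h7 (mem_top x)
  rw [h6, Subgroup.card_top] at h5
  refine h5.trans ?_
  calc ∏ i ∈ s, Nat.card (zpowers (QuotientGroup.mk' f.range i)) ≤ ∏ _i ∈ s, e := by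
        apply Finset.prod_le_prod' fun i _ => ?_
        rw [Nat.card_zpowers]
        apply orderOf_le_of_pow_eq_one he
        rw [← map_pow, ← MonoidHom.mem_ker, QuotientGroup.ker_mk']
        exact ⟨i, rfl⟩
    _ = e ^ s.card := by rw [Finset.prod_const]

end H48.Dr
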