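import Mathlib
import Cfsg.Agent.Lib.H48.Dr4

set_option autoImplicit false

/-! A BFC argument, conclusion. -/

namespace H48.Dr

open Subgroup
open scoped Pointwise commutatorElement

/-- the number of generators -/
def rr (c M : ℕ) : ℕ := c * ((M ^ M) ^ M + 1) * M

/-- the bound -/
def bb (c M e : ℕ) : ℕ := (M ^ rr c M) ^ ((M ^ rr c M) * (M ^ rr c M) ^ 2 + 1) * e ^ rr c M

variable {Γ : Type*} [Group Γ] [Finite Γ]

omit [Finite Γ] in
/-- commutators of generators normally generate the derived subgroup -/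
theorem commutator_le_of_gen {S : Set Γ} (hS : closure S = ⊤) (E : Subgroup Γ) [E.Normal]
    (h : ∀ x ∈ S, ∀ y ∈ S, ⁅x, y⁆ ∈ E) : commutator Γ ≤ E := by
  have h1 : ∀ x ∈ S, ∀ g : Γ, ⁅x, g⁆ ∈ E := by
    intro x hx
    have h2 : closure S ≤ (centralizer ({QuotientGroup.mk' E x} : Set (Γ ⧸ E))).comap (QuotientGroup.mk' E) := by
      rw [closure_le]
      intro y hy
      rw [SetLike.mem_coe, mem_comap, mem_centralizer_singleton_iff, ← map_mul, ← map_mul]
      have h3 := h x hx y hy
      rw [QuotientGroup.mk'_eq_mk']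
      refine ⟨(y * x)⁻¹ * ⁅x, y⁆ * (y * x), ?_, ?_⟩
      · have := (inferInstance : E.Normal).conj_mem _ h3 (y * x)⁻¹
        rwa [inv_inv] at this
      · rw [commutatorElement_def]; group
    intro g
    rw [hS] at h2
    have h4 := h2 (mem_top g)
    rw [mem_comap, mem_centralizer_singleton_iff, ← map_mul, ← map_mul] at h4
    rw [← QuotientGroup.ker_mk' E, MonoidHom.mem_ker, commutatorElement_def]
    rw [show x * g * x⁻¹ * g⁻¹ = (x * g) * (g * x)⁻¹ by group, map_mul, map_inv, ← h4, mul_inv_cancel]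
  have h5 : closure S ≤ (center (Γ ⧸ E)).comap (QuotientGroup.mk' E) := by
    rw [closure_le]
    intro x hx
    rw [SetLike.mem_coe, mem_comap, mem_center_iff]
    intro g
    obtain ⟨g, rfl⟩ := QuotientGroup.mk'_surjective E g
    have h6 := h1 x hx g
    rw [← QuotientGroup.ker_mk' E, MonoidHom.mem_ker, commutatorElement_def,
      show x * g * x⁻¹ * g⁻¹ = (x * g) * (g * x)⁻¹ by group, map_mul, map_inv, mul_inv_eq_one] at h6
    rw [← map_mul, ← map_mul, h6]
  rw [hS] at h5
  rw [_root_.commutator_def, commutator_le]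
  intro x _ y _
  have h7 := h5 (mem_top x)
  rw [mem_comap, mem_center_iff] at h7
  have h8 := h7 (QuotientGroup.mk' E y)
  rw [← QuotientGroup.ker_mk' E, MonoidHom.mem_ker, commutatorElement_def,
    show x * y * x⁻¹ * y⁻¹ = (x * y) * (y * x)⁻¹ by group, map_mul, map_inv, mul_inv_eq_one,
    map_mul, map_mul, h8]

theorem card_le_ker_map {Γ' : Type*} [Group Γ'] (f : Γ →* Γ') (K : Subgroup Γ) :
    Nat.card K ≤ Nat.card f.ker * Nat.card (K.map f) := by
  rw [← relIndex_ker]
  have h1 : Nat.card (f.ker ⊓ K : Subgroup Γ) * (f.ker ⊓ K).relIndex K = Nat.card K := by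
    have := relIndex_mul_relIndex (⊥ : Subgroup Γ) (f.ker ⊓ K) K bot_le inf_le_right
    rwa [relIndex_bot_left, relIndex_bot_left] at this
  rw [← h1, inf_relIndex_right]
  exact Nat.mul_le_mul_right _ (Subgroup.card_le_of_le inf_le_left)

theorem idx_conj (x g : Γ) : idx (g * x * g⁻¹) = idx x := by
  rw [← ncard_cl, ← ncard_cl]
  congr 1
  ext y
  constructor
  · rintro ⟨k, rfl⟩
    exact ⟨k * g, by simp only; group⟩
  · rintro ⟨k, rfl⟩
    exact ⟨k * g⁻¹, by simp only; group⟩

theorem bfc {ι : Type*} (s : Finset ι) (H : ι → Subgroup Γ) (hgen : ⨆ i ∈ s, H i = ⊤) {M e c : ℕ}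
    (hM1 : 1 ≤ M) (hM : ∀ i ∈ s, ∀ x ∈ H i, idx x ≤ M) (he : 0 < e)
    (hcomm : ∀ i ∈ s, ∀ j ∈ s, ∀ x ∈ H i, ∀ y ∈ H j, ⁅x, y⁆ ^ e = 1) (hs : s.card ≤ c) :
    Nat.card (commutator Γ) ≤ bb c M e := by
  classical
  set S : Set Γ := ⋃ i ∈ s, (H i : Set Γ) with hSdef
  have hS : closure S = ⊤ := by
    rw [hSdef, Subgroup.closure_iUnion, ← hgen]
    apply iSup_congr
    intro i
    rw [Subgroup.closure_iUnion]
    apply iSup_congr
    intro hi
    exact Subgroup.closure_eq _
  have hSM : ∀ x ∈ S, idx x ≤ M := by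
    intro x hx
    rw [hSdef, Set.mem_iUnion₂] at hx
    obtain ⟨i, hi, hx⟩ := hx
    exact hM i hi x hx
  have hM'1 : 1 ≤ M ^ M := Nat.one_le_pow _ _ hM1
  have hfew : ∀ i : s, ∃ F : Finset Γ, (∀ t ∈ F, idx t ≤ M) ∧ F.card ≤ (M ^ M) ^ M + 1 ∧
      ∀ h ∈ H i, ∀ g : Γ, g * h * g⁻¹ * h⁻¹ ∈ normalClosure (F : Set Γ) := by
    intro i
    exact exists_few (hM i i.2) hM'1 (fun a ha g => exists_short hS hSM hM1 a (hM i i.2 a ha) g)
  choose F hF1 hF2 hF3 using hfew
  set FF : Finset Γ := Finset.univ.biUnion F with hFF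
  have hFFc : FF.card ≤ c * ((M ^ M) ^ M + 1) := by
    refine Finset.card_biUnion_le.trans ?_
    refine (Finset.sum_le_sum (fun i _ => hF2 i)).trans ?_
    rw [Finset.sum_const, Finset.card_univ, Fintype.card_coe, smul_eq_mul]
    exact Nat.mul_le_mul_right _ hs
  have hFFM : ∀ t ∈ FF, idx t ≤ M := by
    intro t ht
    obtain ⟨i, -, hi⟩ := Finset.mem_biUnion.mp ht
    exact hF1 i t hi
  set N : Subgroup Γ := normalClosure (FF : Set Γ) with hN
  have hNn : N.Normal := normalClosure_normal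
  have hHN : ∀ x ∈ S, ∀ g : Γ, g * x * g⁻¹ * x⁻¹ ∈ N := by
    intro x hx g
    rw [hSdef, Set.mem_iUnion₂] at hx
    obtain ⟨i, hi, hx⟩ := hx
    have := hF3 ⟨i, hi⟩ x hx g
    refine normalClosure_mono ?_ this
    intro y hy
    exact Finset.mem_biUnion.mpr ⟨⟨i, hi⟩, Finset.mem_univ _, hy⟩
  have hGN : commutator Γ ≤ N := by
    apply commutator_le_of_gen hS
    intro x _ y hy
    exact hHN y hy x
  -- generators of N
  set F' : Finset Γ := FF.biUnion (fun t => (cl_finite t).toFinset) with hF'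
  have hF'c : F'.card ≤ rr c M := by
    refine Finset.card_biUnion_le.trans ?_
    have h1 : ∀ t ∈ FF, ((cl_finite t).toFinset).card ≤ M := by
      intro t ht
      rw [← Set.ncard_eq_toFinset_card _ (cl_finite t), ncard_cl]
      exact hFFM t ht
    refine (Finset.sum_le_sum h1).trans ?_
    rw [Finset.sum_const, smul_eq_mul]
    exact Nat.mul_le_mul_right _ hFFc
  have hF'M : ∀ y ∈ F', idx y ≤ M := by
    intro y hy
    obtain ⟨t, ht, hy⟩ := Finset.mem_biUnion.mp hy
    rw [Set.Finite.mem_toFinset] at hy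
    obtain ⟨g, rfl⟩ := hy
    rw [idx_conj]
    exact hFFM t ht
  have hNcl : closure (F' : Set Γ) = N := by
    rw [hN, normalClosure]
    congr 1
    ext y
    rw [Finset.mem_coe, Finset.mem_biUnion, Group.mem_conjugatesOfSet_iff]
    constructor
    · rintro ⟨t, ht, hy⟩
      rw [Set.Finite.mem_toFinset] at hy
      obtain ⟨g, rfl⟩ := hy
      exact ⟨t, ht, isConj_iff.mpr ⟨g, rfl⟩⟩
    · rintro ⟨t, ht, hy⟩
      obtain ⟨g, rfl⟩ := isConj_iff.mp hy
      exact ⟨t, ht, by rw [Set.Finite.mem_toFinset]; exact ⟨g, rfl⟩⟩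
  -- the center of N
  set k := M ^ rr c M with hk
  have hcen : (center N).index ≤ k := by
    set C : Subgroup Γ := ⨅ y : F', centralizer ({(y : Γ)} : Set Γ) with hC
    have hCi : C.index ≤ k := by
      refine (index_iInf_le _).trans ?_
      calc ∏ y : F', (centralizer ({(y : Γ)} : Set Γ)).index ≤ ∏ _y : F', M :=
            Finset.prod_le_prod' fun y _ => hF'M y y.2
        _ = M ^ F'.card := by rw [Finset.prod_const, Finset.card_univ, Fintype.card_coe]
        _ ≤ k := Nat.pow_le_pow_right hM1 hF'c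
    have h1 : C.subgroupOf N ≤ center N := by
      intro u hu
      rw [mem_subgroupOf] at hu
      rw [mem_center_iff]
      intro y
      apply Subtype.ext
      have h2 : N ≤ centralizer ({(u : Γ)} : Set Γ) := by
        refine (le_of_eq hNcl.symm).trans ?_
        rw [closure_le]
        intro z hz
        rw [SetLike.mem_coe, mem_centralizer_singleton_iff]
        have h3 := (mem_iInf.mp hu) ⟨z, hz⟩
        rw [mem_centralizer_singleton_iff] at h3
        exact h3.symm
      exact (mem_centralizer_singleton_iff.mp (h2 y.2))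
    have h4 : (center N).index ≤ (C.subgroupOf N).index :=
      Nat.le_of_dvd (Nat.pos_of_ne_zero Subgroup.FiniteIndex.index_ne_zero) (Subgroup.index_dvd_of_le h1)
    refine h4.trans ?_
    have h5 : C.relIndex N ≤ C.relIndex ⊤ := by
      apply relIndex_le_of_le_right le_top
      rw [relIndex_top_right]
      exact Subgroup.FiniteIndex.index_ne_zero
    rw [relIndex_top_right] at h5
    exact h5.trans hCi
  have hN' := card_commutator_le hcen
  -- torsion
  have hpow : ∀ z : Γ, z ∈ commutator Γ → ∃ hz : z ∈ N, (Abelianization.of (⟨z, hz⟩ : N)) ^ e = 1 := by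
    let E0 : Subgroup N := ((powMonoidHom e : Abelianization N →* Abelianization N).comp Abelianization.of).ker
    let E : Subgroup Γ := E0.map N.subtype
    have hE : commutator Γ ≤ E := by
      let W : Set Γ := {z | ∃ x ∈ S, ∃ y ∈ S, z = ⁅x, y⁆}
      have hW : commutator Γ ≤ normalClosure W := by
        apply commutator_le_of_gen hS
        intro x hx y hy
        exact subset_normalClosure ⟨x, hx, y, hy, rfl⟩
      refine hW.trans ?_
      rw [normalClosure, closure_le]
      intro z hz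
      rw [Group.mem_conjugatesOfSet_iff] at hz
      obtain ⟨w, ⟨x, hx, y, hy, rfl⟩, hz⟩ := hz
      obtain ⟨g, rfl⟩ := isConj_iff.mp hz
      have hwN : ⁅x, y⁆ ∈ N := hGN (commutator_mem_commutator (mem_top _) (mem_top _))
      have hwE : ⁅x, y⁆ ^ e = 1 := by
        rw [hSdef, Set.mem_iUnion₂] at hx hy
        obtain ⟨i, hi, hx⟩ := hx
        obtain ⟨j, hj, hy⟩ := hy
        exact hcomm i hi j hj x hx y hy
      refine ⟨⟨g * ⁅x, y⁆ * g⁻¹, hNn.conj_mem _ hwN g⟩, ?_, rfl⟩
      rw [SetLike.mem_coe, MonoidHom.mem_ker, MonoidHom.comp_apply, powMonoidHom_apply, ← map_pow]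
      have h6 : (⟨g * ⁅x, y⁆ * g⁻¹, hNn.conj_mem _ hwN g⟩ : N) ^ e = 1 := by
        apply Subtype.ext
        rw [Subgroup.coe_pow]
        show (g * ⁅x, y⁆ * g⁻¹) ^ e = 1
        rw [conj_pow, hwE, mul_one, mul_inv_cancel]
      rw [h6, map_one]
    intro z hz
    obtain ⟨w, hw, rfl⟩ := hE hz
    refine ⟨w.2, ?_⟩
    rw [SetLike.mem_coe, MonoidHom.mem_ker, MonoidHom.comp_apply, powMonoidHom_apply] at hw
    exact hw
  have hDsub : Nat.card ((commutator Γ).subgroupOf N) = Nat.card (commutator Γ) := by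
    rw [← Subgroup.card_map_of_injective N.subtype_injective, Subgroup.map_subgroupOf_eq_of_le hGN]
  have hcard := card_le_ker_map (Abelianization.of (G := N)) ((commutator Γ).subgroupOf N)
  rw [hDsub, Abelianization.ker_of] at hcard
  have hmemN : ∀ y ∈ F', y ∈ N := fun y hy => by rw [← hNcl]; exact subset_closure hy
  let ψ : {y : Γ // y ∈ F'} → Abelianization N := fun y => Abelianization.of (⟨(y : Γ), hmemN y y.2⟩ : N)
  let s' : Finset (Abelianization N) := Finset.univ.image ψ
  have hs'c : s'.card ≤ rr c M := by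
    refine Finset.card_image_le.trans ?_
    rw [Finset.card_univ, Fintype.card_coe]
    exact hF'c
  have hs'g : closure (s' : Set (Abelianization N)) = ⊤ := by
    rw [eq_top_iff]
    intro x _
    obtain ⟨x, rfl⟩ : ∃ y : N, Abelianization.of y = x := QuotientGroup.mk_surjective x
    have h7 : N ≤ ((closure (s' : Set (Abelianization N))).comap (Abelianization.of (G := N))).map N.subtype := by
      conv_lhs => rw [← hNcl]
      rw [closure_le]
      intro y hy
      refine ⟨⟨y, hmemN y hy⟩, ?_, rfl⟩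
      rw [SetLike.mem_coe, mem_comap]
      apply Subgroup.subset_closure
      rw [Finset.mem_coe]
      exact Finset.mem_image.mpr ⟨⟨y, hy⟩, Finset.mem_univ _, rfl⟩
    obtain ⟨w, hw, hwx⟩ := h7 x.2
    have : w = x := Subtype.ext hwx
    rw [this] at hw
    exact hw
  have htor := card_torsion_le (Q := Abelianization N) (fun x y => mul_comm x y) s' hs'g he
    (((commutator Γ).subgroupOf N).map Abelianization.of) (by
      rintro _ ⟨z, hz, rfl⟩
      obtain ⟨hz1, hz2⟩ := hpow (z : Γ) hz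
      exact hz2)
  refine hcard.trans ?_
  refine Nat.mul_le_mul hN' (htor.trans ?_)
  exact Nat.pow_le_pow_right he hs'c

end H48.Dr
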