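import Mathlib
import Cfsg.Agent.Lib.H48.Dr2
import Cfsg.Agent.Lib.H48.Dr5

set_option autoImplicit false

/-! The derived subgroup under a rank three coprime action. -/

namespace H48.Dr

open Subgroup
open scoped Pointwise commutatorElement

variable {X : Type*} [Group X] [Finite X]

theorem relIndex_centralizer_le {H D : Subgroup X} {x : X} (hD : ∀ h ∈ H, ⁅h, x⁆ ∈ D) :
    (centralizer ({x} : Set X)).relIndex H ≤ Nat.card D := by
  rw [relIndex, index]
  let f : (H ⧸ (centralizer ({x} : Set X)).subgroupOf H) → D := fun z => ⟨⁅((z.out : H) : X), x⁆, hD _ (z.out : H).2⟩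
  apply Nat.card_le_card_of_injective f
  intro y z hyz
  have h1 : ⁅((y.out : H) : X), x⁆ = ⁅((z.out : H) : X), x⁆ := congrArg Subtype.val hyz
  rw [commutatorElement_def, commutatorElement_def] at h1
  have h2 := mul_right_cancel h1
  rw [← QuotientGroup.out_eq' y, ← QuotientGroup.out_eq' z, QuotientGroup.eq, mem_subgroupOf,
    mem_centralizer_singleton_iff]
  rw [Subgroup.coe_mul, Subgroup.coe_inv]
  calc ((y.out : H) : X)⁻¹ * ((z.out : H) : X) * x
      = ((y.out : H) : X)⁻¹ * (((z.out : H) : X) * x * ((z.out : H) : X)⁻¹) * ((z.out : H) : X) := by group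
    _ = ((y.out : H) : X)⁻¹ * (((y.out : H) : X) * x * ((y.out : H) : X)⁻¹) * ((z.out : H) : X) := by rw [h2]
    _ = x * (((y.out : H) : X)⁻¹ * ((z.out : H) : X)) := by group

/-- the bound for the class sizes -/
def MM (q m : ℕ) : ℕ := (m ^ q ^ 3) ^ (2 ^ q ^ 3)

variable {q m : ℕ} [hq : Fact q.Prime] {A G : Subgroup X}

theorem main (hA : Cfsg.IsElementaryAbelian q A) (hA3 : Nat.card A = q ^ 3) (hAG : A ≤ normalizer (G : Set X))
    (hcop : ¬ q ∣ Nat.card G)
    (hm : ∀ a ∈ A, a ≠ 1 → Nat.card (⁅G ⊓ centralizer {a}, G ⊓ centralizer {a}⁆ : Subgroup X) ≤ m) :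
    Nat.card (commutator G) ≤ bb (2 ^ q ^ 3) (MM q m) (m.factorial) := by
  classical
  have hq1 := hq.out.one_lt
  have hAc : ∀ x ∈ A, ∀ y ∈ A, x * y = y * x := by
    intro x hx y hy
    exact congrArg Subtype.val (hA.1.is_comm.comm ⟨x, hx⟩ ⟨y, hy⟩)
  have hAs : Group.IsSolvable A := by
    have := hA.1
    exact Group.isSolvable_of_comm (fun a b => hA.1.is_comm.comm a b)
  have hcop' : (Nat.card A).Coprime (Nat.card G) := by
    rw [hA3]
    exact Nat.Coprime.pow_left 3 ((Nat.Prime.coprime_iff_not_dvd hq.out).mpr hcop)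
  let ι := {B : Subgroup X // B ≤ A ∧ B.relIndex A ≤ q}
  haveI : Finite ι := inferInstance
  haveI : Fintype ι := Fintype.ofFinite _
  have hcι : Fintype.card ι ≤ 2 ^ q ^ 3 := by
    have hset : Nat.card (Set A) = 2 ^ Nat.card A := by
      haveI : Fintype A := Fintype.ofFinite _
      rw [Nat.card_eq_fintype_card, Nat.card_eq_fintype_card, Fintype.card_set]
    rw [← Nat.card_eq_fintype_card, ← hA3, ← hset]
    let f : ι → Set A := fun B => {a | (a : X) ∈ (B : Subgroup X)}
    apply Nat.card_le_card_of_injective f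
    rintro ⟨B, hB, hB2⟩ ⟨C, hC, hC2⟩ hBC
    apply Subtype.ext
    simp only
    ext x
    constructor
    · intro hx
      have : (⟨x, hB hx⟩ : A) ∈ f ⟨B, hB, hB2⟩ := hx
      rw [hBC] at this
      exact this
    · intro hx
      have : (⟨x, hC hx⟩ : A) ∈ f ⟨C, hC, hC2⟩ := hx
      rw [← hBC] at this
      exact this
  -- generation
  have hgen : ∀ K : Subgroup X, K ≤ G → A ≤ normalizer (K : Set X) →
      K = ⨆ i ∈ (Finset.univ : Finset ι), K ⊓ centralizer (((i : Subgroup X)) : Set X) := by
    intro K hK hAK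
    have h1 := H27.GenSub.eq_iSup_hyperplanes q A K hA hAK (fun h => hcop (h.trans (Subgroup.card_dvd_of_le hK)))
    simp only [Finset.mem_univ, iSup_pos]
    exact h1
  -- intersections
  have hint : ∀ B C : ι, ∃ a ∈ A, a ≠ 1 ∧ a ∈ (B : Subgroup X) ∧ a ∈ (C : Subgroup X) := by
    intro B C
    have h1 : (B : Subgroup X) ⊓ C ≠ ⊥ := by
      intro h2
      have h3 : (B : Subgroup X).relIndex C = Nat.card (C : Subgroup X) := by
        rw [← inf_relIndex_right, h2, relIndex_bot_left]
      have h4 : (B : Subgroup X).relIndex C ≤ (B : Subgroup X).relIndex A :=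
        relIndex_le_of_le_right C.2.1 Subgroup.FiniteIndex.index_ne_zero
      have h5 := B.2.2
      have h6 : Nat.card (C : Subgroup X) * (C : Subgroup X).relIndex A = Nat.card A := card_mul_relIndex' C.2.1
      have h7 := C.2.2
      rw [hA3] at h6
      have h8 : Nat.card (C : Subgroup X) ≤ q := by omega
      have h9 : Nat.card (C : Subgroup X) * (C : Subgroup X).relIndex A ≤ q * q := Nat.mul_le_mul h8 h7
      rw [h6] at h9
      have : q * q < q ^ 3 := by
        rw [pow_succ, pow_two]
        have : 0 < q * q := by positivity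
        nlinarith
      omega
    obtain ⟨⟨a, ha⟩, ha1⟩ := Subgroup.ne_bot_iff_exists_ne_one.mp h1
    rw [Ne, ← Subtype.coe_inj, Subgroup.coe_one] at ha1
    have ha' := mem_inf.mp ha
    exact ⟨a, B.2.1 ha'.1, ha1, ha'.1, ha'.2⟩
  have hcl : ∀ (B : ι) (a : X), a ∈ (B : Subgroup X) → ∀ x ∈ G ⊓ centralizer ((B : Subgroup X) : Set X),
      x ∈ G ⊓ centralizer {a} := by
    intro B a ha x hx
    rw [mem_inf] at hx ⊢
    refine ⟨hx.1, ?_⟩
    rw [mem_centralizer_singleton_iff]
    exact ((mem_centralizer_iff.mp hx.2) a ha).symm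
  -- m is positive
  have hm1 : 1 ≤ m := by
    have hAne : A ≠ ⊥ := by
      intro h
      rw [h, Subgroup.card_bot] at hA3
      have : 1 < q ^ 3 := Nat.one_lt_pow (by norm_num) hq1
      omega
    obtain ⟨⟨a, ha⟩, ha1⟩ := Subgroup.ne_bot_iff_exists_ne_one.mp hAne
    rw [Ne, ← Subtype.coe_inj, Subgroup.coe_one] at ha1
    exact le_trans (Nat.one_le_iff_ne_zero.mpr Nat.card_pos.ne') (hm a ha ha1)
  -- commutators
  have hpow : ∀ B C : ι, ∀ x ∈ G ⊓ centralizer ((B : Subgroup X) : Set X),
      ∀ y ∈ G ⊓ centralizer ((C : Subgroup X) : Set X), ⁅x, y⁆ ^ m.factorial = 1 := by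
    intro B C x hx y hy
    obtain ⟨a, haA, ha1, haB, haC⟩ := hint B C
    have hx' := hcl B a haB x hx
    have hy' := hcl C a haC y hy
    have h1 : ⁅x, y⁆ ∈ (⁅G ⊓ centralizer {a}, G ⊓ centralizer {a}⁆ : Subgroup X) :=
      commutator_mem_commutator hx' hy'
    have h2 := hm a haA ha1
    set D := (⁅G ⊓ centralizer {a}, G ⊓ centralizer {a}⁆ : Subgroup X)
    have h3 : orderOf ⁅x, y⁆ ≤ m := by
      refine le_trans ?_ h2
      have := Nat.le_of_dvd Nat.card_pos (orderOf_dvd_natCard (⟨⁅x, y⁆, h1⟩ : D))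
      rwa [Subgroup.orderOf_mk] at this
    have h4 : orderOf ⁅x, y⁆ ∣ m.factorial := Nat.dvd_factorial (orderOf_pos _) h3
    exact orderOf_dvd_iff_pow_eq_one.mp h4
  -- centralizers
  have hcent : ∀ B C : ι, ∀ x ∈ G ⊓ centralizer ((B : Subgroup X) : Set X),
      (centralizer ({x} : Set X)).relIndex (G ⊓ centralizer ((C : Subgroup X) : Set X)) ≤ m := by
    intro B C x hx
    obtain ⟨a, haA, ha1, haB, haC⟩ := hint B C
    refine le_trans ?_ (hm a haA ha1)
    apply relIndex_centralizer_le
    intro h hh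
    exact commutator_mem_commutator (hcl C a haC h hh) (hcl B a haB x hx)
  have hidx : ∀ B : ι, ∀ (x : X) (hx : x ∈ G ⊓ centralizer ((B : Subgroup X) : Set X)),
      idx (⟨x, hx.1⟩ : G) ≤ MM q m := by
    intro B x hx
    let K : Subgroup X := G ⊓ ⨅ a : A, centralizer ({(a : X) * x * (a : X)⁻¹} : Set X)
    have hAK : A ≤ normalizer (K : Set X) := by
      apply H1.Coprime.le_normalizer_of_conj_mem
      intro a ha k hk
      refine mem_inf.mpr ⟨?_, ?_⟩
      · exact H1.Coprime.conj_mem_of_le_normalizer hAG ha hk.1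
      · rw [mem_iInf]
        intro b
        have h1 := (mem_iInf.mp hk.2) ⟨a⁻¹ * b, mul_mem (inv_mem ha) b.2⟩
        rw [mem_centralizer_singleton_iff] at h1 ⊢
        simp only at h1
        calc a * k * a⁻¹ * (b * x * (b : X)⁻¹)
            = a * (k * (a⁻¹ * b * x * (a⁻¹ * (b : X))⁻¹)) * a⁻¹ := by group
          _ = a * ((a⁻¹ * b * x * (a⁻¹ * (b : X))⁻¹) * k) * a⁻¹ := by rw [h1]
          _ = b * x * (b : X)⁻¹ * (a * k * a⁻¹) := by group
    have hKG : K ≤ G := inf_le_left
    have h2 := relIndex_dvd (Finset.univ : Finset ι) (fun i => (i : Subgroup X)) hAG hcop' hAs hAc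
      (fun i _ => i.2.1) hgen hKG hAK
    have h3 : ∀ C : ι, K.relIndex (G ⊓ centralizer ((C : Subgroup X) : Set X)) ≤ m ^ q ^ 3 := by
      intro C
      have h4 : K.relIndex (G ⊓ centralizer ((C : Subgroup X) : Set X)) =
          (⨅ a : A, centralizer ({(a : X) * x * (a : X)⁻¹} : Set X)).relIndex
            (G ⊓ centralizer ((C : Subgroup X) : Set X)) := by
        rw [← inf_relIndex_right, ← inf_relIndex_right (H := ⨅ a : A, centralizer ({(a : X) * x * (a : X)⁻¹} : Set X))]
        congr 1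
        apply le_antisymm
        · exact le_inf (inf_le_left.trans inf_le_right) inf_le_right
        · exact le_inf (le_inf (inf_le_right.trans inf_le_left) inf_le_left) inf_le_right
      rw [h4]
      haveI : Fintype A := Fintype.ofFinite _
      refine (relIndex_iInf_le _).trans ?_
      calc ∏ a : A, (centralizer ({(a : X) * x * (a : X)⁻¹} : Set X)).relIndex
            (G ⊓ centralizer ((C : Subgroup X) : Set X)) ≤ ∏ _a : A, m := by
            apply Finset.prod_le_prod' fun a _ => ?_
            apply hcent B C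
            refine mem_inf.mpr ⟨H1.Coprime.conj_mem_of_le_normalizer hAG a.2 hx.1, ?_⟩
            rw [mem_centralizer_iff]
            intro b hb
            have hbA := B.2.1 hb
            have h5 := (mem_centralizer_iff.mp hx.2) b hb
            have h6 := hAc (a : X) a.2 b hbA
            have h7 : (a : X)⁻¹ * b = b * (a : X)⁻¹ := hAc _ (inv_mem a.2) b hbA
            calc b * ((a : X) * x * (a : X)⁻¹) = (b * a) * x * (a : X)⁻¹ := by group
              _ = (a * b) * x * (a : X)⁻¹ := by rw [h6]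
              _ = a * (b * x) * (a : X)⁻¹ := by group
              _ = a * (x * b) * (a : X)⁻¹ := by rw [h5]
              _ = a * x * (b * (a : X)⁻¹) := by group
              _ = a * x * ((a : X)⁻¹ * b) := by rw [h7]
              _ = (a : X) * x * (a : X)⁻¹ * b := by group
        _ = m ^ q ^ 3 := by
            rw [Finset.prod_const, Finset.card_univ, ← Nat.card_eq_fintype_card, hA3]
    have h8 : K.relIndex G ≤ MM q m := by
      have hne : (∏ i ∈ (Finset.univ : Finset ι), K.relIndex (G ⊓ centralizer ((i : Subgroup X) : Set X))) ≠ 0 :=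
        Finset.prod_ne_zero_iff.mpr fun i _ => Subgroup.FiniteIndex.index_ne_zero
      refine (Nat.le_of_dvd (Nat.pos_of_ne_zero hne) h2).trans ?_
      calc ∏ i ∈ (Finset.univ : Finset ι), K.relIndex (G ⊓ centralizer ((i : Subgroup X) : Set X))
          ≤ ∏ _i ∈ (Finset.univ : Finset ι), m ^ q ^ 3 := Finset.prod_le_prod' fun i _ => h3 i
        _ = (m ^ q ^ 3) ^ Fintype.card ι := by rw [Finset.prod_const, Finset.card_univ]
        _ ≤ MM q m := Nat.pow_le_pow_right (Nat.pow_pos hm1) hcι
    refine le_trans ?_ h8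
    rw [idx, relIndex]
    apply Nat.le_of_dvd (Nat.pos_of_ne_zero Subgroup.FiniteIndex.index_ne_zero)
    apply Subgroup.index_dvd_of_le
    intro k hk
    rw [mem_subgroupOf] at hk
    rw [mem_centralizer_singleton_iff]
    apply Subtype.ext
    have h9 := (mem_iInf.mp hk.2) 1
    rw [mem_centralizer_singleton_iff] at h9
    simpa using h9
  have hMM1 : 1 ≤ MM q m := Nat.one_le_pow _ _ (Nat.one_le_pow _ _ hm1)
  refine bfc (Γ := G) (Finset.univ : Finset ι) (fun i => (G ⊓ centralizer ((i : Subgroup X) : Set X)).subgroupOf G)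
    ?_ hMM1 ?_ (Nat.factorial_pos m) ?_ (by rw [Finset.card_univ]; exact hcι)
  · rw [eq_top_iff, ← Subgroup.map_subtype_le_map_subtype, ← MonoidHom.range_eq_map, Subgroup.range_subtype,
      Subgroup.map_iSup]
    conv_lhs => rw [hgen G le_rfl hAG]
    apply iSup_mono
    intro i
    rw [Subgroup.map_iSup]
    apply iSup_mono
    intro hi
    rw [Subgroup.map_subgroupOf_eq_of_le inf_le_left]
  · intro i _ x hx
    exact hidx i x (mem_subgroupOf.mp hx)
  · intro i _ j _ x hx y hy
    apply Subtype.ext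
    exact hpow i j x (mem_subgroupOf.mp hx) y (mem_subgroupOf.mp hy)

end H48.Dr
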