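import Cfsg.Agent.Lib.H48.Pgo5

set_option autoImplicit false
set_option linter.unusedSectionVars false
set_option linter.style.haveILetI false
set_option linter.unusedVariables false

/-! The images of the similarity groups in `Aut (PΩ±)` modulo inner automorphisms: final statements. -/

namespace H48.Pgo

open Matrix QuadraticMap H48.OutO H48.QuadStd H50.OrthPsi H50.OrthSim H48.QuadSplit

theorem two_ne_of_odd {F : Type*} [Field F] [Fintype F] (hodd : Odd (Fintype.card F)) : (2 : F) ≠ 0 := by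
  rw [H48.FinFieldSq.two_ne_zero_iff_odd_card, Nat.card_eq_fintype_card]
  exact hodd

section plus

variable {F : Type*} [Field F] [Fintype F] (hodd : Odd (Fintype.card F)) {m : ℕ} (hm : 4 ≤ m)
include hodd hm

theorem neg_plus : NegMem (qPlus m F) ↔ ¬ (Odd m ∧ Fintype.card F % 4 = 3) := by
  rw [negMem_plus_iff rfl hodd m (by omega), mod_one_iff hodd m, and_comm]

theorem exists_d : ∃ (e : F) (he0 : e ≠ 0), ¬ IsSquare e := by
  obtain ⟨e, he⟩ := H48.FinFieldSq.exists_not_isSquare (two_ne_of_odd hodd)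
  exact ⟨e, by rintro rfl; exact he IsSquare.zero, he⟩

theorem fin_S2722 :
    ∃ φ : ↥(Cfsg.pgoAut F (⇑(qPlus m F))) →* Multiplicative (ZMod 2 × ZMod 2), Function.Surjective φ ∧
      φ.ker = (Cfsg.psoAut F (⇑(qPlus m F))).subgroupOf (Cfsg.pgoAut F (⇑(qPlus m F))) := by
  obtain ⟨e, he0, he⟩ := exists_d (F := F) hodd hm
  exact pgo_mod_pso (two_ne_of_odd hodd) (nd_plus m) (by rw [card_plus]; omega) (card_plus m) _ rfl he
    (dS_mult m e he0)

theorem fin_S2723 :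
    ((Odd m ∧ Fintype.card F % 4 = 3) → (Cfsg.Inn (Cfsg.POmega F (⇑(qPlus m F)))).relIndex
      (Cfsg.psoAut F (⇑(qPlus m F))) = 1) ∧
    (¬ (Odd m ∧ Fintype.card F % 4 = 3) → (Cfsg.Inn (Cfsg.POmega F (⇑(qPlus m F)))).relIndex
      (Cfsg.psoAut F (⇑(qPlus m F))) = 2) := by
  have hn : 7 ≤ Fintype.card (Fin m ⊕ Fin m) := by rw [card_plus]; omega
  constructor
  · intro h
    have hneg : ¬ NegMem (qPlus m F) := by rw [neg_plus hodd hm, not_not]; exact h
    rw [pso_eq_inn (two_ne_of_odd hodd) (nd_plus m) hn hneg (card_plus m)]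
    exact Subgroup.relIndex_self _
  · intro h
    exact relIndex_neg (two_ne_of_odd hodd) (nd_plus m) hn ((neg_plus hodd hm).mpr h) (card_plus m)

theorem fin_S2724 :
    ((Odd m ∧ Fintype.card F % 4 = 3) → (∃ φ : ↥(Cfsg.pgoAut F (⇑(qPlus m F))) →* Multiplicative (ZMod 2 × ZMod 2),
      Function.Surjective φ ∧
      φ.ker = (Cfsg.Inn (Cfsg.POmega F (⇑(qPlus m F)))).subgroupOf (Cfsg.pgoAut F (⇑(qPlus m F))))) ∧
    (¬ (Odd m ∧ Fintype.card F % 4 = 3) → (∃ φ : ↥(Cfsg.pgoAut F (⇑(qPlus m F))) →* DihedralGroup 4,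
      Function.Surjective φ ∧
      φ.ker = (Cfsg.Inn (Cfsg.POmega F (⇑(qPlus m F)))).subgroupOf (Cfsg.pgoAut F (⇑(qPlus m F))))) := by
  have hn : 7 ≤ Fintype.card (Fin m ⊕ Fin m) := by rw [card_plus]; omega
  obtain ⟨e, he0, he⟩ := exists_d (F := F) hodd hm
  constructor
  · intro h
    have hneg : ¬ NegMem (qPlus m F) := by rw [neg_plus hodd hm, not_not]; exact h
    exact pgo_four (two_ne_of_odd hodd) (nd_plus m) hn (card_plus m) hneg _ rfl he (dS_mult m e he0)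
  · intro h
    exact pgo_dihedral (two_ne_of_odd hodd) (nd_plus m) hn (card_plus m) ((neg_plus hodd hm).mpr h) _ rfl he
      (dS_mult m e he0)

set_option maxHeartbeats 1600000 in
theorem fin_S2725 (q : (Fin m ⊕ Fin m → F) → F) (hq : ⇑(qPlus m F) = q) (S : Subgroup (MulAut (Cfsg.POmega F q)))
    (hS : S = Cfsg.autSubgroupOf (fun β => ∃ g : GL (Fin m ⊕ Fin m) F, g ∈ Cfsg.Geo.quadSimilarityGroup (F := F) q ∧
      Cfsg.PreservesSingularClasses q (g : Matrix (Fin m ⊕ Fin m) (Fin m ⊕ Fin m) F) ∧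
      Cfsg.IsInducedBySemilinearPOmega q g (RingEquiv.refl F) β)) :
    ((Odd m ∧ Fintype.card F % 4 = 3) → (∃ φ : ↥S →* Multiplicative (ZMod 2), Function.Surjective φ ∧
      φ.ker = (Cfsg.Inn (Cfsg.POmega F q)).subgroupOf S)) ∧
    ((Odd m ∧ Fintype.card F % 4 = 1) → (∃ φ : ↥S →* Multiplicative (ZMod 4), Function.Surjective φ ∧
      φ.ker = (Cfsg.Inn (Cfsg.POmega F q)).subgroupOf S)) ∧
    (Even m → (∃ φ : ↥S →* Multiplicative (ZMod 2 × ZMod 2), Function.Surjective φ ∧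
      φ.ker = (Cfsg.Inn (Cfsg.POmega F q)).subgroupOf S)) := by
  subst hq
  have h2 := two_ne_of_odd hodd
  have hn : 7 ≤ Fintype.card (Fin m ⊕ Fin m) := by rw [card_plus]; omega
  have hQ := nd_plus (F := F) m
  obtain ⟨e, he0, he⟩ := exists_d (F := F) hodd hm
  obtain ⟨K, hK⟩ := exists_K h2 hQ hn (card_plus m)
  have hd := dS_mult m e he0
  have hds : ¬ SqM (qPlus m F) (dS m e he0) := by rwa [sqM_iff h2 hQ hn hd]
  have hdp : Prp (qPlus m F) m (dS m e he0) := by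
    rw [prp_iff h2 hQ hn hd]
    exact dG_det m e he0
  have hS' : S = ((psi1 (qPlus m F)).comp K.subtype).range := by
    rw [hS]
    refine range_of_prop K (fun g => Cfsg.PreservesSingularClasses (⇑(qPlus m F))
      (g : Matrix (Fin m ⊕ Fin m) (Fin m ⊕ Fin m) F)) (fun g => ?_) _ (fun β => Iff.rfl)
    rw [hK]
    exact preserves_plus_iff h2 hm g
  obtain ⟨v₁, hv₁⟩ := exists_Q_eq hQ hn (one_ne_zero (α := F))
  obtain ⟨v₂, hv₂⟩ := exists_Q_eq hQ hn he0
  have h1 : qPlus m F v₁ ≠ 0 := by rw [hv₁]; exact one_ne_zero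
  have h1' : IsSquare (qPlus m F v₁) := by rw [hv₁]; exact IsSquare.one
  have h2' : qPlus m F v₂ ≠ 0 := by rw [hv₂]; exact he0
  have hh2 : ¬ IsSquare (qPlus m F v₂) := by rw [hv₂]; exact he
  obtain ⟨u₁, u₂, k1, k2, q1, q2, hdd⟩ := pi1_dS (m := m) h2 hm e he0
  refine ⟨fun h => ?_, fun h => ?_, fun h => ?_⟩
  · have hneg : ¬ NegMem (qPlus m F) := by rw [neg_plus hodd hm, not_not]; exact h
    exact proper_two h2 hQ hn (card_plus m) hneg K hK _ hdp hds S hS'
  · have hneg : NegMem (qPlus m F) := by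
      rw [neg_plus hodd hm]
      rintro ⟨-, h'⟩
      omega
    apply (proper_neg h2 hQ hn (card_plus m) hneg K hK _ hdp hds S hS' h1 h1' hh2 h2').2
    rw [hdd]
    refine two_refl_non h2 hQ hn q1 q2 (pow_ne_zero _ he0) ?_ k1 k2 h1 h1' h2' hh2
    obtain ⟨k, hk⟩ := h.1
    rw [hk, pow_succ]
    intro hs
    rw [H48.FinFieldSq.isSquare_mul_iff (pow_ne_zero _ he0) he0] at hs
    exact he (hs.mp (Even.isSquare_pow (even_two_mul k) e))
  · have hneg : NegMem (qPlus m F) := by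
      rw [neg_plus hodd hm]
      rintro ⟨h', -⟩
      exact (Nat.not_odd_iff_even.mpr h) h'
    apply (proper_neg h2 hQ hn (card_plus m) hneg K hK _ hdp hds S hS' h1 h1' hh2 h2').1
    rw [hdd]
    exact two_refl_sq h2 hQ hn q1 q2 (pow_ne_zero _ he0) (Even.isSquare_pow h e) k1 k2

end plus

section minus

variable {F : Type*} [Field F] [Fintype F] (hodd : Odd (Fintype.card F)) {m : ℕ} (hm : 3 ≤ m) {a b : F}
  (hab : ∀ z₁ z₂ : F, z₁ ^ 2 + a * z₁ * z₂ + b * z₂ ^ 2 = 0 → z₁ = 0 ∧ z₂ = 0)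
include hodd hm hab

theorem neg_minus : NegMem (qMinus m F a b) ↔ (Even m ∧ Fintype.card F % 4 = 3) := by
  rw [negMem_minus_iff rfl hodd m a b hab, mod_three_iff hodd (m + 1), Nat.odd_add_one, Nat.not_odd_iff_even, and_comm]

theorem nd_minus : (polarBilin (qMinus m F a b)).Nondegenerate := nd_iff.mp (nd_qMinus m (disc_ne_zero hab))

theorem card7_minus : 7 ≤ Fintype.card ((Fin m ⊕ Fin m) ⊕ Fin 2) := by rw [card_minus]; omega

theorem exists_dM : ∃ (x y : F) (hc : x ^ 2 + a * x * y + b * y ^ 2 ≠ 0), ¬ IsSquare (x ^ 2 + a * x * y + b * y ^ 2) := by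
  obtain ⟨e, he⟩ := H48.FinFieldSq.exists_not_isSquare (two_ne_of_odd hodd)
  have he0 : e ≠ 0 := by
    rintro rfl
    exact he IsSquare.zero
  haveI := H7.AnisoPlane.Aniso.fact hab
  obtain ⟨z, hz⟩ := exists_norm hab he0
  refine ⟨z.re, z.im, ?_, ?_⟩
  · have : z.re ^ 2 + a * z.re * z.im + b * z.im ^ 2 = e := by
      rw [← hz, QuadraticAlgebra.norm_def]; ring
    rw [this]; exact he0
  · have : z.re ^ 2 + a * z.re * z.im + b * z.im ^ 2 = e := by
      rw [← hz, QuadraticAlgebra.norm_def]; ring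
    rw [this]; exact he

theorem fin_S2726 :
    ∃ φ : ↥(Cfsg.pgoAut F (⇑(qMinus m F a b))) →* Multiplicative (ZMod 2 × ZMod 2), Function.Surjective φ ∧
      φ.ker = (Cfsg.psoAut F (⇑(qMinus m F a b))).subgroupOf (Cfsg.pgoAut F (⇑(qMinus m F a b))) := by
  obtain ⟨x, y, hc, he⟩ := exists_dM hodd hm hab
  exact pgo_mod_pso (two_ne_of_odd hodd) (nd_minus hodd hm hab) (card7_minus hodd hm hab) (card_minus m) _ rfl he
    (dM_mult m a b x y hc)

theorem fin_S2727 :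
    ((Even m ∧ Fintype.card F % 4 = 3) → (Cfsg.Inn (Cfsg.POmega F (⇑(qMinus m F a b)))).relIndex
      (Cfsg.psoAut F (⇑(qMinus m F a b))) = 2) ∧
    (¬ (Even m ∧ Fintype.card F % 4 = 3) → (Cfsg.Inn (Cfsg.POmega F (⇑(qMinus m F a b)))).relIndex
      (Cfsg.psoAut F (⇑(qMinus m F a b))) = 1) := by
  constructor
  · intro h
    exact relIndex_neg (two_ne_of_odd hodd) (nd_minus hodd hm hab) (card7_minus hodd hm hab)
      ((neg_minus hodd hm hab).mpr h) (card_minus m)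
  · intro h
    have hneg : ¬ NegMem (qMinus m F a b) := by rw [neg_minus hodd hm hab]; exact h
    rw [pso_eq_inn (two_ne_of_odd hodd) (nd_minus hodd hm hab) (card7_minus hodd hm hab) hneg (card_minus m)]
    exact Subgroup.relIndex_self _

theorem fin_S2728 :
    ((Even m ∧ Fintype.card F % 4 = 3) → (∃ φ : ↥(Cfsg.pgoAut F (⇑(qMinus m F a b))) →* DihedralGroup 4,
      Function.Surjective φ ∧
      φ.ker = (Cfsg.Inn (Cfsg.POmega F (⇑(qMinus m F a b)))).subgroupOf (Cfsg.pgoAut F (⇑(qMinus m F a b))))) ∧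
    (¬ (Even m ∧ Fintype.card F % 4 = 3) → (∃ φ : ↥(Cfsg.pgoAut F (⇑(qMinus m F a b))) →*
      Multiplicative (ZMod 2 × ZMod 2), Function.Surjective φ ∧
      φ.ker = (Cfsg.Inn (Cfsg.POmega F (⇑(qMinus m F a b)))).subgroupOf (Cfsg.pgoAut F (⇑(qMinus m F a b))))) := by
  obtain ⟨x, y, hc, he⟩ := exists_dM hodd hm hab
  constructor
  · intro h
    exact pgo_dihedral (two_ne_of_odd hodd) (nd_minus hodd hm hab) (card7_minus hodd hm hab) (card_minus m)
      ((neg_minus hodd hm hab).mpr h) _ rfl he (dM_mult m a b x y hc)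
  · intro h
    have hneg : ¬ NegMem (qMinus m F a b) := by rw [neg_minus hodd hm hab]; exact h
    exact pgo_four (two_ne_of_odd hodd) (nd_minus hodd hm hab) (card7_minus hodd hm hab) (card_minus m) hneg _ rfl he
      (dM_mult m a b x y hc)

set_option maxHeartbeats 1600000 in
theorem fin_S2729 (q : ((Fin m ⊕ Fin m) ⊕ Fin 2 → F) → F) (hq : ⇑(qMinus m F a b) = q)
    (S : Subgroup (MulAut (Cfsg.POmega F q)))
    (hS : S = Cfsg.autSubgroupOf (fun β => ∃ g : GL ((Fin m ⊕ Fin m) ⊕ Fin 2) F,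
      g ∈ Cfsg.Geo.quadSimilarityGroup (F := F) q ∧
      Cfsg.PreservesSingularClassesMinus m a b (g : Matrix ((Fin m ⊕ Fin m) ⊕ Fin 2) ((Fin m ⊕ Fin m) ⊕ Fin 2) F) ∧
      Cfsg.IsInducedBySemilinearPOmega q g (RingEquiv.refl F) β)) :
    ((Even m ∧ Fintype.card F % 4 = 3) → (∃ φ : ↥S →* Multiplicative (ZMod 4), Function.Surjective φ ∧
      φ.ker = (Cfsg.Inn (Cfsg.POmega F q)).subgroupOf S)) ∧
    (¬ (Even m ∧ Fintype.card F % 4 = 3) → (∃ φ : ↥S →* Multiplicative (ZMod 2), Function.Surjective φ ∧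
      φ.ker = (Cfsg.Inn (Cfsg.POmega F q)).subgroupOf S)) := by
  subst hq
  have h2 := two_ne_of_odd hodd
  have hn := card7_minus hodd hm hab
  have hQ := nd_minus hodd hm hab
  obtain ⟨x, y, hc, he⟩ := exists_dM hodd hm hab
  obtain ⟨K, hK⟩ := exists_K h2 hQ hn (card_minus m)
  have hd := dM_mult m a b x y hc
  have hds : ¬ SqM (qMinus m F a b) (dM m a b x y hc) := by rwa [sqM_iff h2 hQ hn hd]
  have hdp : Prp (qMinus m F a b) (m + 1) (dM m a b x y hc) := by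
    rw [prp_iff h2 hQ hn hd]
    exact dMG_det m a b x y hc
  have hS' : S = ((psi1 (qMinus m F a b)).comp K.subtype).range := by
    rw [hS]
    refine range_of_prop K (fun g => Cfsg.PreservesSingularClassesMinus m a b
      (g : Matrix ((Fin m ⊕ Fin m) ⊕ Fin 2) ((Fin m ⊕ Fin m) ⊕ Fin 2) F)) (fun g => ?_) _ (fun β => Iff.rfl)
    rw [hK]
    exact preserves_minus_iff h2 hm hab g
  obtain ⟨v₁, hv₁⟩ := exists_Q_eq hQ hn (one_ne_zero (α := F))
  obtain ⟨v₂, hv₂⟩ := exists_Q_eq hQ hn hc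
  have h1 : qMinus m F a b v₁ ≠ 0 := by rw [hv₁]; exact one_ne_zero
  have h1' : IsSquare (qMinus m F a b v₁) := by rw [hv₁]; exact IsSquare.one
  have h2' : qMinus m F a b v₂ ≠ 0 := by rw [hv₂]; exact hc
  have hh2 : ¬ IsSquare (qMinus m F a b v₂) := by rw [hv₂]; exact he
  obtain ⟨u₁, u₂, w₁, w₂, k1, k2, l1, l2, q1, q2, q3, q4, hdd⟩ := pi1_dM (m := m) h2 hm x y hc
  refine ⟨fun h => ?_, fun h => ?_⟩
  · apply (proper_neg h2 hQ hn (card_minus m) ((neg_minus hodd hm hab).mpr h) K hK _ hdp hds S hS' h1 h1' hh2 h2').2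
    rw [hdd, two_refl_sq h2 hQ hn q1 q2 (pow_ne_zero _ hc) (Even.isSquare_pow h.1 _) k1 k2, one_mul,
      pi_Rf_comm h2 hQ hn l1 l2]
    exact two_refl_non h2 hQ hn q4 q3 hc he l2 l1 h1 h1' h2' hh2
  · have hneg : ¬ NegMem (qMinus m F a b) := by rw [neg_minus hodd hm hab]; exact h
    exact proper_two h2 hQ hn (card_minus m) hneg K hK _ hdp hds S hS'

end minus

end H48.Pgo
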