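import Cfsg.Agent.Lib.H48.Oct5
import Cfsg.Agent.Lib.H48.Pgo6
import Cfsg.Agent.Lib.H50.OrthPlusFam

/-!
The inner-diagonal group of `PΩ⁺_{2m}` is normal in the automorphism group, also for `m = 4`.
-/

set_option autoImplicit false
set_option linter.unusedSectionVars false

namespace H48.Fa

open Matrix QuadraticMap H48.OutO H50.PSLBasic H50.PSLField H50.H90 H50.ClassCount H50.PSLCount H48.QuadSplit H48.QuadStd
  H50.OrthPsi H50.OrthDesc H48.OmegaPlus H50.OrthSim H18.MaxSing H50.OrthPar H50.OrthProper H50.OrthMinusK H50.OrthField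
  H50.OrthInn H50.OrthOddCount H50.OrthEven H50.OrthMinusFam H50.OrthCountE H50.OrthPlusFam H48.Pgo H48.Oct

section gen

variable {F : Type*} [Field F] {ι : Type} [Fintype ι] [DecidableEq ι] {Q : QuadraticForm F (ι → F)} {n : ℕ}

/-- conjugation by a semisimilarity preserves the proper similarities -/
theorem DP_conj (h2 : (2 : F) ≠ 0) (y : ↥(Gam Q)) {g : ↥(simG Q)} (hg : g ∈ DP Q n) :
    ∃ h ∈ DP Q n, psi1 Q h = Psi Q y * psi1 Q g * (Psi Q y)⁻¹ := by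
  rw [DP_odd h2] at hg ⊢
  obtain ⟨c, hc1, hc2⟩ := hg
  have hr : ((y * toGam Q g * y⁻¹ : ↥(Gam Q)) : GA ι F).right = 1 :=
    conj_right (x := (y : GA ι F)) (d := ((toGam Q g : ↥(Gam Q)) : GA ι F)) rfl
  obtain ⟨h, hh⟩ := exists_toGam hr
  have hm : IsMult Q ((y * toGam Q g * y⁻¹ : ↥(Gam Q)) : GA ι F) ((y : GA ι F).right (c : F)) :=
    IsMult.conj y.2 rfl hc1
  have hdet : (((y * toGam Q g * y⁻¹ : ↥(Gam Q)) : GA ι F).left : Matrix ι ι F).det =
      (y : GA ι F).right (((g : GL ι F) : Matrix ι ι F).det) :=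
    det_conj (x := (y : GA ι F)) (d := ((toGam Q g : ↥(Gam Q)) : GA ι F)) rfl
  refine ⟨h, ⟨unitsMap (y : GA ι F).right c, fun v => ?_, ?_⟩, ?_⟩
  · rw [← hh] at hm
    exact hm v
  · rw [← hh] at hdet
    rw [unitsMap_coe]
    refine hdet.trans ?_
    rw [hc2, map_pow]
  · rw [psi1_apply, hh, map_mul, map_mul, map_inv, psi1_apply]

end gen

section eight

variable {F : Type*} [Field F] [Fintype F]

/-- the special vector -/
def av (c : F) : Fin 4 ⊕ Fin 4 → F := Sum.elim ![c, 0, 0, 0] ![1, 0, 0, 0]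

theorem q_av (c : F) : qPlus 4 F (av c) = c := by
  rw [q8]
  change c * 1 + 0 * 0 + 0 * 0 + 0 * 0 = c
  ring

theorem om_av (c : F) (v : Fin 4 ⊕ Fin 4 → F) : om (av c) v = dPlus 4 c v := by
  have e0 : av c (.inl 0) = c := rfl
  have e1 : av c (.inl 1) = 0 := rfl
  have e2 : av c (.inl 2) = 0 := rfl
  have e3 : av c (.inl 3) = 0 := rfl
  have k0 : av c (.inr 0) = 1 := rfl
  have k1 : av c (.inr 1) = 0 := rfl
  have k2 : av c (.inr 2) = 0 := rfl
  have k3 : av c (.inr 3) = 0 := rfl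
  have d : ∀ i, dPlus 4 c v (.inl i) = c * v (.inl i) := fun i => by simp [dPlus]
  have d' : ∀ i, dPlus 4 c v (.inr i) = v (.inr i) := fun i => by simp [dPlus]
  apply ext8 <;> simp only [om_l0, om_l1, om_l2, om_l3, om_r0, om_r1, om_r2, om_r3, e0, e1, e2, e3, k0, k1, k2, k3,
    d, d'] <;> ring

theorem toGam_dS (c : F) (hc : c ≠ 0) (ha : qPlus 4 F (av c) ≠ 0) :
    toGam (qPlus 4 F) (dS 4 c hc) = Lm (av c) ha := by
  apply Subtype.ext
  apply ext_ap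
  · rw [Lm_right, toGam_coe, SemidirectProduct.right_inl]
  · intro v
    rw [Lm_ap, om_av, toGam_coe, ap_inl]
    exact dG_mulVec 4 c hc v

theorem dS_mem_DP (h2 : (2 : F) ≠ 0) (m : ℕ) (c : F) (hc : c ≠ 0) : dS m c hc ∈ DP (qPlus m F) m := by
  rw [DP_odd h2]
  exact ⟨Units.mk0 c hc, dG_mem m c hc, dG_det m c hc⟩

theorem refl2_mem_DP (h2 : (2 : F) ≠ 0) {m : ℕ} {v w : Fin m ⊕ Fin m → F} (hv : qPlus m F v ≠ 0)
    (hw : qPlus m F w ≠ 0) :
    isoG _ (H17.OrthDet.refl (qPlus m F) v hv * H17.OrthDet.refl (qPlus m F) w hw) ∈ DP (qPlus m F) m := by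
  rw [DP_odd h2]
  refine ⟨1, fun u => ?_, ?_⟩
  · rw [isoG_coe, Units.val_one, one_mul]
    exact (H17.OrthDet.mem_isometryGroup_iff _ _).mp
      (H17.OrthDet.refl (qPlus m F) v hv * H17.OrthDet.refl (qPlus m F) w hw).2 u
  · rw [Units.val_one, one_pow]
    exact det_refl2 h2 (nd_plus m) hv hw

theorem psi1_refl2 (a : Fin 4 ⊕ Fin 4 → F) (ha : qPlus 4 F a ≠ 0) (he : qPlus 4 F (e8 F) ≠ 0) :
    psi1 _ (isoG _ (H17.OrthDet.refl (qPlus 4 F) a ha * H17.OrthDet.refl (qPlus 4 F) (e8 F) he)) =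
      Psi (qPlus 4 F) (Lm a ha * Rm a ha) := by
  have h1 := congrArg (Psi (qPlus 4 F)) (RK_eq a ha)
  rw [map_mul (Psi (qPlus 4 F)) (Sc _ _), psi_Sc, one_mul] at h1
  rw [← h1]
  rfl

/-- triality normalises the inner-diagonal group -/
theorem tau_DP (h2 : (2 : F) ≠ 0) {g : ↥(simG (qPlus 4 F))} (hg : g ∈ DP (qPlus 4 F) 4) :
    tau F * psi1 _ g * (tau F)⁻¹ ∈ (DP (qPlus 4 F) 4).map (psi1 (qPlus 4 F)) := by
  obtain ⟨c, hc⟩ := H48.FinFieldSq.exists_not_isSquare h2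
  have hc0 : c ≠ 0 := by
    rintro rfl
    exact hc IsSquare.zero
  have ha : qPlus 4 F (av c) ≠ 0 := by rw [q_av]; exact hc0
  have he : qPlus 4 F (e8 F) ≠ 0 := by rw [q_e8]; exact one_ne_zero
  have hI : Cfsg.Inn (Cfsg.POmega F (⇑(qPlus 4 F))) ≤ (DP (qPlus 4 F) 4).map (psi1 (qPlus 4 F)) := by
    rintro _ ⟨a, rfl⟩
    obtain ⟨s, rfl⟩ := QuotientGroup.mk_surjective a
    refine ⟨isoG _ s.1, ?_, psi1_isoG s⟩
    rw [SetLike.mem_coe, DP_odd h2]
    refine ⟨1, fun u => ?_, ?_⟩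
    · rw [isoG_coe, Units.val_one, one_mul]
      exact (H17.OrthDet.mem_isometryGroup_iff _ _).mp s.1.2 u
    · rw [Units.val_one, one_pow]
      exact det_of_omega h2 (nd_plus 4) card8 s.2
  have key := mem_of_gens (nd_plus 4) h2 card8' card8 (dS_mem_DP h2 4 c hc0) (c := c) (dG_mem 4 c hc0) hc ha he
    (by rw [q_av, q_e8, mul_one]; exact hc)
    (S := ((DP (qPlus 4 F) 4).map (psi1 (qPlus 4 F))).comap (MulAut.conj (tau F)).toMonoidHom) ?_ ?_ ?_ hg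
  · exact key
  · intro x hx
    rw [Subgroup.mem_comap]
    have hN : (Cfsg.Inn (Cfsg.POmega F (⇑(qPlus 4 F)))).Normal := inferInstance
    exact hI (hN.conj_mem x hx (tau F))
  · have h1 := tau_conj (rel_L (av c) ha)
    rw [← psi1_refl2 _ ha he, ← toGam_dS c hc0 ha, ← psi1_apply] at h1
    rw [Subgroup.mem_comap]
    refine ⟨_, refl2_mem_DP h2 ha he, h1.symm⟩
  · have h1 := tau_conj (rel_U (av c) ha)
    rw [← psi1_refl2 _ ha he, ← toGam_dS c hc0 ha, ← psi1_apply] at h1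
    rw [Subgroup.mem_comap]
    refine ⟨_, dS_mem_DP h2 4 c hc0, h1.symm⟩

theorem exists_of_gamma {m : ℕ} {β : MulAut (Cfsg.POmega F (⇑(qPlus m F)))}
    (h : β ∈ Cfsg.gammaPOmega F (⇑(qPlus m F))) : ∃ y, β = Psi _ y := by
  rw [gamma_eq] at h
  obtain ⟨x, rfl⟩ := h
  exact ⟨x, rfl⟩

theorem DP_normal_four : ((DP (qPlus 4 F) 4).map (psi1 (qPlus 4 F))).Normal := by
  by_cases h2 : (2 : F) = 0
  · rw [inn_le_map _ _ h2]; infer_instance
  · constructor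
    intro x hx α
    have step : ∀ y : ↥(Gam (qPlus 4 F)), ∀ x ∈ (DP (qPlus 4 F) 4).map (psi1 (qPlus 4 F)),
        Psi _ y * x * (Psi _ y)⁻¹ ∈ (DP (qPlus 4 F) 4).map (psi1 (qPlus 4 F)) := by
      rintro y _ ⟨g, hg, rfl⟩
      obtain ⟨h, hh, he⟩ := DP_conj h2 y hg
      exact ⟨h, hh, he⟩
    have stepT : ∀ x ∈ (DP (qPlus 4 F) 4).map (psi1 (qPlus 4 F)),
        tau F * x * (tau F)⁻¹ ∈ (DP (qPlus 4 F) 4).map (psi1 (qPlus 4 F)) := by
      rintro _ ⟨g, hg, rfl⟩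
      exact tau_DP h2 hg
    by_cases h : α ∈ Cfsg.gammaPOmega F (⇑(qPlus 4 F))
    · obtain ⟨y, rfl⟩ := exists_of_gamma h
      exact step y x hx
    · obtain ⟨g₁, h1, g₂, h3, h4⟩ := H48.D4Aut.double_coset_plus (tau F) α tau_not_mem h
      obtain ⟨y₁, rfl⟩ := exists_of_gamma h1
      obtain ⟨y₂, rfl⟩ := exists_of_gamma h3
      have e : α * x * α⁻¹ = Psi _ y₁ * (tau F * (Psi _ y₂ * x * (Psi _ y₂)⁻¹) * (tau F)⁻¹) * (Psi _ y₁)⁻¹ := by
        rw [h4]; group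
      rw [e]
      exact step y₁ _ (stepT _ (step y₂ x hx))

end eight

/-- the inner-diagonal group is normal -/
theorem DP_normal_plus {F : Type*} [Field F] [Fintype F] {m : ℕ} (hm : 4 ≤ m) :
    ((DP (qPlus m F) m).map (psi1 (qPlus m F))).Normal := by
  rcases Nat.lt_or_ge 4 m with h | h
  · exact DP_normal (aut_plus (by omega))
  · have : m = 4 := by omega
    subst this
    exact DP_normal_four

end H48.Fa
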