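import Cfsg.Agent.Lib.H48.Fa1

/-!
Centralizers of field automorphisms of order two of `PΩ⁺_{2m}` in the inner-diagonal group.
-/

set_option autoImplicit false
set_option linter.unusedSectionVars false

namespace H48.Fa

open Matrix QuadraticMap H48.OutO H50.PSLBasic H50.PSLField H50.H90 H50.ClassCount H50.PSLCount H48.QuadSplit H48.QuadStd
  H50.OrthPsi H50.OrthDesc H48.OmegaPlus H50.OrthSim H18.MaxSing H50.OrthPar H50.OrthProper H50.OrthMinusK H50.OrthField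
  H50.OrthInn H50.OrthOddCount H50.OrthEven H50.OrthMinusFam H50.OrthCountE H50.OrthPlusFam H48.Pgo H48.Oct

theorem two_ne_small {F : Type*} [Field F] {F₀ : Type*} [Field F₀] (j : F₀ →+* F) (h2 : (2 : F) ≠ 0) : (2 : F₀) ≠ 0 := by
  intro h
  apply h2
  have := congrArg j h
  rwa [map_ofNat, map_zero] at this

/-- square roots of non-squares in a quadratic extension -/
theorem sq_root_iff {F : Type*} [Field F] [Fintype F] {F₀ : Type*} [Field F₀] [Fintype F₀] (j : F₀ →+* F)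
    (h2 : (2 : F) ≠ 0) (hcard : Fintype.card F = Fintype.card F₀ ^ 2) {c : F₀} (hc : ¬ IsSquare c) {e : F}
    (he : e * e = j c) : IsSquare e ↔ Fintype.card F₀ % 4 = 3 := by
  have h20 := two_ne_small j h2
  have hc0 : c ≠ 0 := by
    rintro rfl
    exact hc IsSquare.zero
  have he0 : e ≠ 0 := by
    rintro rfl
    rw [mul_zero] at he
    exact (map_ne_zero j).mpr hc0 he.symm
  have hr : ringChar F ≠ 2 := by
    intro h
    apply h2
    have := ringChar.Nat.cast_ringChar (R := F)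
    rw [h] at this
    exact_mod_cast this
  have hr0 : ringChar F₀ ≠ 2 := by
    intro h
    apply h20
    have := ringChar.Nat.cast_ringChar (R := F₀)
    rw [h] at this
    exact_mod_cast this
  have hodd : Fintype.card F₀ % 2 = 1 := by
    by_contra h
    apply hr0
    exact FiniteField.even_card_iff_char_two.mpr (by omega)
  obtain ⟨k, hk⟩ : ∃ k, Fintype.card F₀ = 2 * k + 1 := ⟨Fintype.card F₀ / 2, by omega⟩
  have hck : c ^ k = -1 := by
    have h3 := FiniteField.isSquare_iff hr0 hc0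
    have h4 := FiniteField.pow_dichotomy hr0 hc0
    have h5 : Fintype.card F₀ / 2 = k := by omega
    rw [h5] at h3 h4
    rcases h4 with h | h
    · exact absurd (h3.mpr h) hc
    · exact h
  have h6 : Fintype.card F / 2 = 2 * (k * (k + 1)) := by
    rw [hcard, hk]
    have : (2 * k + 1) ^ 2 = 2 * (2 * (k * (k + 1))) + 1 := by ring
    rw [this]
    omega
  rw [FiniteField.isSquare_iff hr he0, h6, pow_mul, pow_two, he, pow_mul, ← map_pow, hck, map_neg, map_one]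
  constructor
  · intro h
    by_contra h7
    have h8 : Odd (k + 1) := by
      rw [Nat.odd_iff]; omega
    rw [h8.neg_one_pow] at h
    apply h2
    linear_combination - h
  · intro h
    have h8 : Even (k + 1) := by
      rw [Nat.even_iff]; omega
    exact h8.neg_one_pow

section small

variable {F : Type*} [Field F] [Fintype F] {F₀ : Type*} [Field F₀] [Fintype F₀] {j : F₀ →+* F} {ι : Type} [Fintype ι]
  [DecidableEq ι] {Q₀ : QuadraticForm F₀ (ι → F₀)} {Q : QuadraticForm F (ι → F)}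

/-- proper isometries over a subfield of index two are in `Ω` over the big field -/
theorem inn_of_small (h2 : (2 : F) ≠ 0) (hn : 7 ≤ Fintype.card ι) (hQ : (QuadraticMap.polarBilin Q).Nondegenerate)
    (hQ₀ : (QuadraticMap.polarBilin Q₀).Nondegenerate) (ho : Ovr j Q₀ Q) (hne : ∃ v, Q₀ v ≠ 0)
    (hcard : Fintype.card F = Fintype.card F₀ ^ 2) (s₀ : ↥(Cfsg.isometryGroup F₀ (⇑Q₀)))
    (hdet : ((s₀ : GL ι F₀) : Matrix ι ι F₀).det = 1) :
    psi1 Q (fHom ho hne (qrefl Q) (isoG Q₀ s₀)) ∈ Cfsg.Inn (Cfsg.POmega F (⇑Q)) := by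
  have h20 := two_ne_small j h2
  have hfr : Module.finrank F₀ (ι → F₀) = Fintype.card ι := Module.finrank_fintype_fun_eq_card F₀
  obtain ⟨vs, hvs, hs₀⟩ := H48.MaxSing.exists_rprod_all (nd_iff.mpr hQ₀) (Or.inr (by omega)) s₀
  have heven : Even vs.length := even_of_det h20 hQ₀ hvs (by rw [← hs₀]; exact hdet)
  obtain ⟨s, hs1, hs2⟩ := exists_isoG ho hne s₀ vs hs₀
  rw [inn_iff hQ hn]
  refine ⟨1, s, ?_, by rw [hs1, map_one, one_mul]⟩
  rw [H48.OmegaQ.mem_Omega_iff h2 (by omega) _ hQ s (vs.map (jv j)) ?_ hs2]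
  · refine ⟨by rw [List.length_map]; exact heven, ?_⟩
    have h3 : ((vs.map (jv j)).map (fun v => Q v)).prod = j (vs.map (fun v => Q₀ v)).prod := by
      rw [map_list_prod, List.map_map, List.map_map]
      congr 1
      apply List.map_congr_left
      intro v _
      exact ho v
    rw [h3]
    exact isSquare_of_sq j hcard _
  · intro v hv
    obtain ⟨w, hw, rfl⟩ := List.mem_map.mp hv
    rw [ho]
    exact (map_ne_zero j).mpr (hvs w hw)

end small

section plus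

variable {F : Type*} [Field F] [Fintype F] {F₀ : Type*} [Field F₀] [Fintype F₀] {j : F₀ →+* F} {m : ℕ}

theorem fHom_dS (hne : ∃ v, qPlus m F₀ v ≠ 0) (c : F₀) (hc : c ≠ 0) (hjc : j c ≠ 0) :
    fHom (ovr_qPlus j m) hne (qrefl (qPlus m F)) (dS m c hc) = dS m (j c) hjc := by
  apply Subtype.ext
  apply gl_ext
  intro v
  rw [fHom_coe, trP_refl, glHom_coe]
  change ((dG m c hc : GL (Fin m ⊕ Fin m) F₀) : Matrix (Fin m ⊕ Fin m) (Fin m ⊕ Fin m) F₀).map j *ᵥ v =
    ((dG m (j c) hjc : GL (Fin m ⊕ Fin m) F) : Matrix (Fin m ⊕ Fin m) (Fin m ⊕ Fin m) F) *ᵥ v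
  congr 1
  rw [H48.Pgo.dG_coe, H48.Pgo.dG_coe, Matrix.fromBlocks_map, Matrix.map_zero _ (map_zero j), Matrix.map_one _ (map_zero j) (map_one j)]
  congr 1
  ext a b
  rw [Matrix.map_apply, Matrix.smul_apply, Matrix.smul_apply, smul_eq_mul, smul_eq_mul, map_mul, Matrix.one_apply,
    Matrix.one_apply]
  split_ifs
  · rw [map_one]
  · rw [map_zero]

theorem dS_mul (a b : F) (ha : a ≠ 0) (hb : b ≠ 0) : dS m (a * b) (mul_ne_zero ha hb) = dS m a ha * dS m b hb := by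
  apply Subtype.ext
  apply gl_ext
  intro v
  change ((dG m (a * b) (mul_ne_zero ha hb) : GL (Fin m ⊕ Fin m) F) : Matrix (Fin m ⊕ Fin m) (Fin m ⊕ Fin m) F) *ᵥ v =
    (((dG m a ha : GL (Fin m ⊕ Fin m) F) : Matrix (Fin m ⊕ Fin m) (Fin m ⊕ Fin m) F) *
      ((dG m b hb : GL (Fin m ⊕ Fin m) F) : Matrix (Fin m ⊕ Fin m) (Fin m ⊕ Fin m) F)) *ᵥ v
  rw [← Matrix.mulVec_mulVec, dG_mulVec, dG_mulVec, dG_mulVec]
  funext i
  rcases i with i | i
  · simp [dPlus, mul_assoc]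
  · simp [dPlus]

/-- the proper similarities commuting with the field automorphism of order two, modulo inner automorphisms -/
theorem cent_cases (h2 : (2 : F) ≠ 0) (hm : 4 ≤ m) {σ : F ≃+* F} (hσ : orderOf σ = 2)
    (hj : ∀ x, (∃ c, j c = x) ↔ σ x = x) (hcard : Fintype.card F = Fintype.card F₀ ^ 2) {c₀ : F₀}
    (hc₀ : ¬ IsSquare c₀) (hjc : j c₀ ≠ 0) {g : ↥(simG (qPlus m F))} (hg : g ∈ DP (qPlus m F) m)
    (hgc : psi1 _ g ∈ Subgroup.centralizer {Psi (qPlus m F) (std (fix_qPlus m σ))}) :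
    psi1 _ g ∈ Cfsg.Inn (Cfsg.POmega F (⇑(qPlus m F))) ∨
      psi1 _ g * (psi1 _ (dS m (j c₀) hjc))⁻¹ ∈ Cfsg.Inn (Cfsg.POmega F (⇑(qPlus m F))) := by
  have h20 := two_ne_small j h2
  have hc₀0 : c₀ ≠ 0 := by
    rintro rfl
    exact hc₀ IsSquare.zero
  have hn : 7 ≤ Fintype.card (Fin m ⊕ Fin m) := card_ge hm
  have hnon : Nonempty (Fin m ⊕ Fin m) := by
    rw [← Fintype.card_pos_iff]; omega
  have hQ := nd_plus (F := F) m
  have hQ₀ := nd_plus (F := F₀) m
  have ho := ovr_qPlus j m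
  have hne := hne_plus (F := F₀) hm
  rw [cent_iff hQ hn (y := std (fix_qPlus m σ)) hσ (by norm_num) hj ho hne (desc_std (fix_qPlus m σ))] at hgc
  obtain ⟨u, k, rfl⟩ := hgc
  have hk : k ∈ DP (qPlus m F₀) m := by
    have h1 := (Subgroup.mul_mem_cancel_left _ (scG_mem_DP (card_plus m) u)).mp hg
    rw [← DP_fHom hQ hn hQ₀ hn (hne_plus (F := F) hm) ho hne (qrefl (qPlus m F)), Subgroup.mem_comap]
    exact h1
  have hfk : ∀ k, fHom ho hne (desc_std (fix_qPlus m σ)).q k = fHom ho hne (qrefl (qPlus m F)) k := fun _ => rfl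
  rw [map_mul, psi1_scG, one_mul, hfk]
  have key : ∀ k ∈ DP (qPlus m F₀) m, ∀ c : F₀,
      (∀ v, qPlus m F₀ (((k : GL (Fin m ⊕ Fin m) F₀) : Matrix (Fin m ⊕ Fin m) (Fin m ⊕ Fin m) F₀) *ᵥ v) =
        c * qPlus m F₀ v) → IsSquare c →
      psi1 _ (fHom ho hne (qrefl (qPlus m F)) k) ∈ Cfsg.Inn (Cfsg.POmega F (⇑(qPlus m F))) := by
    intro k hk c hkc hsq
    obtain ⟨u₀, s₀, -, hs, rfl⟩ := sq_decomp hQ₀ h20 (card_plus m) hne hk hkc hsq
    obtain ⟨u₁, hu₁⟩ := (fHom_eq_sc_iff (Q := qPlus m F) ho hne (qrefl (qPlus m F)) (scG _ u₀)).mpr ⟨u₀, rfl⟩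
    rw [map_mul, hu₁, map_mul, psi1_scG, one_mul]
    exact inn_of_small h2 hn hQ hQ₀ ho hne hcard s₀ hs
  obtain ⟨c, hc⟩ := k.2
  by_cases hsq : IsSquare (c : F₀)
  · exact Or.inl (key k hk c hc hsq)
  · right
    have hmem : k * dS m c₀ hc₀0 ∈ DP (qPlus m F₀) m := mul_mem hk (dS_mem_DP h20 m c₀ hc₀0)
    have h3 := key (k * (dS m c₀ hc₀0)⁻¹) (mul_mem hk (inv_mem (dS_mem_DP h20 m c₀ hc₀0))) ((c : F₀) * c₀⁻¹) (by
      intro v
      have h4 : ∀ w, qPlus m F₀ ((((dS m c₀ hc₀0)⁻¹ : ↥(simG (qPlus m F₀))) : GL (Fin m ⊕ Fin m) F₀).1 *ᵥ w) =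
          c₀⁻¹ * qPlus m F₀ w := by
        intro w
        have h5 := dG_mem m c₀ hc₀0 ((((dS m c₀ hc₀0)⁻¹ : ↥(simG (qPlus m F₀))) : GL (Fin m ⊕ Fin m) F₀).1 *ᵥ w)
        rw [Matrix.mulVec_mulVec] at h5
        have h6 : ((dG m c₀ hc₀0 : GL (Fin m ⊕ Fin m) F₀) : Matrix (Fin m ⊕ Fin m) (Fin m ⊕ Fin m) F₀) *
            (((dS m c₀ hc₀0)⁻¹ : ↥(simG (qPlus m F₀))) : GL (Fin m ⊕ Fin m) F₀).1 = 1 := by
          rw [← Units.val_mul]
          change ((dG m c₀ hc₀0 * (dG m c₀ hc₀0)⁻¹ : GL (Fin m ⊕ Fin m) F₀) :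
            Matrix (Fin m ⊕ Fin m) (Fin m ⊕ Fin m) F₀) = 1
          rw [mul_inv_cancel]
          rfl
        rw [h6, Matrix.one_mulVec] at h5
        rw [h5]
        field_simp
      rw [Subgroup.coe_mul, Units.val_mul, ← Matrix.mulVec_mulVec, hc, h4]
      ring) ((H48.FinFieldSq.isSquare_mul_of_not hsq (by
        rw [isSquare_inv]
        exact hc₀)))
    rw [map_mul, map_mul, map_inv, map_inv, fHom_dS hne c₀ hc₀0 hjc] at h3
    exact h3

/-- the outer class of the similarity over the small field -/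
theorem class_dS (h2 : (2 : F) ≠ 0) (hm : 4 ≤ m) (hcard : Fintype.card F = Fintype.card F₀ ^ 2) {c₀ : F₀}
    (hc₀ : ¬ IsSquare c₀) (hjc : j c₀ ≠ 0) :
    (¬ (Odd m ∧ Fintype.card F₀ % 4 = 1) → psi1 _ (dS m (j c₀) hjc) ∈ Cfsg.Inn (Cfsg.POmega F (⇑(qPlus m F)))) ∧
    ((Odd m ∧ Fintype.card F₀ % 4 = 1) → ∃ (v₁ v₂ : Fin m ⊕ Fin m → F) (h1 : qPlus m F v₁ ≠ 0)
      (h2 : qPlus m F v₂ ≠ 0), ¬ IsSquare (qPlus m F v₁ * qPlus m F v₂) ∧
      pi1 _ (dS m (j c₀) hjc) = pi (qPlus m F) (Rf _ v₁ h1) * pi (qPlus m F) (Rf _ v₂ h2)) := by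
  have hn : 7 ≤ Fintype.card (Fin m ⊕ Fin m) := card_ge hm
  have hQ := nd_plus (F := F) m
  obtain ⟨e, he⟩ := isSquare_of_sq j hcard c₀
  have he0 : e ≠ 0 := by
    rintro rfl
    rw [mul_zero] at he
    exact hjc he
  have hsq := sq_root_iff j h2 hcard hc₀ he.symm
  have hodd : Fintype.card F₀ % 2 = 1 := by
    have := H48.FinFieldSq.two_ne_zero_iff_odd_card.mp (two_ne_small j h2)
    rw [Nat.card_eq_fintype_card, Nat.odd_iff] at this
    exact this
  have hd : dS m (j c₀) hjc = dS m e he0 * dS m e he0 := by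
    rw [← dS_mul]
    congr 1
  obtain ⟨u₁, u₂, k1, k2, q1, q2, hdd⟩ := pi1_dS (m := m) h2 hm e he0
  have hpi : pi1 _ (dS m (j c₀) hjc) = pi (qPlus m F) (Rf _ u₁ k1) * pi (qPlus m F) (Rf _ u₂ k2) := by
    rw [hd, map_mul]; exact hdd
  have hpow : ¬ IsSquare (e ^ m) ↔ (Odd m ∧ Fintype.card F₀ % 4 = 1) := by
    rcases Nat.even_or_odd m with hev | hod
    · constructor
      · intro h
        exact absurd (hev.isSquare_pow e) h
      · rintro ⟨h, -⟩
        exact absurd hev (Nat.not_even_iff_odd.mpr h)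
    · obtain ⟨k, hk⟩ := hod
      have h1 : IsSquare (e ^ m) ↔ IsSquare e := by
        rw [hk, pow_succ, H48.FinFieldSq.isSquare_mul_iff (pow_ne_zero _ he0) he0]
        have : IsSquare (e ^ (2 * k)) := Even.isSquare_pow (even_two_mul k) e
        tauto
      rw [h1, hsq]
      constructor
      · intro h
        exact ⟨⟨k, hk⟩, by omega⟩
      · rintro ⟨-, h⟩
        omega
  constructor
  · intro h
    have hs : IsSquare (e ^ m) := by
      by_contra h3
      exact h (hpow.mp h3)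
    rw [inn_iff1, hpi]
    exact two_refl_sq h2 hQ hn q1 q2 (pow_ne_zero _ he0) hs k1 k2
  · intro h
    refine ⟨u₁, u₂, k1, k2, ?_, hpi⟩
    rw [q1, q2, one_mul]
    exact hpow.mpr h

end plus

end H48.Fa
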