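import Cfsg.Agent.Lib.H48.Fa2

/-!
Class counts of field automorphisms of `PΩ⁺_{2m}`.
-/

set_option autoImplicit false
set_option linter.unusedSectionVars false

namespace H48.Fa

open Matrix QuadraticMap H48.OutO H50.PSLBasic H50.PSLField H50.H90 H50.ClassCount H50.PSLCount H48.QuadSplit H48.QuadStd
  H50.OrthPsi H50.OrthDesc H48.OmegaPlus H50.OrthSim H18.MaxSing H50.OrthPar H50.OrthProper H50.OrthMinusK H50.OrthField
  H50.OrthInn H50.OrthOddCount H50.OrthEven H50.OrthMinusFam H50.OrthCountE H50.OrthPlusFam H48.Pgo H48.Oct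

theorem card_Z4 : Nat.card (Multiplicative (ZMod 4)) = 4 := by
  rw [Nat.card_eq_fintype_card]; rfl

theorem card_Z22 : Nat.card (Multiplicative (ZMod 2 × ZMod 2)) = 4 := by
  rw [Nat.card_eq_fintype_card]; rfl

theorem relIndex_of_hom {A X : Type*} [Group A] [Group X] {S I : Subgroup A} (φ : ↥S →* X)
    (h1 : Function.Surjective φ) (h2 : φ.ker = I.subgroupOf S) : I.relIndex S = Nat.card X := by
  rw [Subgroup.relIndex, ← h2, Subgroup.index_ker, MonoidHom.range_eq_top.mpr h1]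
  exact Nat.card_congr (Equiv.Set.univ X)

theorem index_char {G : Type*} [Group G] {χ : G →* Multiplicative (ZMod 2)} (hχ : Function.Surjective χ)
    {N : Subgroup G} (hN : ∀ g, g ∈ N ↔ χ g = 1) : N.index = 2 := by
  have h1 : N = χ.ker := by
    ext g
    rw [hN, MonoidHom.mem_ker]
  rw [h1, Subgroup.index_ker, MonoidHom.range_eq_top.mpr hχ]
  have h2 : Nat.card (Multiplicative (ZMod 2)) = 2 := by
    rw [Nat.card_eq_fintype_card]; rfl
  exact (Nat.card_congr (Equiv.Set.univ _)).trans h2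

section plus

variable {F : Type*} [Field F] [Fintype F] {m : ℕ}

/-- elements of `D` in `Inn ⊔ C` -/
theorem exists_of_sup (h2 : (2 : F) ≠ 0) (hm : 4 ≤ m) (x₀ : MulAut (Cfsg.POmega F (⇑(qPlus m F)))) {g : ↥(simG (qPlus m F))}
    (hg : g ∈ DP (qPlus m F) m)
    (h : psi1 _ g ∈ Cfsg.Inn (Cfsg.POmega F (⇑(qPlus m F))) ⊔ Subgroup.centralizer {x₀}) :
    ∃ s : ↥(Cfsg.Omega F (⇑(qPlus m F))), isoG _ s.1 * g ∈ DP (qPlus m F) m ∧
      psi1 _ (isoG _ s.1 * g) ∈ Subgroup.centralizer {x₀} := by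
  obtain ⟨_, ⟨k, rfl⟩, hk⟩ := mem_inn_sup.mp h
  obtain ⟨s, rfl⟩ := QuotientGroup.mk_surjective k
  refine ⟨s, mul_mem ?_ hg, ?_⟩
  · rw [DP_odd h2]
    refine ⟨1, fun u => ?_, ?_⟩
    · rw [isoG_coe, Units.val_one, one_mul]
      exact (H17.OrthDet.mem_isometryGroup_iff _ _).mp s.1.2 u
    · rw [Units.val_one, one_pow]
      exact det_of_omega h2 (nd_plus m) (card_ge hm) s.2
  · rw [map_mul, psi1_isoG]
    exact hk

theorem prp_of_DP (h2 : (2 : F) ≠ 0) {g : ↥(simG (qPlus m F))} (hg : g ∈ DP (qPlus m F) m) :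
    Prp (qPlus m F) m g := by
  rw [DP_odd h2] at hg
  obtain ⟨c, hc1, hc2⟩ := hg
  exact ⟨c, c.ne_zero, hc1, hc2⟩

theorem sqM_of_inn (h2 : (2 : F) ≠ 0) (hm : 4 ≤ m) {g : ↥(simG (qPlus m F))}
    (h : psi1 _ g ∈ Cfsg.Inn (Cfsg.POmega F (⇑(qPlus m F)))) : SqM (qPlus m F) g :=
  ((pso_iff h2 (nd_plus m) (card_ge hm) (card_plus m) g).mp (inn_le_pso h2 (nd_plus m) (card_ge hm) h)).1

theorem mem_inn_of_pi1 {g h : ↥(simG (qPlus m F))} (e : pi1 (qPlus m F) g = pi1 _ h) :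
    psi1 _ g * (psi1 _ h)⁻¹ ∈ Cfsg.Inn (Cfsg.POmega F (⇑(qPlus m F))) := by
  rw [← map_inv, ← map_mul, inn_iff1, map_mul, e, map_inv, mul_inv_cancel]

variable {F₀ : Type*} [Field F₀] [Fintype F₀] {j : F₀ →+* F}

set_option maxHeartbeats 1600000 in
/-- the number of classes for a field automorphism of order two -/
theorem count_field_two (h2 : (2 : F) ≠ 0) (hm : 4 ≤ m) {σ : F ≃+* F} (hσ : orderOf σ = 2)
    (hj : ∀ x, (∃ c, j c = x) ↔ σ x = x) (hcard : Fintype.card F = Fintype.card F₀ ^ 2) :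
    ((Odd m ∧ Fintype.card F₀ % 4 = 1) → Cfsg.splitClassCount ((DP (qPlus m F) m).map (psi1 (qPlus m F)))
      (Cfsg.Inn (Cfsg.POmega F (⇑(qPlus m F)))) (Psi (qPlus m F) (std (fix_qPlus m σ))) = 2) ∧
    (¬ (Odd m ∧ Fintype.card F₀ % 4 = 1) → Cfsg.splitClassCount ((DP (qPlus m F) m).map (psi1 (qPlus m F)))
      (Cfsg.Inn (Cfsg.POmega F (⇑(qPlus m F)))) (Psi (qPlus m F) (std (fix_qPlus m σ))) = 4) := by
  have h20 := two_ne_small j h2
  have hn : 7 ≤ Fintype.card (Fin m ⊕ Fin m) := card_ge hm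
  have hQ := nd_plus (F := F) m
  have hne := hne_plus (F := F₀) hm
  obtain ⟨c₀, hc₀⟩ := H48.FinFieldSq.exists_not_isSquare h20
  have hc₀0 : c₀ ≠ 0 := by
    rintro rfl
    exact hc₀ IsSquare.zero
  have hjc : j c₀ ≠ 0 := (map_ne_zero j).mpr hc₀0
  have hd : dS m (j c₀) hjc ∈ DP (qPlus m F) m := dS_mem_DP h2 m _ hjc
  set d := dS m (j c₀) hjc with hdef
  set x₀ := Psi (qPlus m F) (std (fix_qPlus m σ)) with hx₀
  have hdC : psi1 _ d ∈ Subgroup.centralizer {x₀} := by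
    rw [hx₀, cent_iff hQ hn (y := std (fix_qPlus m σ)) hσ (by norm_num) hj (ovr_qPlus j m) hne
      (desc_std (fix_qPlus m σ))]
    refine ⟨1, dS m c₀ hc₀0, ?_⟩
    rw [map_one, one_mul, hdef, ← fHom_dS hne c₀ hc₀0 hjc]
  have hcases : ∀ g ∈ DP (qPlus m F) m, psi1 _ g ∈ Cfsg.Inn (Cfsg.POmega F (⇑(qPlus m F))) ⊔ Subgroup.centralizer {x₀} →
      psi1 _ g ∈ Cfsg.Inn (Cfsg.POmega F (⇑(qPlus m F))) ∨
      psi1 _ g * (psi1 _ d)⁻¹ ∈ Cfsg.Inn (Cfsg.POmega F (⇑(qPlus m F))) := by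
    intro g hg h
    obtain ⟨s, h1, h3⟩ := exists_of_sup h2 hm x₀ hg h
    have hs : psi1 (qPlus m F) (isoG _ s.1) ∈ Cfsg.Inn (Cfsg.POmega F (⇑(qPlus m F))) := ⟨_, (psi1_isoG s).symm⟩
    rcases cent_cases h2 hm hσ hj hcard hc₀ hjc h1 h3 with h4 | h4
    · left
      rw [map_mul] at h4
      exact (Subgroup.mul_mem_cancel_left _ hs).mp h4
    · right
      rw [map_mul, mul_assoc] at h4
      exact (Subgroup.mul_mem_cancel_left _ hs).mp h4
  obtain ⟨cl1, cl2⟩ := class_dS (j := j) h2 hm hcard hc₀ hjc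
  have hodd : Odd (Fintype.card F) := by
    rw [← Nat.card_eq_fintype_card]; exact H48.FinFieldSq.two_ne_zero_iff_odd_card.mp h2
  constructor
  · intro hA
    obtain ⟨v₁, v₂, k1, k2, hns, hpi⟩ := cl2 hA
    rw [count_eq]
    obtain ⟨χ, hχ⟩ := exists_char (fun g : ↥(DP (qPlus m F) m) => SqM (qPlus m F) g)
      (fun g h => sqM_mul h2 hQ hn g h)
    obtain ⟨c₂, hc₂⟩ := H48.FinFieldSq.exists_not_isSquare h2
    have hc₂0 : c₂ ≠ 0 := by
      rintro rfl
      exact hc₂ IsSquare.zero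
    have hsurj : Function.Surjective χ := char_surj hχ (g := ⟨dS m c₂ hc₂0, dS_mem_DP h2 m c₂ hc₂0⟩) (by
      rw [sqM_iff h2 hQ hn (dS_mult m c₂ hc₂0)]
      exact hc₂)
    have hds : SqM (qPlus m F) d := by
      rw [sqM_iff h2 hQ hn (dS_mult m (j c₀) hjc)]
      exact isSquare_of_sq j hcard c₀
    have hle : Cfsg.Inn (Cfsg.POmega F (⇑(qPlus m F))) ≤
      Cfsg.Inn (Cfsg.POmega F (⇑(qPlus m F))) ⊔ Subgroup.centralizer {x₀} := le_sup_left
    have hle2 : Subgroup.centralizer {x₀} ≤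
      Cfsg.Inn (Cfsg.POmega F (⇑(qPlus m F))) ⊔ Subgroup.centralizer {x₀} := le_sup_right
    apply index_char hsurj
    intro g
    rw [hχ]
    change psi1 _ g.1 ∈ Cfsg.Inn (Cfsg.POmega F (⇑(qPlus m F))) ⊔ Subgroup.centralizer {x₀} ↔ SqM (qPlus m F) g.1
    constructor
    · intro h
      rcases hcases g.1 g.2 h with h3 | h3
      · exact sqM_of_inn h2 hm h3
      · rw [← map_inv, ← map_mul] at h3
        have h4 := sqM_of_inn h2 hm h3
        have h5 := sqM_mul h2 hQ hn (g.1 * d⁻¹) d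
        rw [inv_mul_cancel_right] at h5
        exact h5.mpr ⟨fun _ => hds, fun _ => h4⟩
    · intro h
      obtain ⟨c, hc, hgc, hsq⟩ := h
      obtain ⟨u, s, -, hs, hgs⟩ := sq_decomp hQ h2 (card_plus m) (hne_plus (F := F) hm) g.2 hgc hsq
      rw [hgs, map_mul, psi1_scG, one_mul]
      have hz : psi1 _ (isoG _ (H17.OrthDet.refl (qPlus m F) v₁ k1 * H17.OrthDet.refl (qPlus m F) v₂ k2)) ∈
          Cfsg.Inn (Cfsg.POmega F (⇑(qPlus m F))) ⊔ Subgroup.centralizer {x₀} := by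
        have h5 : pi1 (qPlus m F) (isoG _ (H17.OrthDet.refl (qPlus m F) v₁ k1 * H17.OrthDet.refl (qPlus m F) v₂ k2)) =
            pi1 _ d := by
          rw [hpi, map_mul, map_mul]
          rfl
        have h6 := hle (mem_inn_of_pi1 h5)
        exact (Subgroup.mul_mem_cancel_right _ (inv_mem (hle2 hdC))).mp h6
      rcases omega_dich h2 hQ hn s hs k1 k2 hns with h4 | h4
      · apply hle
        rw [inn_iff hQ hn]
        exact ⟨1, s, h4, by rw [map_one, one_mul]⟩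
      · have h7 : psi1 _ (isoG _ (s * (H17.OrthDet.refl (qPlus m F) v₁ k1 * H17.OrthDet.refl (qPlus m F) v₂ k2))) ∈
          Cfsg.Inn (Cfsg.POmega F (⇑(qPlus m F))) ⊔ Subgroup.centralizer {x₀} := by
          apply hle
          rw [inn_iff hQ hn]
          exact ⟨1, _, h4, by rw [map_one, one_mul]⟩
        rw [map_mul, map_mul] at h7
        exact (Subgroup.mul_mem_cancel_right _ hz).mp h7
  · intro hB
    have hdI := cl1 hB
    rw [count_eq]
    have e1 : (Cfsg.Inn (Cfsg.POmega F (⇑(qPlus m F))) ⊔ Subgroup.centralizer {x₀}).comap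
        ((psi1 (qPlus m F)).comp (DP (qPlus m F) m).subtype) =
        (Cfsg.Inn (Cfsg.POmega F (⇑(qPlus m F)))).comap ((psi1 (qPlus m F)).comp (DP (qPlus m F) m).subtype) := by
      apply le_antisymm
      · rintro ⟨g, hg⟩ h
        rcases hcases g hg h with h3 | h3
        · exact h3
        · exact (Subgroup.mul_mem_cancel_right _ (inv_mem hdI)).mp h3
      · exact Subgroup.comap_mono le_sup_left
    have e2 : ((psi1 (qPlus m F)).comp (DP (qPlus m F) m).subtype).range = (DP (qPlus m F) m).map (psi1 _) := by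
      rw [MonoidHom.range_comp, Subgroup.range_subtype]
    rw [e1, Subgroup.index_comap, e2]
    have hF1 : Fintype.card F % 4 = 1 := by
      have h3 : Fintype.card F₀ % 2 = 1 := by
        have := H48.FinFieldSq.two_ne_zero_iff_odd_card.mp h20
        rw [Nat.card_eq_fintype_card, Nat.odd_iff] at this
        exact this
      obtain ⟨k, hk⟩ : ∃ k, Fintype.card F₀ = 2 * k + 1 := ⟨Fintype.card F₀ / 2, by omega⟩
      rw [hcard, hk]
      have : (2 * k + 1) ^ 2 = 4 * (k * (k + 1)) + 1 := by ring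
      rw [this]
      omega
    obtain ⟨-, f1, f2⟩ := fin_S2725 hodd hm _ rfl _ (inndP_eq hm).symm
    rcases Nat.even_or_odd m with hev | hod
    · obtain ⟨φ, h3, h4⟩ := f2 hev
      rw [relIndex_of_hom φ h3 h4, card_Z22]
    · obtain ⟨φ, h3, h4⟩ := f1 ⟨hod, hF1⟩
      rw [relIndex_of_hom φ h3 h4, card_Z4]

end plus

end H48.Fa
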