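import Cfsg.Agent.Lib.H48.Fa3

/-!
Field automorphisms of prime order of `PΩ⁺_{2m}`: the final statement.
-/

set_option autoImplicit false
set_option linter.unusedSectionVars false

namespace H48.Fa

open Matrix QuadraticMap H48.OutO H50.PSLBasic H50.PSLField H50.H90 H50.ClassCount H50.PSLCount H48.QuadSplit H48.QuadStd
  H50.OrthPsi H50.OrthDesc H48.OmegaPlus H50.OrthSim H18.MaxSing H50.OrthPar H50.OrthProper H50.OrthMinusK H50.OrthField
  H50.OrthInn H50.OrthOddCount H50.OrthEven H50.OrthMinusFam H50.OrthCountE H50.OrthPlusFam H48.Pgo H48.Oct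

universe u v

theorem s2715 {F : Type u} [Field F] [Fintype F] {m : ℕ} (hm : 4 ≤ m) {p f : ℕ} [Fact p.Prime]
    (hF : Fintype.card F = p ^ f) {F₀ : Type v} [Field F₀] [Fintype F₀] :
    ∀ (x : MulAut (Cfsg.POmega F (⇑(qPlus m F)))) (_ : Cfsg.IsFieldAutClassPOmega (⇑(qPlus m F)) x) {r : ℕ}
      (_ : r.Prime) (_ : orderOf x = r) (_ : Fintype.card F₀ = p ^ (f / r)),
      r ∣ f ∧
      Nonempty (↥(inndF (⇑(qPlus m F)) (Cfsg.PreservesSingularClasses (⇑(qPlus m F))) ⊓ Subgroup.centralizer {x}) ≃*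
        ↥(Cfsg.inndiagPOmegaPlus m F₀)) ∧
      ((Odd r ∨ p = 2) → Cfsg.splitClassCount (inndF (⇑(qPlus m F)) (Cfsg.PreservesSingularClasses (⇑(qPlus m F))))
        (Cfsg.Inn (Cfsg.POmega F (⇑(qPlus m F)))) x = 1) ∧
      ((r = 2 ∧ p ≠ 2 ∧ Odd m ∧ p ^ (f / 2) % 4 = 1) →
        Cfsg.splitClassCount (inndF (⇑(qPlus m F)) (Cfsg.PreservesSingularClasses (⇑(qPlus m F))))
        (Cfsg.Inn (Cfsg.POmega F (⇑(qPlus m F)))) x = 2) ∧
      ((r = 2 ∧ p ≠ 2 ∧ ¬ (Odd m ∧ p ^ (f / 2) % 4 = 1)) →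
        Cfsg.splitClassCount (inndF (⇑(qPlus m F)) (Cfsg.PreservesSingularClasses (⇑(qPlus m F))))
        (Cfsg.Inn (Cfsg.POmega F (⇑(qPlus m F)))) x = 4) := by
  intro x hx r hr hxr hc
  have hn : 7 ≤ Fintype.card (Fin m ⊕ Fin m) := card_ge hm
  have hQ := nd_plus (F := F) m
  have hQ₀ := nd_plus (F := F₀) m
  obtain ⟨α, σ, -, hα, hσ⟩ := field_class_std (fix_qPlus m) hQ hn hx
  rw [hxr] at hσ
  have hFn : Nat.card F = p ^ f := by rw [Nat.card_eq_fintype_card, hF]
  have hchar : CharP F p := H50.FieldAut.charP_of_card p hFn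
  have hrf : r ∣ f := by
    rw [← hσ, ← H50.FieldAut.card_ringAut p hFn]
    exact orderOf_dvd_natCard σ
  have hfix : Nat.card (H49.FixedField.fixedField σ) = p ^ (f / r) :=
    H49.FixedField.card_fixedField σ hr.ne_zero (by rw [hFn, ← pow_mul, Nat.div_mul_cancel hrf]) hσ
  obtain ⟨j, hj⟩ := exists_embedding (F₀ := F₀) σ (by rw [Nat.card_eq_fintype_card, hc, hfix])
  have hcard : Fintype.card F = Fintype.card F₀ ^ r := by
    rw [hF, hc, ← pow_mul, Nat.div_mul_cancel hrf]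
  have hne := hne_plus (F := F₀) hm
  have hN := DP_normal_plus (F := F) hm
  have hNI : (Cfsg.Inn (Cfsg.POmega F (⇑(qPlus m F)))).Normal := inferInstance
  rw [inndP_eq hm]
  have h2p : p ≠ 2 → (2 : F) ≠ 0 := by
    intro h h2
    apply h
    have h3 : CharP F 2 := H48.FinFieldSq.charP_two_of_two_eq_zero h2
    exact CharP.eq F hchar h3
  refine ⟨hrf, ?_, ?_⟩
  · have h8 : Nonempty (↥((DP (qPlus m F) m).map (psi1 (qPlus m F)) ⊓ Subgroup.centralizer {x}) ≃*
          ↥(inndF (⇑(qPlus m F₀)) (Cfsg.PreservesSingularClasses (⇑(qPlus m F₀))))) := by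
      rw [inndP_eq hm]
      obtain ⟨e⟩ := cent_equiv hQ hn hQ₀ hn (y := std (fix_qPlus m σ)) hσ hr.pos hj
        (ovr_qPlus j m) hne (desc_std (fix_qPlus m σ)) (DP (qPlus m F) m) (scG_mem_DP (card_plus m))
      have e' := centralizerConj ((DP (qPlus m F) m).map (psi1 (qPlus m F))) α x
      rw [hα] at e'
      rw [DP_fHom hQ hn hQ₀ hn (hne_plus (F := F) hm)] at e
      exact ⟨e'.symm.trans e⟩
    rw [coe_qPlus (F := F₀) m] at h8
    exact h8
  · rw [← splitClassCount_conj _ _ α x, hα]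
    refine ⟨?_, ?_, ?_⟩
    · intro h
      by_cases h2' : (2 : F) = 0
      · exact count_two h2' _
      · have hrodd : Odd r := by
          rcases h with h | h
          · exact h
          · exfalso
            apply h2'
            subst h
            exact CharTwo.two_eq_zero
        refine count_odd_order h2' hQ (card_plus m) hn hQ₀ (card_plus m) (y₀ := std (fix_qPlus m σ)) hσ hr.pos hj
          (ovr_qPlus j m) (desc_std (fix_qPlus m σ)) hrodd hcard ?_
        intro c hc0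
        exact ⟨dS m c hc0, dG_mem m c hc0⟩
    · rintro ⟨rfl, hp, ho, h4⟩
      apply (count_field_two (h2p hp) hm hσ hj hcard).1
      rw [hc]
      exact ⟨ho, h4⟩
    · rintro ⟨rfl, hp, h4⟩
      apply (count_field_two (h2p hp) hm hσ hj hcard).2
      rw [hc]
      exact h4

end H48.Fa
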