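import Cfsg.Agent.Lib.H48.Fa4
import Cfsg.Agent.Lib.H17.OrthInvol

/-!
Determinants of maps with scalar square, and their eigenspaces.
-/

set_option autoImplicit false
set_option linter.unusedSectionVars false

namespace H48.Gi

open Module QuadraticMap H17.SpInvol H48.QuadSplit H48.QuadStd H18.MaxSing

variable {F V : Type*} [Field F] [AddCommGroup V] [Module F V] [FiniteDimensional F V]

/-- determinant of an involution -/
theorem det_invol (s : V →ₗ[F] V) (h : ∀ v, s (s v) = v) :
    LinearMap.det s = (-1) ^ (finrank F V - finrank F (pos s)) := by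
  have he : pos s ≤ (pos s).comap s := by
    intro v hv
    rw [Submodule.mem_comap]
    have h1 := mem_pos.mp hv
    rw [h1]
    exact hv
  have h1 : s.restrict he = LinearMap.id := by
    ext v
    exact mem_pos.mp v.2
  have h2 : (pos s).mapQ (pos s) s he = (-1 : F) • LinearMap.id := by
    apply Submodule.linearMap_qext
    ext v
    rw [LinearMap.comp_apply, LinearMap.comp_apply, LinearMap.smul_apply, LinearMap.id_apply,
      Submodule.mkQ_apply, Submodule.mapQ_apply, ← Submodule.Quotient.mk_smul, Submodule.Quotient.eq, mem_pos, map_sub,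
      map_smul, h]
    module
  have h3 := Submodule.finrank_quotient_add_finrank (pos s)
  rw [LinearMap.det_eq_det_mul_det (pos s) s he, h1, h2, LinearMap.det_id, LinearMap.det_smul, LinearMap.det_id, one_mul,
    mul_one]
  congr 1
  omega

omit [FiniteDimensional F V] in
theorem li_of_nonsq {l : F} (hl : ¬ IsSquare l) (f : V →ₗ[F] V) (h : ∀ v, f (f v) = l • v) {v : V} (hv : v ≠ 0) :
    LinearIndependent F ![v, f v] := by
  rw [LinearIndependent.pair_iff]
  intro a b hab
  have h1 : a • f v + (b * l) • v = 0 := by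
    have := congrArg f hab
    rw [map_add, map_smul, map_smul, h, map_zero, smul_smul] at this
    exact this
  have h2 : (a * a - b * b * l) • v = 0 := by
    have e : (a * a - b * b * l) • v = a • (a • v + b • f v) - b • (a • f v + (b * l) • v) := by module
    rw [e, hab, h1, smul_zero, smul_zero, sub_zero]
  have h3 : a * a = b * b * l := by
    rcases smul_eq_zero.mp h2 with h | h
    · exact sub_eq_zero.mp h
    · exact absurd h hv
  by_cases hb : b = 0
  · subst hb
    rw [mul_zero, zero_mul] at h3
    exact ⟨mul_self_eq_zero.mp h3, rfl⟩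
  · exfalso
    apply hl
    refine ⟨a / b, ?_⟩
    field_simp
    linear_combination -h3

/-- an invariant plane -/
theorem det_plane {l : F} (f : V →ₗ[F] V) (h : ∀ v, f (f v) = l • v) {v : V} (hli : LinearIndependent F ![v, f v])
    (he : Submodule.span F (Set.range ![v, f v]) ≤ (Submodule.span F (Set.range ![v, f v])).comap f) :
    LinearMap.det (f.restrict he) = - l := by
  let b := Basis.span hli
  have hb0 : (b 0 : V) = v := congrArg Subtype.val (Basis.span_apply hli 0)
  have hb1 : (b 1 : V) = f v := congrArg Subtype.val (Basis.span_apply hli 1)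
  rw [← LinearMap.det_toMatrix b, Matrix.det_fin_two]
  have e0 : (f.restrict he) (b 0) = b 1 := by
    apply Subtype.ext
    change f (b 0 : V) = _
    rw [hb0, hb1]
  have e1 : (f.restrict he) (b 1) = l • b 0 := by
    apply Subtype.ext
    change f (b 1 : V) = l • (b 0 : V)
    rw [hb0, hb1, h]
  rw [LinearMap.toMatrix_apply, LinearMap.toMatrix_apply, LinearMap.toMatrix_apply, LinearMap.toMatrix_apply, e0, e1,
    map_smul]
  simp [Basis.repr_self]

omit [FiniteDimensional F V] in
theorem span_inv {l : F} (f : V →ₗ[F] V) (h : ∀ v, f (f v) = l • v) (v : V) :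
    Submodule.span F (Set.range ![v, f v]) ≤ (Submodule.span F (Set.range ![v, f v])).comap f := by
  rw [Submodule.span_le]
  rintro _ ⟨i, rfl⟩
  rw [SetLike.mem_coe, Submodule.mem_comap]
  fin_cases i
  · exact Submodule.subset_span ⟨1, rfl⟩
  · change f (f v) ∈ _
    rw [h]
    exact Submodule.smul_mem _ _ (Submodule.subset_span ⟨0, rfl⟩)

theorem det_nonsq_aux {F : Type*} [Field F] {l : F} (hl : ¬ IsSquare l) : ∀ (k : ℕ) (V : Type _) [AddCommGroup V] [Module F V]
    [FiniteDimensional F V] (f : V →ₗ[F] V), (∀ v, f (f v) = l • v) → finrank F V = k →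
    ∃ n, k = 2 * n ∧ LinearMap.det f = (-l) ^ n := by
  intro k
  induction k using Nat.strong_induction_on with
  | _ k ih =>
    intro V _ _ _ f h hk
    by_cases h0 : k = 0
    · refine ⟨0, by omega, ?_⟩
      rw [pow_zero]
      have : Subsingleton V := finrank_zero_iff.mp (hk.trans h0)
      exact LinearMap.det_eq_one_of_subsingleton f
    · have : Nontrivial V := nontrivial_of_finrank_pos (R := F) (by omega)
      obtain ⟨v, hv⟩ := exists_ne (0 : V)
      have hli := li_of_nonsq hl f h hv
      have he := span_inv f h v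
      set W := Submodule.span F (Set.range ![v, f v]) with hW
      have hWd : finrank F W = 2 := by
        rw [hW, finrank_span_eq_card hli, Fintype.card_fin]
      have hq := Submodule.finrank_quotient_add_finrank W
      obtain ⟨n, hn, hdet⟩ := ih (finrank F (V ⧸ W)) (by omega) (V ⧸ W) (W.mapQ W f he) (by
        intro x
        obtain ⟨y, rfl⟩ := Submodule.Quotient.mk_surjective _ x
        rw [Submodule.mapQ_apply, Submodule.mapQ_apply, h]
        rfl) rfl
      refine ⟨n + 1, by omega, ?_⟩
      rw [LinearMap.det_eq_det_mul_det W f he, hdet, det_plane f h hli he, pow_succ]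
      ring

theorem det_nonsq {l : F} (hl : ¬ IsSquare l) (f : V →ₗ[F] V) (h : ∀ v, f (f v) = l • v) {n : ℕ}
    (hn : finrank F V = 2 * n) : LinearMap.det f = (-l) ^ n := by
  obtain ⟨n', h1, h2⟩ := det_nonsq_aux hl (2 * n) V f h hn
  have : n' = n := by omega
  rw [h2, this]

/-- determinant of a map with scalar square, in terms of an eigenspace -/
theorem det_sq {c : F} (hc : c ≠ 0) (f : V →ₗ[F] V) (h : ∀ v, f (f v) = (c * c) • v) :
    LinearMap.det f = c ^ finrank F V * (-1) ^ (finrank F V - finrank F (pos (c⁻¹ • f))) := by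
  have h1 : ∀ v, (c⁻¹ • f) ((c⁻¹ • f) v) = v := by
    intro v
    rw [LinearMap.smul_apply, LinearMap.smul_apply, map_smul, h, smul_smul, smul_smul]
    have : c⁻¹ * c⁻¹ * (c * c) = 1 := by field_simp
    rw [this, one_smul]
  have h2 := det_invol _ h1
  rw [LinearMap.det_smul] at h2
  rw [← h2, ← mul_assoc, ← mul_pow, mul_inv_cancel₀ hc, one_pow, one_mul]

/-! ### similarities -/

variable {Q : QuadraticForm F V}

omit [FiniteDimensional F V] in
theorem polar_sim {f : V →ₗ[F] V} {c : F} (hf : ∀ v, Q (f v) = c * Q v) (v w : V) :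
    polar Q (f v) (f w) = c * polar Q v w := by
  rw [polar, polar, ← map_add, hf, hf, hf]
  ring

/-- similarities of non-degenerate spaces of odd dimension have square multipliers -/
theorem sq_of_odd [Finite F] {f : V ≃ₗ[F] V} {c : F} (hc : c ≠ 0) (hQ : ND Q) (hodd : Odd (finrank F V))
    (hf : ∀ v, Q (f v) = c * Q v) : IsSquare c := by
  have b := finBasis F V
  have h1 : (c • Q).Equivalent Q := ⟨⟨f, fun v => by
    rw [_root_.smul_apply, smul_eq_mul]
    exact hf v⟩⟩
  obtain ⟨d, hd, h2⟩ := H48.Gram.gdet_equivalent h1 b b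
  rw [H48.Gram.gdet_smul, Fintype.card_fin] at h2
  have h3 := H48.Gram.gdet_ne_zero hQ b
  have h4 : c ^ finrank F V = d ^ 2 := mul_right_cancel₀ h3 h2
  obtain ⟨k, hk⟩ := hodd
  rw [hk] at h4
  refine ⟨d / c ^ k, ?_⟩
  have hck : c ^ k ≠ 0 := pow_ne_zero _ hc
  field_simp
  rw [← h4]
  ring

/-- the exceptional sign makes a similarity proper -/
theorem proper_of_neg (h2 : (2 : F) ≠ 0) (hQ : ND Q) {n : ℕ} (hn : finrank F V = 2 * n) (f : V →ₗ[F] V) {c : F} (hc : c ≠ 0)
    (hf : ∀ v, Q (f v) = c * Q v) (h : ∀ v, f (f v) = (-c) • v) : LinearMap.det f = c ^ n := by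
  by_cases hsq : IsSquare (-c)
  · obtain ⟨a, ha⟩ := hsq
    have ha0 : a ≠ 0 := by
      rintro rfl
      apply hc
      rw [mul_zero] at ha
      exact neg_eq_zero.mp ha
    rw [ha] at h
    have h1 := det_sq ha0 f h
    have hg : ∀ v, (a⁻¹ • f) ((a⁻¹ • f) v) = v := by
      intro v
      rw [LinearMap.smul_apply, LinearMap.smul_apply, map_smul, h, smul_smul, smul_smul]
      have : a⁻¹ * a⁻¹ * (a * a) = 1 := by field_simp
      rw [this, one_smul]
    have hm : ∀ v, Q ((a⁻¹ • f) v) = - Q v := by
      intro v
      rw [LinearMap.smul_apply, QuadraticMap.map_smul, hf, smul_eq_mul]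
      have : c = -(a * a) := by rw [← ha, neg_neg]
      rw [this]
      field_simp
    have hz : ∀ x : F, x = -x → x = 0 := by
      intro x hx
      have : 2 * x = 0 := by linear_combination hx
      exact (mul_eq_zero.mp this).resolve_left h2
    have hp : TS Q (pos (a⁻¹ • f)) := by
      intro v hv
      have := hm v
      rw [mem_pos.mp hv] at this
      exact hz _ this
    have hng : TS Q (neg (a⁻¹ • f)) := by
      intro v hv
      have := hm v
      rw [mem_neg.mp hv, QuadraticMap.map_neg] at this
      exact hz _ this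
    have hs := finrank_neg_add_pos h2 hg
    have e1 := finrank_le hQ hn hp
    have e2 := finrank_le hQ hn hng
    have e3 : finrank F (pos (a⁻¹ • f)) = n := by omega
    rw [h1, e3, hn, show 2 * n - n = n by omega, pow_mul, ← mul_pow]
    congr 1
    have : c = -(a * a) := by rw [← ha, neg_neg]
    rw [this]
    ring
  · rw [det_nonsq hsq f h hn, neg_neg]

end H48.Gi
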