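import Cfsg.Agent.Lib.H48.Gi1

/-!
Similarities with scalar square.
-/

set_option autoImplicit false
set_option linter.unusedSectionVars false

namespace H48.Gi

open Module QuadraticMap H17.SpInvol H48.QuadSplit H48.QuadStd H18.MaxSing H50.OrthPsi H50.OrthSim H48.OutO H48.Pgo

variable {F : Type*} [Field F] {ι : Type} [Fintype ι] [DecidableEq ι] {Q : QuadraticForm F (ι → F)}

/-- the underlying linear map -/
noncomputable def A (g : ↥(simG Q)) : (ι → F) →ₗ[F] (ι → F) := Matrix.toLin' ((g : GL ι F) : Matrix ι ι F)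

theorem A_apply (g : ↥(simG Q)) (v : ι → F) : A g v = ((g : GL ι F) : Matrix ι ι F).mulVec v := Matrix.toLin'_apply _ _

theorem A_mul (g h : ↥(simG Q)) (v : ι → F) : A (g * h) v = A g (A h v) := by
  rw [A_apply, A_apply, A_apply, Matrix.mulVec_mulVec]
  rfl

theorem A_ext {g h : ↥(simG Q)} (H : ∀ v, A g v = A h v) : g = h := by
  apply Subtype.ext
  apply Units.ext
  apply Matrix.toLin'.injective
  exact LinearMap.ext H

theorem A_inj (g : ↥(simG Q)) : Function.Injective (A g) := by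
  intro v w h
  have h1 := congrArg (fun z => A g⁻¹ z) h
  have e : ∀ x, A (1 : ↥(simG Q)) x = x := by
    intro x
    rw [A_apply]
    exact Matrix.one_mulVec x
  simp only [← A_mul, inv_mul_cancel, e] at h1
  exact h1

theorem A_scG (u : Fˣ) (v : ι → F) : A (scG Q u) v = (u : F) • v := by
  rw [A_apply, scG_coe, sc_mulVec]

theorem A_det (g : ↥(simG Q)) : LinearMap.det (A g) = ((g : GL ι F) : Matrix ι ι F).det := LinearMap.det_toLin' _

theorem isMult_iff {g : ↥(simG Q)} {c : F} : IsMult Q (toGam Q g : GA ι F) c ↔ ∀ v, Q (A g v) = c * Q v := by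
  constructor
  · intro h v
    rw [A_apply]
    exact h v
  · intro h v
    have := h v
    rw [A_apply] at this
    exact this

theorem exists_mult' (g : ↥(simG Q)) : ∃ c : F, c ≠ 0 ∧ ∀ v, Q (A g v) = c * Q v := by
  obtain ⟨c, hc, h⟩ := exists_mult (toGam Q g)
  exact ⟨c, hc, isMult_iff.mp h⟩

theorem A_refl (v : ι → F) (hv : Q v ≠ 0) (x : ι → F) :
    A (isoG Q (H17.OrthDet.refl Q v hv)) x = x - ((Q v)⁻¹ * polar (⇑Q) v x) • v := by
  rw [A_apply, isoG_coe]
  have : (((H17.OrthDet.refl Q v hv : ↥(Cfsg.isometryGroup F (⇑Q))).1 : GL ι F) : Matrix ι ι F) =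
      Cfsg.reflectionMatrix (⇑Q) v := rfl
  rw [this, H17.OrthMat.reflectionMatrix_mulVec]

theorem refl_conj (g : ↥(simG Q)) {v w : ι → F} (hv : Q v ≠ 0) (hw : Q w ≠ 0) (h : A g v = w) :
    g * isoG Q (H17.OrthDet.refl Q v hv) = isoG Q (H17.OrthDet.refl Q w hw) * g := by
  obtain ⟨c, hc, hg⟩ := exists_mult' g
  apply A_ext
  intro x
  subst h
  rw [A_mul, A_mul, A_refl, A_refl, map_sub, map_smul, polar_sim hg, hg]
  congr 2
  field_simp

theorem refl_smul {v w : ι → F} (hv : Q v ≠ 0) (hw : Q w ≠ 0) {a : F} (h : w = a • v) :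
    isoG Q (H17.OrthDet.refl Q w hw) = isoG Q (H17.OrthDet.refl Q v hv) := by
  subst h
  have ha : a ≠ 0 := by
    rintro rfl
    rw [zero_smul, QuadraticMap.map_zero] at hw
    exact hw rfl
  apply A_ext
  intro x
  rw [A_refl, A_refl, QuadraticMap.map_smul, polar_smul_left, smul_smul, smul_eq_mul, smul_eq_mul]
  congr 2
  field_simp

theorem refl_comm {v w : ι → F} (hv : Q v ≠ 0) (hw : Q w ≠ 0) (h : polar Q v w = 0) :
    isoG Q (H17.OrthDet.refl Q v hv) * isoG Q (H17.OrthDet.refl Q w hw) =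
      isoG Q (H17.OrthDet.refl Q w hw) * isoG Q (H17.OrthDet.refl Q v hv) := by
  have h' : polar Q w v = 0 := by rw [polar_comm]; exact h
  apply A_ext
  intro x
  rw [A_mul, A_mul, A_refl, A_refl, A_refl, A_refl, polar_sub_right, polar_sub_right, polar_smul_right,
    polar_smul_right, h, h']
  module

/-- reflections in eigenvectors commute with `g` -/
theorem refl_eig (g : ↥(simG Q)) {v : ι → F} (hv : Q v ≠ 0) {a : F} (h : A g v = a • v) :
    g * isoG Q (H17.OrthDet.refl Q v hv) = isoG Q (H17.OrthDet.refl Q v hv) * g := by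
  obtain ⟨c, hc, hg⟩ := exists_mult' g
  have hw : Q (A g v) ≠ 0 := by
    rw [hg]
    exact mul_ne_zero hc hv
  rw [refl_conj g hv hw rfl, refl_smul hv hw h]

section fin

variable [Fintype F] (h2 : (2 : F) ≠ 0) (hQ : (polarBilin Q).Nondegenerate) (hn : 7 ≤ Fintype.card ι)
include h2 hQ hn

theorem exists_scalar {g : ↥(simG Q)} (h : psi1 Q g * psi1 Q g = 1) : ∃ l : F, l ≠ 0 ∧ ∀ v, A g (A g v) = l • v := by
  rw [← map_mul] at h
  obtain ⟨u, hu⟩ := (psi1_eq_one_iff hQ hn).mp h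
  refine ⟨u, u.ne_zero, fun v => ?_⟩
  rw [← A_mul, hu, A_scG]

theorem scalar_eq {n : ℕ} (hm : Fintype.card ι = 2 * n) {g : ↥(simG Q)} (hg : ¬ Prp Q n g) {c l : F} (hc : c ≠ 0)
    (hgc : ∀ v, Q (A g v) = c * Q v) (h : ∀ v, A g (A g v) = l • v) : l = c := by
  obtain ⟨v, hv⟩ := exists_Q_ne h2 hQ hn
  have h1 : l * l = c * c := by
    have e1 := hgc (A g v)
    rw [h, hgc, QuadraticMap.map_smul, smul_eq_mul] at e1
    apply mul_right_cancel₀ hv
    linear_combination e1
  rcases mul_self_eq_mul_self_iff.mp h1 with h3 | h3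
  · exact h3
  · exfalso
    apply hg
    rw [prp_iff h2 hQ hn (isMult_iff.mpr hgc), ← A_det]
    have hfr : finrank F (ι → F) = 2 * n := by rw [Module.finrank_fintype_fun_eq_card, hm]
    exact proper_of_neg h2 (nd_iff.mpr hQ) hfr (A g) hc hgc (by rw [← h3]; exact h)

end fin

end H48.Gi
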