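import Cfsg.Agent.Lib.H48.Gi2

/-!
Elements commuting with similarities with scalar square.
-/

set_option autoImplicit false
set_option linter.unusedSectionVars false

namespace H48.Gi

open Module QuadraticMap H17.SpInvol H48.QuadSplit H48.QuadStd H18.MaxSing H50.OrthPsi H50.OrthSim H48.OutO H48.Pgo

variable {F : Type*} [Field F] {ι : Type} [Fintype ι] [DecidableEq ι] {Q : QuadraticForm F (ι → F)}

theorem exists_dual {V : Type*} [AddCommGroup V] [Module F V] [FiniteDimensional F V] {Q : QuadraticForm F V}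
    (hQ : ND Q) {u z : V} (h : u ∉ Submodule.span F {z}) : ∃ x, polar Q z x = 0 ∧ polar Q u x = 1 := by
  by_contra hcon
  push Not at hcon
  apply h
  rw [← orth_orth hQ (Submodule.span F {z})]
  intro x hx
  have hzx : polar Q z x = 0 := hx z (Submodule.mem_span_singleton_self z)
  rw [polar_comm]
  by_contra h1
  apply hcon ((polar Q u x)⁻¹ • x)
  · rw [polar_smul_right, hzx, smul_zero]
  · rw [polar_smul_right, smul_eq_mul, inv_mul_cancel₀ h1]

section inv

variable {c a : F} (ha : a ≠ 0) {g : ↥(simG Q)} (h : ∀ v, A g (A g v) = (a * a) • v)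
include ha h

theorem s_inv (v : ι → F) : (a⁻¹ • A g) ((a⁻¹ • A g) v) = v := by
  rw [LinearMap.smul_apply, LinearMap.smul_apply, map_smul, h, smul_smul, smul_smul]
  have : a⁻¹ * a⁻¹ * (a * a) = 1 := by field_simp
  rw [this, one_smul]

theorem s_polar (hgc : ∀ v, Q (A g v) = (a * a) * Q v) (x y : ι → F) :
    polarBilin Q ((a⁻¹ • A g) x) ((a⁻¹ • A g) y) = polarBilin Q x y := by
  rw [polarBilin_apply_apply, polarBilin_apply_apply, LinearMap.smul_apply, LinearMap.smul_apply, polar_smul_left,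
    polar_smul_right, polar_sim hgc, smul_eq_mul, smul_eq_mul]
  field_simp

omit h in
theorem of_pos {v : ι → F} (hv : v ∈ pos (a⁻¹ • A g)) : A g v = a • v := by
  have h1 := mem_pos.mp hv
  rw [LinearMap.smul_apply] at h1
  have h3 := congrArg (fun w => a • w) h1
  simp only [smul_smul, mul_inv_cancel₀ ha, one_smul] at h3
  exact h3

omit h in
theorem of_neg {v : ι → F} (hv : v ∈ neg (a⁻¹ • A g)) : A g v = (-a) • v := by
  have h1 := mem_neg.mp hv
  rw [LinearMap.smul_apply] at h1
  have h3 := congrArg (fun w => a • w) h1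
  simp only [smul_smul, mul_inv_cancel₀ ha, one_smul] at h3
  rw [h3, smul_neg, neg_smul]

omit h in
theorem pos_iff {v : ι → F} : v ∈ pos (a⁻¹ • A g) ↔ A g v = a • v := by
  refine ⟨of_pos ha, fun h => ?_⟩
  rw [mem_pos, LinearMap.smul_apply, h, smul_smul, inv_mul_cancel₀ ha, one_smul]

omit h in
theorem neg_iff {v : ι → F} : v ∈ neg (a⁻¹ • A g) ↔ A g v = (-a) • v := by
  refine ⟨of_neg ha, fun h => ?_⟩
  rw [mem_neg, LinearMap.smul_apply, h, smul_smul, mul_neg, inv_mul_cancel₀ ha, neg_smul, one_smul]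

end inv

section fin

variable [Fintype F] (h2 : (2 : F) ≠ 0) (hQ : (polarBilin Q).Nondegenerate) (hn : 7 ≤ Fintype.card ι)
include h2 hQ hn

theorem exists_z_nonsq {g : ↥(simG Q)} {c : F} (hc : ¬ IsSquare c)
    (hgc : ∀ v, Q (A g v) = c * Q v) (h : ∀ v, A g (A g v) = c • v) :
    ∃ v, Q v ≠ 0 ∧ polar Q v (A g v) = 0 := by
  have hc0 : c ≠ 0 := by
    rintro rfl
    exact hc IsSquare.zero
  have hfr : finrank F (ι → F) = Fintype.card ι := Module.finrank_fintype_fun_eq_card F
  let B' : LinearMap.BilinForm F (ι → F) := (polarBilin Q).compl₂ (A g)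
  obtain ⟨u, hu0, hu⟩ := exists_singular B'.toQuadraticMap (by rw [hfr]; omega)
  have hu' : polar Q u (A g u) = 0 := hu
  by_cases hQu : Q u = 0
  · have hli := li_of_nonsq hc (A g) h hu0
    have hns : u ∉ Submodule.span F {A g u} := by
      intro hmem
      obtain ⟨b, hb⟩ := Submodule.mem_span_singleton.mp hmem
      have := (LinearIndependent.pair_iff.mp hli) 1 (-b) (by rw [one_smul, neg_smul, hb, add_neg_cancel])
      exact one_ne_zero this.1
    obtain ⟨w, hw1, hw2⟩ := exists_dual (nd_iff.mpr hQ) hns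
    have e1 : polar Q u (A g w) = 0 := by
      have e2 := polar_sim hgc u (A g w)
      rw [h, polar_smul_right, hw1, smul_zero] at e2
      exact (mul_eq_zero.mp e2.symm).resolve_left hc0
    have e3 : polar Q (A g u) (A g w) = c := by rw [polar_sim hgc, hw2, mul_one]
    have e4 : Q (A g u) = 0 := by rw [hgc, hQu, mul_zero]
    have e5 : polar Q u u = 0 := by rw [polar_self, hQu, smul_zero]
    have e6 : polar Q (A g u) (A g u) = 0 := by rw [polar_self, e4, smul_zero]
    set a : F := 1 - Q w with hadef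
    set b : F := - polar Q w (A g w) / (2 * c) with hbdef
    have e7 : A g (w + a • u + b • A g u) = A g w + a • A g u + (b * c) • u := by
      rw [map_add, map_add, map_smul, map_smul, h, smul_smul]
    refine ⟨w + a • u + b • A g u, ?_, ?_⟩
    · have e8 : Q (w + a • u + b • A g u) = 1 := by
        rw [QuadraticMap.map_add Q, QuadraticMap.map_add Q, QuadraticMap.map_smul, QuadraticMap.map_smul, hQu, e4,
          polar_add_left, polar_smul_left, polar_smul_right, polar_smul_right, polar_smul_right, hu', polar_comm Q w u, hw2,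
          polar_comm Q w (A g u), hw1]
        simp only [smul_eq_mul, hadef]
        ring
      rw [e8]
      exact one_ne_zero
    · rw [e7]
      simp only [polar_add_left, polar_add_right, polar_smul_left, polar_smul_right, hu', e1, e3, e5, e6, hw1, hw2,
        polar_comm Q w u, polar_comm Q w (A g u), polar_comm Q (A g u) u, smul_eq_mul]
      have : 2 * b * c = - polar Q w (A g w) := by
        rw [hbdef]
        field_simp
      linear_combination this
  · exact ⟨u, hQu, hu'⟩

/-- a proper isometry with non-square spinor norm commuting with `g` -/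
theorem exists_z {g : ↥(simG Q)} {c : F} (hc : c ≠ 0)
    (hgc : ∀ v, Q (A g v) = c * Q v) (h : ∀ v, A g (A g v) = c • v) :
    ∃ (v₁ v₂ : ι → F) (k₁ : Q v₁ ≠ 0) (k₂ : Q v₂ ≠ 0), ¬ IsSquare (Q v₁ * Q v₂) ∧
      g * (isoG Q (H17.OrthDet.refl Q v₁ k₁) * isoG Q (H17.OrthDet.refl Q v₂ k₂)) =
        (isoG Q (H17.OrthDet.refl Q v₁ k₁) * isoG Q (H17.OrthDet.refl Q v₂ k₂)) * g := by
  have hfr : finrank F (ι → F) = Fintype.card ι := Module.finrank_fintype_fun_eq_card F
  by_cases hsq : IsSquare c
  · obtain ⟨a, rfl⟩ := hsq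
    have ha : a ≠ 0 := left_ne_zero_of_mul hc
    have hs := s_inv ha h
    have hp := s_polar ha h hgc
    have hnd : ∀ v, (∀ w, polarBilin Q v w = 0) → v = 0 := H17.OrthInvol.nondeg' hQ
    have h3 := pos_nondeg hnd h2 hp hs
    have h4 := neg_nondeg hnd h2 hp hs
    have h5 := finrank_neg_add_pos h2 hs
    obtain ⟨ε, hε⟩ := H48.FinFieldSq.exists_not_isSquare h2
    have hε0 : ε ≠ 0 := by
      rintro rfl
      exact hε IsSquare.zero
    have key : ∀ (W : Submodule F (ι → F)), (∀ v ∈ W, (∀ w ∈ W, polarBilin Q v w = 0) → v = 0) → 2 ≤ finrank F W →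
        (∃ b : F, ∀ v ∈ W, A g v = b • v) → ∃ (v₁ v₂ : ι → F) (k₁ : Q v₁ ≠ 0) (k₂ : Q v₂ ≠ 0), ¬ IsSquare (Q v₁ * Q v₂) ∧
      g * (isoG Q (H17.OrthDet.refl Q v₁ k₁) * isoG Q (H17.OrthDet.refl Q v₂ k₂)) =
        (isoG Q (H17.OrthDet.refl Q v₁ k₁) * isoG Q (H17.OrthDet.refl Q v₂ k₂)) * g := by
      rintro W hW hd ⟨b, hb⟩
      obtain ⟨v₁, hv₁, e₁⟩ := H17.OrthInvol.exists_norm W hW hd (one_ne_zero (α := F))
      obtain ⟨v₂, hv₂, e₂⟩ := H17.OrthInvol.exists_norm W hW hd hε0
      have k₁ : Q v₁ ≠ 0 := by rw [e₁]; exact one_ne_zero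
      have k₂ : Q v₂ ≠ 0 := by rw [e₂]; exact hε0
      refine ⟨v₁, v₂, k₁, k₂, by rw [e₁, e₂, one_mul]; exact hε, ?_⟩
      rw [← mul_assoc, refl_eig g k₁ (hb _ hv₁), mul_assoc, refl_eig g k₂ (hb _ hv₂), mul_assoc]
    by_cases h6 : 2 ≤ finrank F (pos (a⁻¹ • A g))
    · exact key _ h3 h6 ⟨a, fun v hv => of_pos ha hv⟩
    · exact key _ h4 (by omega) ⟨-a, fun v hv => of_neg ha hv⟩
  · obtain ⟨v, hv, hv'⟩ := exists_z_nonsq h2 hQ hn hsq hgc h
    have hw : Q (A g v) ≠ 0 := by
      rw [hgc]
      exact mul_ne_zero hc hv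
    have hw' : Q (A g (A g v)) ≠ 0 := by
      rw [hgc]
      exact mul_ne_zero hc hw
    refine ⟨v, A g v, hv, hw, ?_, ?_⟩
    · rw [hgc]
      intro hs
      apply hsq
      obtain ⟨r, hr⟩ := hs
      refine ⟨r / Q v, ?_⟩
      field_simp
      linear_combination hr
    · rw [← mul_assoc, refl_conj g hv hw rfl, mul_assoc, refl_conj g hw hw' rfl, refl_smul hv hw' (h v), ← mul_assoc,
        refl_comm hv hw hv']

theorem sq_of_comm {n : ℕ} (hm : Fintype.card ι = 2 * n) (heven : Even n) {g d : ↥(simG Q)} (hg : ¬ Prp Q n g)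
    (hgg : psi1 Q g * psi1 Q g = 1) (hd : psi1 Q d * psi1 Q g = psi1 Q g * psi1 Q d) : SqM Q d := by
  have hfr : finrank F (ι → F) = 2 * n := by rw [Module.finrank_fintype_fun_eq_card, hm]
  obtain ⟨c, hc, hgc⟩ := exists_mult' g
  obtain ⟨l, hl, h⟩ := exists_scalar h2 hQ hn hgg
  have hlc := scalar_eq h2 hQ hn hm hg hc hgc h
  subst hlc
  by_cases hsq : IsSquare l
  swap
  · exfalso
    apply hg
    rw [prp_iff h2 hQ hn (isMult_iff.mpr hgc), ← A_det, det_nonsq hsq (A g) h hfr, heven.neg_pow]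
  obtain ⟨a, rfl⟩ := hsq
  have ha : a ≠ 0 := left_ne_zero_of_mul hc
  have hs := s_inv ha h
  have hp := s_polar ha h hgc
  have hnd : ∀ v, (∀ w, polarBilin Q v w = 0) → v = 0 := H17.OrthInvol.nondeg' hQ
  have h3 := pos_nondeg hnd h2 hp hs
  have h5 := finrank_neg_add_pos h2 hs
  rw [hfr] at h5
  have hodd : Odd (finrank F (pos (a⁻¹ • A g))) := by
    by_contra hne
    rw [Nat.not_odd_iff_even] at hne
    apply hg
    rw [prp_iff h2 hQ hn (isMult_iff.mpr hgc), ← A_det, det_sq ha (A g) h, hfr]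
    have : Even (2 * n - finrank F (pos (a⁻¹ • A g))) := by
      rw [Nat.even_sub (by omega)]
      exact ⟨fun _ => hne, fun _ => even_two_mul n⟩
    rw [this.neg_one_pow, mul_one, pow_mul, pow_two]
  obtain ⟨b, hb, hdb⟩ := exists_mult' d
  rw [← map_mul, ← map_mul] at hd
  obtain ⟨u, hu⟩ := (psi1_eq_iff hQ hn).mp hd
  have hu' : ∀ v, A d (A g v) = (u : F) • A g (A d v) := by
    intro v
    rw [← A_mul, hu, A_mul, A_scG, A_mul]
  obtain ⟨v₀, hv₀⟩ := exists_Q_ne h2 hQ hn
  have huu : (u : F) * u = 1 := by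
    have e1 := hu' (A g v₀)
    rw [h, map_smul, hu', map_smul, h, smul_smul, smul_smul] at e1
    have e2 : ((a * a) - (u * (u * (a * a))) : F) • A d v₀ = 0 := by
      rw [sub_smul, e1]
      rw [sub_eq_zero]
      congr 1
      ring
    rcases smul_eq_zero.mp e2 with e3 | e3
    · apply mul_right_cancel₀ hc
      linear_combination -e3
    · exfalso
      have e4 := hdb v₀
      rw [e3, QuadraticMap.map_zero] at e4
      exact (mul_ne_zero hb hv₀) e4.symm
  rcases mul_self_eq_one_iff.mp huu with hu1 | hu1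
  · -- `d` preserves the eigenspace
    have hmap : ∀ v ∈ pos (a⁻¹ • A g), A d v ∈ pos (a⁻¹ • A g) := by
      intro v hv
      rw [pos_iff ha] at hv ⊢
      have e1 := hu' v
      rw [hv, map_smul, hu1, one_smul] at e1
      exact e1.symm
    have hinj : Function.Injective ((A d).restrict hmap) := by
      intro x y hxy
      apply Subtype.ext
      apply A_inj d
      exact congrArg Subtype.val hxy
    let f := LinearEquiv.ofInjectiveEndo ((A d).restrict hmap) hinj
    have hND : ND (Q.restrict (pos (a⁻¹ • A g))) := by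
      intro x hx
      apply Subtype.ext
      apply h3 _ x.2
      intro w hw
      exact hx ⟨w, hw⟩
    have hb2 : IsSquare b := by
      apply sq_of_odd (f := f) hb hND hodd
      intro v
      exact hdb v
    exact (sqM_iff h2 hQ hn (isMult_iff.mpr hdb)).mpr hb2
  · exfalso
    have e1 : finrank F (pos (a⁻¹ • A g)) ≤ finrank F (neg (a⁻¹ • A g)) := by
      have hmap : ∀ v ∈ pos (a⁻¹ • A g), A d v ∈ neg (a⁻¹ • A g) := by
        intro v hv
        rw [pos_iff ha] at hv
        rw [neg_iff ha]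
        have e1 := hu' v
        rw [hv, map_smul, hu1, neg_one_smul] at e1
        rw [neg_smul, e1, neg_neg]
      exact LinearMap.finrank_le_finrank_of_injective (f := (A d).restrict hmap) (by
        intro x y hxy
        apply Subtype.ext
        apply A_inj d
        exact congrArg Subtype.val hxy)
    have e2 : finrank F (neg (a⁻¹ • A g)) ≤ finrank F (pos (a⁻¹ • A g)) := by
      have hmap : ∀ v ∈ neg (a⁻¹ • A g), A d v ∈ pos (a⁻¹ • A g) := by
        intro v hv
        rw [neg_iff ha] at hv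
        rw [pos_iff ha]
        have e1 := hu' v
        rw [hv, map_smul, hu1, neg_one_smul, neg_smul, neg_inj] at e1
        exact e1.symm
      exact LinearMap.finrank_le_finrank_of_injective (f := (A d).restrict hmap) (by
        intro x y hxy
        apply Subtype.ext
        apply A_inj d
        exact congrArg Subtype.val hxy)
    have e3 : finrank F (pos (a⁻¹ • A g)) = n := by omega
    rw [e3] at hodd
    exact (Nat.not_odd_iff_even.mpr heven) hodd

end fin

end H48.Gi
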