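import Cfsg.Agent.Lib.H48.Gi3

/-!
Class counts of graph involutions.
-/

set_option autoImplicit false
set_option linter.unusedSectionVars false

namespace H48.Gi

open Module QuadraticMap H17.SpInvol H48.QuadSplit H48.QuadStd H18.MaxSing H50.OrthPsi H50.OrthSim H48.OutO H48.Pgo
  H50.OrthProper H50.OrthOddCount H48.Fa

variable {F : Type*} [Field F] [Fintype F] {ι : Type} [Fintype ι] [DecidableEq ι] {Q : QuadraticForm F (ι → F)}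

theorem commute_out {x y : ↥(simG Q)} {k : MulAut (Cfsg.POmega F (⇑Q))} (hk : k ∈ Cfsg.Inn (Cfsg.POmega F (⇑Q)))
    (h : k * psi1 Q y ∈ Subgroup.centralizer {psi1 Q x}) : pi1 Q x * pi1 Q y = pi1 Q y * pi1 Q x := by
  have h1 := (Subgroup.mem_centralizer_singleton_iff.mp h)
  have e : ∀ z : MulAut (Cfsg.POmega F (⇑Q)), (QuotientGroup.mk (k * z) : Cfsg.Out (Cfsg.POmega F (⇑Q))) =
      QuotientGroup.mk z := by
    intro z
    have e1 : (QuotientGroup.mk k : Cfsg.Out (Cfsg.POmega F (⇑Q))) = 1 := (QuotientGroup.eq_one_iff k).mpr hk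
    rw [QuotientGroup.mk_mul, e1, one_mul]
  have h2 := congrArg (fun z => (QuotientGroup.mk z : Cfsg.Out (Cfsg.POmega F (⇑Q)))) h1
  simp only [QuotientGroup.mk_mul] at h2
  rw [← QuotientGroup.mk_mul, e] at h2
  exact h2.symm

variable (h2 : (2 : F) ≠ 0) (hQ : (polarBilin Q).Nondegenerate) (hn : 7 ≤ Fintype.card ι)
include h2 hQ hn

theorem mem_DO_iff {n : ℕ} (_hm : Fintype.card ι = 2 * n) (g : ↥(simG Q)) : g ∈ DO Q n ↔ Prp Q n g := by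
  rw [mem_DO]
  constructor
  · rintro ⟨c, h1, h3⟩
    exact ⟨c, c.ne_zero, h1, h3⟩
  · rintro ⟨c, hc, h1, h3⟩
    exact ⟨Units.mk0 c hc, h1, h3⟩

theorem comm_sq {n : ℕ} (hm : Fintype.card ι = 2 * n) (hneg : NegMem Q) {g d : ↥(simG Q)} (hg : ¬ Prp Q n g)
    (hd : Prp Q n d) (h : pi1 Q g * pi1 Q d = pi1 Q d * pi1 Q g) : SqM Q d := by
  by_contra hds
  obtain ⟨c₂, hc₂⟩ := H48.FinFieldSq.exists_not_isSquare h2
  have hc₂0 : c₂ ≠ 0 := by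
    rintro rfl
    exact hc₂ IsSquare.zero
  obtain ⟨v₁, hv₁⟩ := exists_Q_eq hQ hn (one_ne_zero (α := F))
  obtain ⟨v₂, hv₂⟩ := exists_Q_eq hQ hn hc₂0
  have h1 : Q v₁ ≠ 0 := by rw [hv₁]; exact one_ne_zero
  have h1' : IsSquare (Q v₁) := by rw [hv₁]; exact IsSquare.one
  have h2' : Q v₂ ≠ 0 := by rw [hv₂]; exact hc₂0
  have hh2 : ¬ IsSquare (Q v₂) := by rw [hv₂]; exact hc₂
  have hns : ¬ IsSquare (Q v₁ * Q v₂) := by rw [hv₁, one_mul]; exact hh2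
  have hz : pi Q (Rf Q v₁ h1) * pi Q (Rf Q v₂ h2') ≠ 1 := z_ne_one_of_neg h2 hQ hn h1 h2' hns hneg
  have ha := pi_Rf_sq (Q := Q) v₁ h1
  have hab : pi Q (Rf Q v₁ h1) ≠ pi Q (Rf Q v₂ h2') := by
    intro h
    rw [← h] at hz
    exact hz ha
  obtain ⟨e, he, hde⟩ := exists_mult (toGam Q d)
  have hes : ¬ IsSquare e := by rwa [sqM_iff h2 hQ hn hde] at hds
  have c1 : pi1 Q d * pi Q (Rf Q v₁ h1) * (pi1 Q d)⁻¹ = pi Q (Rf Q v₂ h2') := by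
    apply pi_conj_Rf h2 hQ hn _ hde h1 h2'
    rw [hv₁, mul_one]
    exact H48.FinFieldSq.isSquare_mul_of_not hes hh2
  have c2 : pi1 Q d * pi Q (Rf Q v₂ h2') * (pi1 Q d)⁻¹ = pi Q (Rf Q v₁ h1) := by
    apply pi_conj_Rf h2 hQ hn _ hde h2' h1
    rw [hv₁, mul_one]
    exact H48.FinFieldSq.isSquare_mul_of_not hes hh2
  have key : ∀ x : ↥(simG Q), SqM Q x → ¬ Prp Q n x → pi1 Q x * pi1 Q d = pi1 Q d * pi1 Q x → False := by
    intro x hx hxp hc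
    obtain ⟨c, hc0, hxc, hcs⟩ := hx
    rcases sq_cases h2 hQ hn hm h1 h1' hh2 h2' (toGam Q x) rfl hc0 hxc hcs with ⟨e1, -⟩ | ⟨-, e2⟩
    · exact hxp ⟨c, hc0, hxc, e1⟩
    · have e3 : pi1 Q d * pi1 Q x * (pi1 Q d)⁻¹ = pi1 Q x := by rw [← hc, mul_inv_cancel_right]
      rcases e2 with e2 | e2
      · have e4 : pi1 Q x = pi Q (Rf Q v₁ h1) := e2
        rw [e4, c1] at e3
        exact hab e3.symm
      · have e4 : pi1 Q x = pi Q (Rf Q v₂ h2') := e2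
        rw [e4, c2] at e3
        exact hab e3
  by_cases hgs : SqM Q g
  · exact key g hgs hg h
  · apply key (g * d)
    · rw [sqM_mul h2 hQ hn]
      tauto
    · rw [prp_mul h2 hQ hn hm]
      tauto
    · rw [map_mul, h]
      rw [mul_assoc, h]

theorem pi1_sq_cases {n : ℕ} (hm : Fintype.card ι = 2 * n) {v₁ v₂ : ι → F} (k₁ : Q v₁ ≠ 0) (k₂ : Q v₂ ≠ 0)
    (hns : ¬ IsSquare (Q v₁ * Q v₂)) {x : ↥(simG Q)} (hx : SqM Q x) (hxp : Prp Q n x) :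
    pi1 Q x = 1 ∨ pi1 Q x = pi1 Q (isoG Q (H17.OrthDet.refl Q v₁ k₁) * isoG Q (H17.OrthDet.refl Q v₂ k₂)) := by
  have e : pi1 Q (isoG Q (H17.OrthDet.refl Q v₁ k₁) * isoG Q (H17.OrthDet.refl Q v₂ k₂)) =
      pi Q (Rf Q v₁ k₁) * pi Q (Rf Q v₂ k₂) := by
    rw [map_mul]
    rfl
  obtain ⟨c, hc0, hxc, hcs⟩ := hx
  have hdet := (prp_iff h2 hQ hn hxc).mp hxp
  rw [e]
  by_cases h1 : IsSquare (Q v₁)
  · have h2' : ¬ IsSquare (Q v₂) := by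
      intro h3
      exact hns (h1.mul h3)
    exact pi_proper h2 hQ hn hm k₁ h1 h2' k₂ (toGam Q x) rfl hc0 hxc hcs hdet
  · have h3 : IsSquare (Q v₂) := by
      by_contra h3
      exact hns (H48.FinFieldSq.isSquare_mul_of_not h1 h3)
    rw [pi_Rf_comm h2 hQ hn k₁ k₂]
    exact pi_proper h2 hQ hn hm k₂ h3 h1 k₁ (toGam Q x) rfl hc0 hxc hcs hdet

/-- the count, `-1 ∈ Ω` -/
theorem count_neg {n : ℕ} (hm : Fintype.card ι = 2 * n) (hneg : NegMem Q) {g d : ↥(simG Q)} (hg : ¬ Prp Q n g)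
    (hgg : psi1 Q g * psi1 Q g = 1) (hd : Prp Q n d) (hds : ¬ SqM Q d) :
    Cfsg.splitClassCount ((DO Q n).map (psi1 Q)) (Cfsg.Inn (Cfsg.POmega F (⇑Q))) (psi1 Q g) = 2 := by
  obtain ⟨c, hc, hgc⟩ := exists_mult' g
  obtain ⟨l, hl, h⟩ := exists_scalar h2 hQ hn hgg
  have hlc := scalar_eq h2 hQ hn hm hg hc hgc h
  subst hlc
  obtain ⟨v₁, v₂, k₁, k₂, hns, hcomm⟩ := exists_z h2 hQ hn hc hgc h
  rw [count_eq]
  obtain ⟨χ, hχ⟩ := exists_char (fun g : ↥(DO Q n) => SqM Q g) (fun g h => sqM_mul h2 hQ hn g h)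
  have hsurj : Function.Surjective χ := char_surj hχ (g := ⟨d, (mem_DO_iff h2 hQ hn hm d).mpr hd⟩) hds
  have hle : Cfsg.Inn (Cfsg.POmega F (⇑Q)) ≤
    Cfsg.Inn (Cfsg.POmega F (⇑Q)) ⊔ Subgroup.centralizer {psi1 Q g} := le_sup_left
  have hle2 : Subgroup.centralizer {psi1 Q g} ≤
    Cfsg.Inn (Cfsg.POmega F (⇑Q)) ⊔ Subgroup.centralizer {psi1 Q g} := le_sup_right
  apply index_char hsurj
  intro x
  rw [hχ]
  change psi1 _ x.1 ∈ Cfsg.Inn (Cfsg.POmega F (⇑Q)) ⊔ Subgroup.centralizer {psi1 Q g} ↔ SqM Q x.1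
  have hxp : Prp Q n x.1 := (mem_DO_iff h2 hQ hn hm _).mp x.2
  constructor
  · intro hx
    obtain ⟨k, hk, hk'⟩ := mem_inn_sup.mp hx
    exact comm_sq h2 hQ hn hm hneg hg hxp (commute_out hk hk')
  · intro hx
    rcases pi1_sq_cases h2 hQ hn hm k₁ k₂ hns hx hxp with h3 | h3
    · apply hle
      rw [inn_iff1]
      exact h3
    · have h4 : psi1 Q (isoG Q (H17.OrthDet.refl Q v₁ k₁) * isoG Q (H17.OrthDet.refl Q v₂ k₂)) ∈
          Subgroup.centralizer {psi1 Q g} := by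
        rw [Subgroup.mem_centralizer_singleton_iff]
        exact ((map_mul (psi1 Q) _ _).symm.trans (congrArg (psi1 Q) hcomm.symm)).trans (map_mul (psi1 Q) _ _)
      have h5 : psi1 Q x.1 * (psi1 Q (isoG Q (H17.OrthDet.refl Q v₁ k₁) * isoG Q (H17.OrthDet.refl Q v₂ k₂)))⁻¹ ∈
          Cfsg.Inn (Cfsg.POmega F (⇑Q)) := by
        rw [← map_inv, ← map_mul, inn_iff1, map_mul, h3, map_inv, mul_inv_cancel]
      exact (Subgroup.mul_mem_cancel_right _ (inv_mem (hle2 h4))).mp (hle h5)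

/-- the index of the inner automorphisms, `-1 ∉ Ω` -/
theorem index_inn {n : ℕ} (hm : Fintype.card ι = 2 * n) (hneg : ¬ NegMem Q) {d : ↥(simG Q)}
    (hd : Prp Q n d) (hds : ¬ SqM Q d) :
    ((Cfsg.Inn (Cfsg.POmega F (⇑Q))).comap ((psi1 Q).comp (DO Q n).subtype)).index = 2 := by
  obtain ⟨χ, hχ⟩ := exists_char (fun g : ↥(DO Q n) => SqM Q g) (fun g h => sqM_mul h2 hQ hn g h)
  have hsurj : Function.Surjective χ := char_surj hχ (g := ⟨d, (mem_DO_iff h2 hQ hn hm d).mpr hd⟩) hds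
  apply index_char hsurj
  intro x
  rw [hχ]
  change psi1 _ x.1 ∈ Cfsg.Inn (Cfsg.POmega F (⇑Q)) ↔ SqM Q x.1
  rw [← pso_eq_inn h2 hQ hn hneg hm, pso_iff h2 hQ hn hm]
  exact ⟨fun h => h.1, fun h => ⟨h, (mem_DO_iff h2 hQ hn hm _).mp x.2⟩⟩

theorem count_le {n : ℕ} (hm : Fintype.card ι = 2 * n) (hneg : ¬ NegMem Q) {d : ↥(simG Q)}
    (hd : Prp Q n d) (hds : ¬ SqM Q d) (x₀ : MulAut (Cfsg.POmega F (⇑Q))) :
    Cfsg.splitClassCount ((DO Q n).map (psi1 Q)) (Cfsg.Inn (Cfsg.POmega F (⇑Q))) x₀ = 1 ∨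
    Cfsg.splitClassCount ((DO Q n).map (psi1 Q)) (Cfsg.Inn (Cfsg.POmega F (⇑Q))) x₀ = 2 := by
  have h1 := index_inn h2 hQ hn hm hneg hd hds
  have h0 := count_eq x₀ (DO Q n)
  generalize Cfsg.splitClassCount ((DO Q n).map (psi1 Q)) (Cfsg.Inn (Cfsg.POmega F (⇑Q))) x₀ = k at h0 ⊢
  subst h0
  have h3 : (Cfsg.Inn (Cfsg.POmega F (⇑Q))).comap ((psi1 Q).comp (DO Q n).subtype) ≤
      (Cfsg.Inn (Cfsg.POmega F (⇑Q)) ⊔ Subgroup.centralizer {x₀}).comap ((psi1 Q).comp (DO Q n).subtype) :=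
    Subgroup.comap_mono le_sup_left
  have h4 := Subgroup.index_dvd_of_le h3
  rw [h1] at h4
  exact (Nat.dvd_prime Nat.prime_two).mp h4

omit [Fintype F] h2 hQ hn in
theorem iso_mult (s : ↥(Cfsg.isometryGroup F (⇑Q))) (v : ι → F) : Q (A (isoG Q s) v) = 1 * Q v := by
  rw [A_apply, isoG_coe, one_mul]
  exact (H17.OrthDet.mem_isometryGroup_iff _ _).mp s.2 v

theorem sqM_iso (s : ↥(Cfsg.isometryGroup F (⇑Q))) : SqM Q (isoG Q s) :=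
  (sqM_iff h2 hQ hn (isMult_iff.mpr (iso_mult s))).mpr IsSquare.one

theorem sup_cases {g x : ↥(simG Q)}
    (hx : psi1 Q x ∈ Cfsg.Inn (Cfsg.POmega F (⇑Q)) ⊔ Subgroup.centralizer {psi1 Q g}) :
    ∃ s : ↥(Cfsg.Omega F (⇑Q)), psi1 Q (isoG Q s.1 * x) * psi1 Q g = psi1 Q g * psi1 Q (isoG Q s.1 * x) := by
  obtain ⟨_, ⟨k, rfl⟩, hk'⟩ := mem_inn_sup.mp hx
  obtain ⟨s, rfl⟩ := QuotientGroup.mk_surjective k
  refine ⟨s, ?_⟩
  rw [map_mul (psi1 Q), psi1_isoG]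
  exact Subgroup.mem_centralizer_singleton_iff.mp hk'

theorem count_even_aux {n : ℕ} (hm : Fintype.card ι = 2 * n) (heven : Even n) (hneg : ¬ NegMem Q) {g x : ↥(simG Q)}
    (hg : ¬ Prp Q n g) (hgg : psi1 Q g * psi1 Q g = 1) (hxp : Prp Q n x)
    (hx : psi1 Q x ∈ Cfsg.Inn (Cfsg.POmega F (⇑Q)) ⊔ Subgroup.centralizer {psi1 Q g}) :
    psi1 Q x ∈ Cfsg.Inn (Cfsg.POmega F (⇑Q)) := by
  obtain ⟨s, hk'⟩ := sup_cases h2 hQ hn hx
  have h3 : SqM Q (isoG Q s.1 * x) := sq_of_comm h2 hQ hn hm heven hg hgg hk'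
  have h4 : SqM Q (isoG Q s.1) := sqM_iso h2 hQ hn s.1
  have h5 : SqM Q x := (((sqM_mul h2 hQ hn (isoG Q s.1) x).mp h3).mp h4)
  rw [← pso_eq_inn h2 hQ hn hneg hm]
  exact (pso_iff h2 hQ hn hm x).mpr ⟨h5, hxp⟩

theorem count_even {n : ℕ} (hm : Fintype.card ι = 2 * n) (heven : Even n) (hneg : ¬ NegMem Q) {g d : ↥(simG Q)}
    (hg : ¬ Prp Q n g) (hgg : psi1 Q g * psi1 Q g = 1) (hd : Prp Q n d) (hds : ¬ SqM Q d) :
    Cfsg.splitClassCount ((DO Q n).map (psi1 Q)) (Cfsg.Inn (Cfsg.POmega F (⇑Q))) (psi1 Q g) = 2 := by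
  have hle : (Cfsg.Inn (Cfsg.POmega F (⇑Q)) ⊔ Subgroup.centralizer {psi1 Q g}).comap
      ((psi1 Q).comp (DO Q n).subtype) ≤ (Cfsg.Inn (Cfsg.POmega F (⇑Q))).comap ((psi1 Q).comp (DO Q n).subtype) := by
    intro x hx
    exact count_even_aux h2 hQ hn hm heven hneg hg hgg ((mem_DO_iff h2 hQ hn hm _).mp x.2) hx
  have hle' : (Cfsg.Inn (Cfsg.POmega F (⇑Q))).comap ((psi1 Q).comp (DO Q n).subtype) ≤
      (Cfsg.Inn (Cfsg.POmega F (⇑Q)) ⊔ Subgroup.centralizer {psi1 Q g}).comap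
      ((psi1 Q).comp (DO Q n).subtype) := Subgroup.comap_mono le_sup_left
  have h1 := index_inn h2 hQ hn hm hneg hd hds
  rw [← le_antisymm hle hle'] at h1
  exact (count_eq _ _).trans h1

end H48.Gi
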