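import Cfsg.Agent.Lib.H48.Gi4

/-!
Graph involutions of `PΩ⁺` and `PΩ⁻`.
-/

set_option autoImplicit false
set_option linter.unusedSectionVars false

namespace H48.Gi

open Module QuadraticMap H48.QuadSplit H48.QuadStd H50.OrthPsi H50.OrthSim H48.OutO H48.Pgo
  H50.OrthProper H50.OrthOddCount H50.OrthInn H50.OrthMinusFam H50.OrthMinusK H50.OrthDesc

theorem pow_two_of_order {G : Type*} [Group G] {x : G} (h : orderOf x = 2) : x ^ 2 = 1 := by
  rw [← h]
  exact pow_orderOf_eq_one _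

theorem mul_self_of_order {G : Type*} [Group G] {x : G} (h : orderOf x = 2) : x * x = 1 := by
  rw [← pow_two]
  exact pow_two_of_order h

section plus

variable {F : Type*} [Field F] [Fintype F] {m : ℕ}

theorem s2718 (hodd : Odd (Fintype.card F)) (hm : 4 ≤ m) :
    ∀ (γ : MulAut (Cfsg.POmega F (⇑(qPlus m F))))
      (_ : ∃ g : GL (Fin m ⊕ Fin m) F, g ∈ Cfsg.Geo.quadSimilarityGroup (F := F) (⇑(qPlus m F)) ∧
        ¬ Cfsg.PreservesSingularClasses (⇑(qPlus m F)) (g : Matrix (Fin m ⊕ Fin m) (Fin m ⊕ Fin m) F) ∧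
        Cfsg.IsInducedBySemilinearPOmega (⇑(qPlus m F)) g (RingEquiv.refl F) γ) (_ : orderOf γ = 2),
      (Cfsg.splitClassCount (inndF (⇑(qPlus m F)) (Cfsg.PreservesSingularClasses (⇑(qPlus m F))))
        (Cfsg.Inn (Cfsg.POmega F (⇑(qPlus m F)))) γ = 1 ∨
      Cfsg.splitClassCount (inndF (⇑(qPlus m F)) (Cfsg.PreservesSingularClasses (⇑(qPlus m F))))
        (Cfsg.Inn (Cfsg.POmega F (⇑(qPlus m F)))) γ = 2) ∧
      (¬ (Odd m ∧ Fintype.card F % 4 = 3) →
        Cfsg.splitClassCount (inndF (⇑(qPlus m F)) (Cfsg.PreservesSingularClasses (⇑(qPlus m F))))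
        (Cfsg.Inn (Cfsg.POmega F (⇑(qPlus m F)))) γ = 2) := by
  intro γ hγ hγ2
  have h2 := two_ne_of_odd hodd
  have hn : 7 ≤ Fintype.card (Fin m ⊕ Fin m) := H50.OrthProper.card_ge hm
  have hQ : (polarBilin (qPlus m F)).Nondegenerate := nd_iff.mp (nd_qPlus m)
  obtain ⟨e, he0, he⟩ := exists_d hodd hm
  obtain ⟨g, h1, h3, h4⟩ := hγ
  have h5 : γ = psi1 (qPlus m F) ⟨g, h1⟩ := (isInduced_iff ⟨g, h1⟩ γ).mp h4
  subst h5
  have hg : ¬ Prp (qPlus m F) m ⟨g, h1⟩ := fun h => h3 ((preserves_plus_iff h2 hm ⟨g, h1⟩).mpr h)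
  have hgg : psi1 (qPlus m F) ⟨g, h1⟩ * psi1 (qPlus m F) ⟨g, h1⟩ = 1 := mul_self_of_order hγ2
  have hd := dS_mult m e he0
  have hdp : Prp (qPlus m F) m (dS m e he0) := by
    rw [prp_iff h2 hQ hn hd]
    exact H48.Pgo.dG_det m e he0
  have hds : ¬ SqM (qPlus m F) (dS m e he0) := by rwa [sqM_iff h2 hQ hn hd]
  rw [inndP_eq hm, DP_odd h2]
  by_cases hneg : NegMem (qPlus m F)
  · have h := count_neg h2 hQ hn (card_plus m) hneg hg hgg hdp hds
    exact ⟨Or.inr h, fun _ => h⟩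
  · refine ⟨count_le h2 hQ hn (card_plus m) hneg hdp hds _, fun h => ?_⟩
    exact absurd ((neg_plus hodd hm).mpr h) hneg

end plus

section minus

universe u

variable {F : Type u} [Field F] [Fintype F] {m : ℕ} {a b : F}

/-- there is no semisimilarity with a field part of order two inducing an involution -/
theorem no_field_two (hodd : Odd (Fintype.card F)) (hm : 3 ≤ m) (hab : An a b) (y : ↥(Gam (qMinus m F a b)))
    (hy : (Psi (qMinus m F a b) y) ^ 2 = 1) : (y : GA ((Fin m ⊕ Fin m) ⊕ Fin 2) F).right = 1 := by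
  by_contra hne
  have h1 := orderOf_right_dvd (nd_minus' hab) (card_minus_ge hm) hy
  have h3 : orderOf (y : GA ((Fin m ⊕ Fin m) ⊕ Fin 2) F).right = 2 := orderOf_eq_prime h1 hne
  set σ := (y : GA ((Fin m ⊕ Fin m) ⊕ Fin 2) F).right with hσ
  have h2 := two_ne_of_odd hodd
  let F₀ := H49.FixedField.fixedField σ
  let j : F₀ →+* F := (H49.FixedField.fixedField σ).subtype
  have hj : ∀ x, (∃ c, j c = x) ↔ σ x = x :=
    fun x => ⟨by rintro ⟨c, rfl⟩; exact c.2, fun h => ⟨⟨x, h⟩, rfl⟩⟩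
  let _ : Fintype F₀ := Fintype.ofFinite F₀
  have hcard : Fintype.card F = Fintype.card F₀ ^ 2 := by
    have := H49.FixedField.card_fixedField_pow σ
    rw [h3] at this
    rw [← Nat.card_eq_fintype_card, ← Nat.card_eq_fintype_card]
    exact this.symm
  have h20 : (2 : F₀) ≠ 0 := by
    intro h
    apply h2
    have := congrArg j h
    rwa [map_ofNat, map_zero] at this
  obtain ⟨ε, hε⟩ := H48.FinFieldSq.exists_not_isSquare h20
  have h₀ : An (0 : F₀) (-ε) := by
    intro z₁ z₂ h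
    by_cases hz : z₂ = 0
    · subst hz
      refine ⟨?_, rfl⟩
      have : z₁ ^ 2 = 0 := by linear_combination h
      exact pow_eq_zero_iff two_ne_zero |>.mp this
    · exfalso
      apply hε
      refine ⟨z₁ / z₂, ?_⟩
      field_simp
      linear_combination -h
  obtain ⟨P, hP⟩ := minus_desc hm hab h₀ h3 (by norm_num) hj hy
  obtain ⟨l, hl⟩ := exists_root j hcard 0 (-ε)
  have hd : 4 * j (-ε) - j 0 ^ 2 ≠ 0 := by
    have e1 : 4 * j (-ε) - j 0 ^ 2 = j (4 * (-ε) - 0 ^ 2) := by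
      rw [map_sub, map_mul, map_pow, map_ofNat]
    rw [e1]
    exact (map_ne_zero j).mpr (disc_ne_zero h₀)
  obtain ⟨E⟩ := plus_of_root m hd hl
  obtain ⟨ν, hν⟩ := hP.q
  apply not_similar (m := m) hab (P := E.toLinearEquiv.trans P)
  refine ⟨ν, fun v => ?_⟩
  rw [LinearEquiv.trans_apply, hν]
  congr 1
  exact E.map_app v

theorem s2719 (hodd : Odd (Fintype.card F)) (hm : 3 ≤ m) (hab : An a b) :
    ∀ (γ : MulAut (Cfsg.POmega F (⇑(qMinus m F a b))))
      (_ : γ ∉ inndF (⇑(qMinus m F a b)) (Cfsg.PreservesSingularClassesMinus m a b)) (_ : orderOf γ = 2),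
      (Cfsg.splitClassCount (inndF (⇑(qMinus m F a b)) (Cfsg.PreservesSingularClassesMinus m a b))
        (Cfsg.Inn (Cfsg.POmega F (⇑(qMinus m F a b)))) γ = 1 ∨
      Cfsg.splitClassCount (inndF (⇑(qMinus m F a b)) (Cfsg.PreservesSingularClassesMinus m a b))
        (Cfsg.Inn (Cfsg.POmega F (⇑(qMinus m F a b)))) γ = 2) ∧
      (¬ (Even m ∧ Fintype.card F % 4 = 1) →
        Cfsg.splitClassCount (inndF (⇑(qMinus m F a b)) (Cfsg.PreservesSingularClassesMinus m a b))
        (Cfsg.Inn (Cfsg.POmega F (⇑(qMinus m F a b)))) γ = 2) := by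
  intro γ hγ hγ2
  have h2 := two_ne_of_odd hodd
  have hn := card7_minus hodd hm hab
  have hQ := H48.Pgo.nd_minus hodd hm hab
  obtain ⟨y, rfl⟩ := aut_minus hm hab γ
  have hy1 := no_field_two hodd hm hab y (pow_two_of_order hγ2)
  obtain ⟨g, rfl⟩ := exists_toGam hy1
  change psi1 (qMinus m F a b) g ∉ _ at hγ
  change orderOf (psi1 (qMinus m F a b) g) = 2 at hγ2
  rw [inndM_eq hm hab, DP_odd h2] at hγ
  have hg : ¬ Prp (qMinus m F a b) (m + 1) g := by
    intro h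
    exact hγ ⟨g, (mem_DO_iff h2 hQ hn (card_minus m) g).mpr h, rfl⟩
  have hgg : psi1 (qMinus m F a b) g * psi1 (qMinus m F a b) g = 1 := mul_self_of_order hγ2
  obtain ⟨x, z, hc, he⟩ := exists_dM hodd hm hab
  have hd := dM_mult m a b x z hc
  have hds : ¬ SqM (qMinus m F a b) (dM m a b x z hc) := by rwa [sqM_iff h2 hQ hn hd]
  have hdp : Prp (qMinus m F a b) (m + 1) (dM m a b x z hc) := by
    rw [prp_iff h2 hQ hn hd]
    exact dMG_det m a b x z hc
  rw [inndM_eq hm hab, DP_odd h2]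
  change (Cfsg.splitClassCount _ _ (psi1 (qMinus m F a b) g) = 1 ∨ Cfsg.splitClassCount _ _ (psi1 (qMinus m F a b) g) = 2) ∧
    (_ → Cfsg.splitClassCount _ _ (psi1 (qMinus m F a b) g) = 2)
  by_cases hneg : NegMem (qMinus m F a b)
  · have h := count_neg h2 hQ hn (card_minus m) hneg hg hgg hdp hds
    exact ⟨Or.inr h, fun _ => h⟩
  · refine ⟨count_le h2 hQ hn (card_minus m) hneg hdp hds _, fun h => ?_⟩
    have hme : Even (m + 1) := by
      rw [Nat.even_add_one, Nat.not_even_iff_odd]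
      by_contra hmo
      rw [Nat.not_odd_iff_even] at hmo
      have h3 : ¬ Fintype.card F % 4 = 3 := fun h4 => hneg ((neg_minus hodd hm hab).mpr ⟨hmo, h4⟩)
      have h5 : ¬ Fintype.card F % 4 = 1 := fun h4 => h ⟨hmo, h4⟩
      have h6 : Fintype.card F % 2 = 1 := Nat.odd_iff.mp hodd
      omega
    exact count_even h2 hQ hn (card_minus m) hme hneg hg hgg hdp hds

end minus

end H48.Gi
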