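import Cfsg.Agent.Lib.H48.InvC1

/-!
Centralizers of involutions of the symplectic groups in characteristic two.
-/

set_option autoImplicit false
set_option linter.unusedSectionVars false

namespace H48.InvC

open Matrix Cfsg Module H16.Symp

variable {F : Type*} [Field F] {m : ℕ} (t : symplecticGroup (Fin m) F)

/-- `t - 1` -/
def NN : (Fin m ⊕ Fin m → F) →ₗ[F] (Fin m ⊕ Fin m → F) :=
  Matrix.mulVecLin ((t : Matrix (Fin m ⊕ Fin m) (Fin m ⊕ Fin m) F) - 1)

theorem NN_apply (v : Fin m ⊕ Fin m → F) :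
    NN t v = (t : Matrix (Fin m ⊕ Fin m) (Fin m ⊕ Fin m) F) *ᵥ v - v := by
  rw [NN, Matrix.mulVecLin_apply, Matrix.sub_mulVec, Matrix.one_mulVec]

section

variable {t} (ht : t ^ 2 = 1)
include ht

theorem tt_apply (v : Fin m ⊕ Fin m → F) : (t : Matrix (Fin m ⊕ Fin m) (Fin m ⊕ Fin m) F) *ᵥ
    ((t : Matrix (Fin m ⊕ Fin m) (Fin m ⊕ Fin m) F) *ᵥ v) = v := by
  have h1 : (t : Matrix (Fin m ⊕ Fin m) (Fin m ⊕ Fin m) F) * (t : Matrix (Fin m ⊕ Fin m) (Fin m ⊕ Fin m) F) = 1 := by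
    have := congrArg (fun g : symplecticGroup (Fin m) F => (g : Matrix (Fin m ⊕ Fin m) (Fin m ⊕ Fin m) F)) ht
    rw [pow_two] at this
    exact this
  rw [Matrix.mulVec_mulVec, h1, Matrix.one_mulVec]

theorem NN_swap (u v : Fin m ⊕ Fin m → F) : sympForm m F (NN t u) v = sympForm m F u (NN t v) := by
  rw [NN_apply, NN_apply, sympForm_sub_left, sympForm_sub_right]
  have h1 := (mem_symplecticGroup_iff _).mp t.2 ((t : Matrix (Fin m ⊕ Fin m) (Fin m ⊕ Fin m) F) *ᵥ u) v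
  rw [tt_apply ht] at h1
  rw [← h1]

variable [CharP F 2]

theorem NN_NN (v : Fin m ⊕ Fin m → F) : NN t (NN t v) = 0 := by
  rw [NN_apply, NN_apply, Matrix.mulVec_sub, tt_apply ht]
  have h2 : (2 : F) = 0 := CharTwo.two_eq_zero
  have h3 : v - (t : Matrix (Fin m ⊕ Fin m) (Fin m ⊕ Fin m) F) *ᵥ v -
    ((t : Matrix (Fin m ⊕ Fin m) (Fin m ⊕ Fin m) F) *ᵥ v - v) =
    (2 : F) • (v - (t : Matrix (Fin m ⊕ Fin m) (Fin m ⊕ Fin m) F) *ᵥ v) := by module
  rw [h3, h2, zero_smul]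

theorem ti {u v : Fin m ⊕ Fin m → F} (hu : u ∈ LinearMap.range (NN t)) (hv : v ∈ LinearMap.range (NN t)) :
    sympForm m F u v = 0 := by
  obtain ⟨x, rfl⟩ := hu
  obtain ⟨y, rfl⟩ := hv
  rw [NN_swap ht, NN_NN ht, sympForm_zero_right]

/-- the form on the image of `t - 1` -/
theorem exists_form : ∃ b : LinearMap.BilinForm F ↥(LinearMap.range (NN t)),
    (∀ (u : Fin m ⊕ Fin m → F) (w : ↥(LinearMap.range (NN t))), b ((NN t).rangeRestrict u) w = sympForm m F u w) ∧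
    (∀ x y, b x y = b y x) ∧ NDL b := by
  obtain ⟨g, hg⟩ := (NN t).rangeRestrict.exists_rightInverse_of_surjective (LinearMap.range_rangeRestrict _)
  have hg' : ∀ w, (NN t).rangeRestrict (g w) = w := fun w => LinearMap.congr_fun hg w
  have hg2 : ∀ w : ↥(LinearMap.range (NN t)), NN t (g w) = w := fun w => congrArg Subtype.val (hg' w)
  let b : LinearMap.BilinForm F ↥(LinearMap.range (NN t)) :=
    (sympBilin m F).compl₁₂ g (LinearMap.range (NN t)).subtype
  have hb : ∀ x y, b x y = sympForm m F (g x) y := fun x y => rfl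
  have h1 : ∀ (u : Fin m ⊕ Fin m → F) (w : ↥(LinearMap.range (NN t))),
      b ((NN t).rangeRestrict u) w = sympForm m F u w := by
    rintro u ⟨_, v, rfl⟩
    rw [hb, ← sub_eq_zero, ← sympForm_sub_left, ← NN_swap ht, map_sub, hg2]
    change sympForm m F (NN t u - NN t u) v = 0
    rw [sub_self, sympForm_zero_left]
  have hsurj : ∀ w : ↥(LinearMap.range (NN t)), ∃ u, (NN t).rangeRestrict u = w := fun w => ⟨g w, hg' w⟩
  refine ⟨b, h1, ?_, ?_⟩
  · intro x y
    obtain ⟨u, rfl⟩ := hsurj x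
    obtain ⟨v, rfl⟩ := hsurj y
    rw [h1, h1]
    change sympForm m F u (NN t v) = sympForm m F v (NN t u)
    rw [← NN_swap ht, sympForm_swap, CharTwo.neg_eq]
  · intro w hw
    obtain ⟨u, rfl⟩ := hsurj w
    apply Subtype.ext
    change NN t u = 0
    apply eq_zero_of_forall_sympForm_right
    intro v
    rw [NN_swap ht]
    have := hw ((NN t).rangeRestrict v)
    rw [h1] at this
    exact this

theorem form_diag {b : LinearMap.BilinForm F ↥(LinearMap.range (NN t))}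
    (h1 : ∀ (u : Fin m ⊕ Fin m → F) (w : ↥(LinearMap.range (NN t))), b ((NN t).rangeRestrict u) w = sympForm m F u w)
    (v : Fin m ⊕ Fin m → F) : b ((NN t).rangeRestrict v) ((NN t).rangeRestrict v) =
      sympForm m F v ((t : Matrix (Fin m ⊕ Fin m) (Fin m ⊕ Fin m) F) *ᵥ v) := by
  rw [h1]
  change sympForm m F v (NN t v) = _
  rw [NN_apply, sympForm_sub_right, sympForm_self, sub_zero]

theorem finrank_range_le : finrank F ↥(LinearMap.range (NN t)) ≤ m := by
  have h1 := LinearMap.finrank_range_add_finrank_ker (NN t)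
  have h2 : LinearMap.range (NN t) ≤ LinearMap.ker (NN t) := by
    rintro _ ⟨v, rfl⟩
    exact NN_NN ht v
  have h3 := Submodule.finrank_mono h2
  rw [finrank_fintype_fun_eq_card, Fintype.card_sum, Fintype.card_fin] at h1
  omega

theorem comm_iff (g : symplecticGroup (Fin m) F) : g ∈ Subgroup.centralizer {t} ↔
    ∀ v, (g : Matrix (Fin m ⊕ Fin m) (Fin m ⊕ Fin m) F) *ᵥ (NN t v) =
      NN t ((g : Matrix (Fin m ⊕ Fin m) (Fin m ⊕ Fin m) F) *ᵥ v) := by
  rw [Subgroup.mem_centralizer_singleton_iff]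
  constructor
  · intro h v
    have h1 : (t : Matrix (Fin m ⊕ Fin m) (Fin m ⊕ Fin m) F) * g = g * t :=
      (congrArg (fun g : symplecticGroup (Fin m) F => (g : Matrix (Fin m ⊕ Fin m) (Fin m ⊕ Fin m) F)) h).symm
    rw [NN_apply, NN_apply, Matrix.mulVec_sub, Matrix.mulVec_mulVec, Matrix.mulVec_mulVec, h1]
  · intro h
    apply Subtype.ext
    apply Matrix.toLin'.injective
    apply LinearMap.ext
    intro v
    have h1 := h v
    rw [NN_apply, NN_apply, Matrix.mulVec_sub, Matrix.mulVec_mulVec, Matrix.mulVec_mulVec] at h1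
    rw [Matrix.toLin'_apply, Matrix.toLin'_apply]
    exact sub_left_injective h1


theorem lin_ext {s : ℕ} (B : Basis (Fin s) F ↥(LinearMap.range (NN t))) (g : symplecticGroup (Fin m) F)
    (h : ↥(LinearMap.range (NN t)) ≃ₗ[F] ↥(LinearMap.range (NN t)))
    (hg : ∀ i, (g : Matrix (Fin m ⊕ Fin m) (Fin m ⊕ Fin m) F) *ᵥ (B i : Fin m ⊕ Fin m → F) =
      (h (B i) : Fin m ⊕ Fin m → F)) (w : ↥(LinearMap.range (NN t))) :
    (g : Matrix (Fin m ⊕ Fin m) (Fin m ⊕ Fin m) F) *ᵥ (w : Fin m ⊕ Fin m → F) = (h w : Fin m ⊕ Fin m → F) := by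
  have h3 : (Matrix.mulVecLin (g : Matrix (Fin m ⊕ Fin m) (Fin m ⊕ Fin m) F)) ∘ₗ (LinearMap.range (NN t)).subtype =
      (LinearMap.range (NN t)).subtype ∘ₗ h.toLinearMap := by
    apply B.ext
    intro i
    exact hg i
  exact LinearMap.congr_fun h3 w

theorem comm_of_iso {b : LinearMap.BilinForm F ↥(LinearMap.range (NN t))}
    (h1 : ∀ (u : Fin m ⊕ Fin m → F) (w : ↥(LinearMap.range (NN t))), b ((NN t).rangeRestrict u) w = sympForm m F u w)
    (hb : NDL b) (A : symplecticGroup (Fin m) F) (h : IsoG b)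
    (hA : ∀ w : ↥(LinearMap.range (NN t)), (A : Matrix (Fin m ⊕ Fin m) (Fin m ⊕ Fin m) F) *ᵥ (w : Fin m ⊕ Fin m → F) =
      (h.1 w : Fin m ⊕ Fin m → F)) : A ∈ Subgroup.centralizer {t} := by
  rw [comm_iff ht]
  intro v
  have h3 : (h.1 ((NN t).rangeRestrict v)) =
      (NN t).rangeRestrict ((A : Matrix (Fin m ⊕ Fin m) (Fin m ⊕ Fin m) F) *ᵥ v) := by
    rw [← sub_eq_zero]
    apply hb
    intro w'
    obtain ⟨w, rfl⟩ := h.1.surjective w'
    rw [map_sub, LinearMap.sub_apply, h.2, h1, h1, ← hA, (mem_symplecticGroup_iff _).mp A.2, sub_self]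
  have h4 := hA ((NN t).rangeRestrict v)
  rw [h3] at h4
  exact h4

theorem iso_of_comm {b : LinearMap.BilinForm F ↥(LinearMap.range (NN t))}
    (h1 : ∀ (u : Fin m ⊕ Fin m → F) (w : ↥(LinearMap.range (NN t))), b ((NN t).rangeRestrict u) w = sympForm m F u w)
    (hb : NDL b) (g : symplecticGroup (Fin m) F) (hg : g ∈ Subgroup.centralizer {t}) :
    ∃ h : IsoG b, ∀ w : ↥(LinearMap.range (NN t)), (g : Matrix (Fin m ⊕ Fin m) (Fin m ⊕ Fin m) F) *ᵥ
      (w : Fin m ⊕ Fin m → F) = (h.1 w : Fin m ⊕ Fin m → F) := by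
  rw [comm_iff ht] at hg
  have hmap : ∀ w : ↥(LinearMap.range (NN t)), ((Matrix.mulVecLin (g : Matrix (Fin m ⊕ Fin m) (Fin m ⊕ Fin m) F)) ∘ₗ
      (LinearMap.range (NN t)).subtype) w ∈ LinearMap.range (NN t) := by
    rintro ⟨_, v, rfl⟩
    exact ⟨_, (hg v).symm⟩
  obtain ⟨h, hh⟩ := iso_of_lin hb (LinearMap.codRestrict _
    ((Matrix.mulVecLin (g : Matrix (Fin m ⊕ Fin m) (Fin m ⊕ Fin m) F)) ∘ₗ (LinearMap.range (NN t)).subtype) hmap) (by
      intro x y
      obtain ⟨v, rfl⟩ := (NN t).surjective_rangeRestrict x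
      have h3 : LinearMap.codRestrict (LinearMap.range (NN t))
          ((Matrix.mulVecLin (g : Matrix (Fin m ⊕ Fin m) (Fin m ⊕ Fin m) F)) ∘ₗ (LinearMap.range (NN t)).subtype) hmap
          ((NN t).rangeRestrict v) = (NN t).rangeRestrict ((g : Matrix (Fin m ⊕ Fin m) (Fin m ⊕ Fin m) F) *ᵥ v) :=
        Subtype.ext (hg v)
      rw [h3, h1, h1]
      exact (mem_symplecticGroup_iff _).mp g.2 _ _)
  refine ⟨h, fun w => ?_⟩
  rw [hh]
  rfl

theorem comm_of_fix {b : LinearMap.BilinForm F ↥(LinearMap.range (NN t))}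
    (h1 : ∀ (u : Fin m ⊕ Fin m → F) (w : ↥(LinearMap.range (NN t))), b ((NN t).rangeRestrict u) w = sympForm m F u w)
    (hb : NDL b) (g : symplecticGroup (Fin m) F)
    (hg : ∀ w : ↥(LinearMap.range (NN t)), (g : Matrix (Fin m ⊕ Fin m) (Fin m ⊕ Fin m) F) *ᵥ (w : Fin m ⊕ Fin m → F) = w) :
    g ∈ Subgroup.centralizer {t} :=
  comm_of_iso ht h1 hb g ⟨LinearEquiv.refl F _, fun _ _ => rfl⟩ hg

variable [Fintype F]

theorem card_frames {b : LinearMap.BilinForm F ↥(LinearMap.range (NN t))} {s : ℕ}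
    (B : Basis (Fin s) F ↥(LinearMap.range (NN t))) :
    Nat.card {w : Fin s → (Fin m ⊕ Fin m → F) | ∃ h : IsoG b, ∀ i, w i = (h.1 (B i) : Fin m ⊕ Fin m → F)} =
      Nat.card (IsoG b) := by
  symm
  refine Nat.card_congr (Equiv.ofBijective (fun h : IsoG b =>
    (⟨fun i => (h.1 (B i) : Fin m ⊕ Fin m → F), h, fun i => rfl⟩ : {w : Fin s → (Fin m ⊕ Fin m → F) | ∃ h : IsoG b,
      ∀ i, w i = (h.1 (B i) : Fin m ⊕ Fin m → F)})) ⟨?_, ?_⟩)
  · intro h h' hh
    apply Subtype.ext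
    apply LinearEquiv.toLinearMap_injective
    apply B.ext
    intro i
    apply Subtype.ext
    exact congrFun (congrArg Subtype.val hh) i
  · rintro ⟨w, h, hw⟩
    exact ⟨h, Subtype.ext (funext fun i => (hw i).symm)⟩

theorem count1 {s : ℕ} (u : Fin s → (Fin m ⊕ Fin m → F)) (hli : LinearIndependent F u)
    (hti : ∀ i j, sympForm m F (u i) (u j) = 0) :
    (∏ i : Fin s, (Fintype.card F ^ (2 * m - (i : ℕ)) - Fintype.card F ^ (i : ℕ))) *
      Nat.card {g : symplecticGroup (Fin m) F // ∀ i, (g : Matrix (Fin m ⊕ Fin m) (Fin m ⊕ Fin m) F) *ᵥ u i = u i} =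
      Nat.card (symplecticGroup (Fin m) F) := by
  classical
  have c1 := H16.SpParab.card_mul (⊤ : Subgroup (symplecticGroup (Fin m) F)) u
    {w | LinearIndependent F w ∧ ∀ i j, sympForm m F (w i) (w j) = 0} (by
    intro w
    constructor
    · rintro ⟨hw1, hw2⟩
      obtain ⟨A, hA⟩ := H16.SpGeom.exists_frames u w hli hw1 (fun i j => by rw [hti, hw2])
      exact ⟨A, trivial, hA⟩
    · rintro ⟨g, -, hg⟩
      have : w = fun i => (g : Matrix (Fin m ⊕ Fin m) (Fin m ⊕ Fin m) F) *ᵥ u i := funext fun i => (hg i).symm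
      rw [this]
      exact ⟨H16.SpParab.li_mulVec g hli, fun i j => by rw [(mem_symplecticGroup_iff _).mp g.2, hti]⟩)
  have c3 : Nat.card {g : symplecticGroup (Fin m) F // g ∈ (⊤ : Subgroup (symplecticGroup (Fin m) F)) ∧
      ∀ i, (g : Matrix (Fin m ⊕ Fin m) (Fin m ⊕ Fin m) F) *ᵥ u i = u i} =
      Nat.card {g : symplecticGroup (Fin m) F // ∀ i, (g : Matrix (Fin m ⊕ Fin m) (Fin m ⊕ Fin m) F) *ᵥ u i = u i} := by
    apply Nat.card_congr
    apply Equiv.subtypeEquivRight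
    intro g
    exact ⟨fun h => h.2, fun h => ⟨trivial, h⟩⟩
  have c5 : Nat.card {w : Fin s → (Fin m ⊕ Fin m → F) | LinearIndependent F w ∧ ∀ i j, sympForm m F (w i) (w j) = 0} =
      ∏ i : Fin s, (Fintype.card F ^ (2 * m - (i : ℕ)) - Fintype.card F ^ (i : ℕ)) := H16.SpParab.card_isoFrame _
  have c6 : Nat.card (⊤ : Subgroup (symplecticGroup (Fin m) F)) = Nat.card (symplecticGroup (Fin m) F) :=
    Nat.card_congr (Equiv.Set.univ _)
  rw [c3, c5, c6] at c1
  exact c1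

theorem arith2 {s : ℕ} (hsm : s ≤ m) {x : ℕ}
    (h : (∏ i : Fin s, (Fintype.card F ^ (2 * m - (i : ℕ)) - Fintype.card F ^ (i : ℕ))) * x =
      Nat.card (symplecticGroup (Fin m) F)) :
    x = Fintype.card F ^ (s * (s + 1) / 2 + 2 * s * (m - s)) *
      (Fintype.card F ^ ((m - s) ^ 2) * ∏ i : Fin (m - s), (Fintype.card F ^ (2 * ((i : ℕ) + 1)) - 1)) := by
  have c7 := H16.SpParab.arith_step (Fintype.card F) m Fintype.card_pos s hsm
  rw [card_sp, ← Finset.prod_range (fun i => Fintype.card F ^ (2 * (i + 1)) - 1), ← c7] at h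
  rw [← Finset.prod_range (fun i => Fintype.card F ^ (2 * (i + 1)) - 1)]
  have hq : 1 < Fintype.card F := Fintype.one_lt_card
  have hpos : 0 < ∏ i : Fin s, (Fintype.card F ^ (2 * m - (i : ℕ)) - Fintype.card F ^ (i : ℕ)) := by
    apply Finset.prod_pos
    intro i _
    apply Nat.sub_pos_of_lt
    apply Nat.pow_lt_pow_right hq
    have := i.2
    omega
  exact Nat.eq_of_mul_eq_mul_left hpos h

theorem count2 {b : LinearMap.BilinForm F ↥(LinearMap.range (NN t))}
    (h1 : ∀ (u : Fin m ⊕ Fin m → F) (w : ↥(LinearMap.range (NN t))), b ((NN t).rangeRestrict u) w = sympForm m F u w)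
    (hb : NDL b) {s : ℕ} (B : Basis (Fin s) F ↥(LinearMap.range (NN t))) (u : Fin s → (Fin m ⊕ Fin m → F))
    (hu : ∀ i, u i = B i) (hli : LinearIndependent F u) :
    Nat.card (IsoG b) * Nat.card {g : symplecticGroup (Fin m) F // g ∈ Subgroup.centralizer {t} ∧
      ∀ i, (g : Matrix (Fin m ⊕ Fin m) (Fin m ⊕ Fin m) F) *ᵥ u i = u i} = Nat.card ↥(Subgroup.centralizer {t}) := by
  classical
  rw [← card_frames ht B]
  refine H16.SpParab.card_mul (Subgroup.centralizer {t}) u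
    {w | ∃ h : IsoG b, ∀ i, w i = (h.1 (B i) : Fin m ⊕ Fin m → F)} ?_
  intro w
  constructor
  · rintro ⟨h, hw⟩
    have hw' : w = fun i => ((h.1 (B i) : ↥(LinearMap.range (NN t))) : Fin m ⊕ Fin m → F) := funext hw
    have hwli : LinearIndependent F w := by
      rw [hw']
      exact (B.linearIndependent.map' h.1.toLinearMap (LinearEquiv.ker h.1)).map'
        (LinearMap.range (NN t)).subtype (Submodule.ker_subtype _)
    obtain ⟨A, hA⟩ := H16.SpGeom.exists_frames u w hli hwli (fun i j => by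
      rw [hu, hu, ti ht (B i).2 (B j).2, hw, hw, ti ht (h.1 (B i)).2 (h.1 (B j)).2])
    refine ⟨A, ?_, hA⟩
    apply comm_of_iso ht h1 hb A h
    apply lin_ext ht B
    intro i
    rw [← hu, hA, hw]
  · rintro ⟨g, hg, hgw⟩
    obtain ⟨h, hh⟩ := iso_of_comm ht h1 hb g hg
    exact ⟨h, fun i => by rw [← hgw, hu, hh]⟩

/-- **orders of centralizers** -/
theorem card_cent_aux {b : LinearMap.BilinForm F ↥(LinearMap.range (NN t))}
    (h1 : ∀ (u : Fin m ⊕ Fin m → F) (w : ↥(LinearMap.range (NN t))), b ((NN t).rangeRestrict u) w = sympForm m F u w)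
    (hb : NDL b) {s : ℕ} (hd : finrank F ↥(LinearMap.range (NN t)) = s) :
    Nat.card ↥(Subgroup.centralizer {t}) = Nat.card (IsoG b) * (Fintype.card F ^ (s * (s + 1) / 2 + 2 * s * (m - s)) *
      (Fintype.card F ^ ((m - s) ^ 2) * ∏ i : Fin (m - s), (Fintype.card F ^ (2 * ((i : ℕ) + 1)) - 1))) := by
  have hsm : s ≤ m := hd ▸ finrank_range_le ht
  obtain ⟨B⟩ : Nonempty (Basis (Fin s) F ↥(LinearMap.range (NN t))) := ⟨finBasisOfFinrankEq F _ hd⟩
  obtain ⟨u, hu⟩ : ∃ u : Fin s → (Fin m ⊕ Fin m → F), ∀ i, u i = B i := ⟨_, fun _ => rfl⟩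
  have hli : LinearIndependent F u := by
    have : u = fun i => ((B i : ↥(LinearMap.range (NN t))) : Fin m ⊕ Fin m → F) := funext hu
    rw [this]
    exact B.linearIndependent.map' (LinearMap.range (NN t)).subtype (Submodule.ker_subtype _)
  have hti : ∀ i j, sympForm m F (u i) (u j) = 0 := fun i j => by
    rw [hu, hu]; exact ti ht (B i).2 (B j).2
  rw [← count2 ht h1 hb B u hu hli]
  congr 1
  apply arith2 ht hsm
  rw [← count1 ht u hli hti]
  congr 1
  apply Nat.card_congr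
  apply Equiv.subtypeEquivRight
  intro g
  refine ⟨fun h => h.2, fun h => ⟨?_, h⟩⟩
  apply comm_of_fix ht h1 hb
  apply lin_ext ht B g (LinearEquiv.refl F _)
  intro i
  rw [← hu, h, hu]
  rfl

end

end H48.InvC
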