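import Cfsg.Agent.Lib.H48.InvC2

/-!
Centralizer orders of involutions of the symplectic groups in characteristic two: the three types.
-/

set_option autoImplicit false
set_option linter.unusedSectionVars false

namespace H48.InvC

open Matrix Cfsg Module H16.Symp

/-- `s (s + 1) / 2` -/
theorem exists_tri (s : ℕ) : ∃ c, s * (s + 1) = 2 * c ∧ c ≤ 2 * s ^ 2 ∧ (3 * s ^ 2 - s) / 2 = 2 * s ^ 2 - c := by
  obtain ⟨c, hc⟩ := Nat.even_mul_succ_self s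
  refine ⟨c, by omega, ?_, ?_⟩
  · nlinarith [Nat.zero_le s]
  · have h1 : 3 * s ^ 2 - s = 4 * s ^ 2 - 2 * c := by
      have : s ^ 2 + s = 2 * c := by linarith [hc, show s * (s + 1) = s ^ 2 + s by ring]
      omega
    rw [h1]
    omega

theorem exp1 {m s : ℕ} (h : s ≤ m) : s * (s + 1) / 2 + 2 * s * (m - s) = 2 * m * s - (3 * s ^ 2 - s) / 2 := by
  obtain ⟨r, rfl⟩ := Nat.exists_eq_add_of_le h
  obtain ⟨c, h1, h2, h3⟩ := exists_tri s
  rw [h3, h1, Nat.mul_div_cancel_left _ two_pos, Nat.add_sub_cancel_left]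
  have : 2 * (s + r) * s = 2 * s ^ 2 + 2 * s * r := by ring
  rw [this]
  omega

theorem exp2 {m s : ℕ} (h : s ≤ m) (hs : 1 ≤ s) :
    s * (s + 1) / 2 + 2 * s * (m - s) + (s - 1) = 2 * m * s - (3 * s ^ 2 - 3 * s) / 2 - 1 := by
  obtain ⟨r, rfl⟩ := Nat.exists_eq_add_of_le h
  obtain ⟨c, h1, h2, h3⟩ := exists_tri s
  have h4 : s ^ 2 + s = 2 * c := by linarith [h1, show s * (s + 1) = s ^ 2 + s by ring]
  have h6 : s ≤ s ^ 2 := by nlinarith
  have h5 : (3 * s ^ 2 - 3 * s) / 2 = 2 * s ^ 2 - c - s := by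
    have : 3 * s ^ 2 - 3 * s = 2 * (2 * s ^ 2 - c - s) := by omega
    rw [this, Nat.mul_div_cancel_left _ two_pos]
  rw [h5, h1, Nat.mul_div_cancel_left _ two_pos, Nat.add_sub_cancel_left]
  have : 2 * (s + r) * s = 2 * s ^ 2 + 2 * s * r := by ring
  rw [this]
  omega

variable {F : Type*} [Field F] [Fintype F] [CharP F 2] {m : ℕ} {t : symplecticGroup (Fin m) F} (ht : t ^ 2 = 1)
include ht

theorem finrank_eq {s : ℕ} (hs : ((t : Matrix (Fin m ⊕ Fin m) (Fin m ⊕ Fin m) F) - 1).rank = s) :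
    finrank F ↥(LinearMap.range (NN t)) = s := hs

theorem s_le {s : ℕ} (hs : ((t : Matrix (Fin m ⊕ Fin m) (Fin m ⊕ Fin m) F) - 1).rank = s) : s ≤ m := by
  rw [← hs]
  exact finrank_range_le ht

theorem s2680 {q s : ℕ} (hF : Fintype.card F = q)
    (hs : ((t : Matrix (Fin m ⊕ Fin m) (Fin m ⊕ Fin m) F) - 1).rank = s) (hodd : Odd s) :
    Nat.card ↥(Subgroup.centralizer ({t} : Set ↥(Matrix.symplecticGroup (Fin m) F))) =
      q ^ (2 * m * s - (3 * s ^ 2 - s) / 2) * ((q : ℕ) ^ (((s - 1) / 2) ^ 2) *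
        ∏ i : Fin ((s - 1) / 2), (q ^ (2 * ((i : ℕ) + 1)) - 1)) *
        ((q : ℕ) ^ ((m - s) ^ 2) * ∏ i : Fin (m - s), (q ^ (2 * ((i : ℕ) + 1)) - 1)) := by
  obtain ⟨b, h1, h2, h3⟩ := exists_form ht
  have hd : finrank F ↥(LinearMap.range (NN t)) = s := hs
  obtain ⟨k, rfl⟩ := hodd
  have hk : (2 * k + 1 - 1) / 2 = k := by omega
  rw [card_cent_aux ht h1 h3 hd, card_odd h2 h3 hd, exp1 (s_le ht hs), hF, hk]
  ring

theorem s2681 {q s : ℕ} (hF : Fintype.card F = q)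
    (hs : ((t : Matrix (Fin m ⊕ Fin m) (Fin m ⊕ Fin m) F) - 1).rank = s) (heven : Even s)
    (halt : ∀ v : Fin m ⊕ Fin m → F, Cfsg.sympForm m F v ((t : Matrix (Fin m ⊕ Fin m) (Fin m ⊕ Fin m) F).mulVec v) = 0) :
    Nat.card ↥(Subgroup.centralizer ({t} : Set ↥(Matrix.symplecticGroup (Fin m) F))) =
      q ^ (2 * m * s - (3 * s ^ 2 - s) / 2) * ((q : ℕ) ^ ((s / 2) ^ 2) *
        ∏ i : Fin (s / 2), (q ^ (2 * ((i : ℕ) + 1)) - 1)) *
        ((q : ℕ) ^ ((m - s) ^ 2) * ∏ i : Fin (m - s), (q ^ (2 * ((i : ℕ) + 1)) - 1)) := by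
  obtain ⟨b, h1, h2, h3⟩ := exists_form ht
  have hd : finrank F ↥(LinearMap.range (NN t)) = s := hs
  obtain ⟨k, rfl⟩ := heven
  have hk : (k + k) / 2 = k := by omega
  have hA : b.IsAlt := by
    intro x
    obtain ⟨v, rfl⟩ := (NN t).surjective_rangeRestrict x
    rw [form_diag ht h1]
    exact halt v
  rw [card_cent_aux ht h1 h3 hd, card_alt (k := k) hA h3 (by rw [hd]; ring), exp1 (s_le ht hs), hF, hk]
  ring

theorem s2682 {q s : ℕ} (hF : Fintype.card F = q)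
    (hs : ((t : Matrix (Fin m ⊕ Fin m) (Fin m ⊕ Fin m) F) - 1).rank = s) (heven : Even s)
    (hna : ∃ v : Fin m ⊕ Fin m → F, Cfsg.sympForm m F v ((t : Matrix (Fin m ⊕ Fin m) (Fin m ⊕ Fin m) F).mulVec v) ≠ 0) :
    Nat.card ↥(Subgroup.centralizer ({t} : Set ↥(Matrix.symplecticGroup (Fin m) F))) =
      q ^ (2 * m * s - (3 * s ^ 2 - 3 * s) / 2 - 1) * ((q : ℕ) ^ (((s - 2) / 2) ^ 2) *
        ∏ i : Fin ((s - 2) / 2), (q ^ (2 * ((i : ℕ) + 1)) - 1)) *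
        ((q : ℕ) ^ ((m - s) ^ 2) * ∏ i : Fin (m - s), (q ^ (2 * ((i : ℕ) + 1)) - 1)) := by
  obtain ⟨b, h1, h2, h3⟩ := exists_form ht
  have hd : finrank F ↥(LinearMap.range (NN t)) = s := hs
  have hna' : ∃ w, b w w ≠ 0 := by
    obtain ⟨v, hv⟩ := hna
    exact ⟨(NN t).rangeRestrict v, by rw [form_diag ht h1]; exact hv⟩
  have hs0 : s ≠ 0 := by
    intro h0
    rw [h0] at hd
    obtain ⟨w, hw⟩ := hna'
    apply hw
    have := finrank_zero_iff.mp hd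
    rw [Subsingleton.elim w 0, map_zero]
  obtain ⟨k, rfl⟩ := heven
  obtain ⟨l, rfl⟩ : ∃ l, k = l + 1 := ⟨k - 1, by omega⟩
  have hk : (l + 1 + (l + 1) - 2) / 2 = l := by omega
  have hq : 1 < q := by rw [← hF]; exact Fintype.one_lt_card
  have c1 := card_even h2 h3 hna' (k := l + 1) (by rw [hd]; ring)
  rw [hF, Fin.prod_univ_castSucc] at c1
  simp only [Fin.val_castSucc, Fin.val_last] at c1
  have c2 : Nat.card (IsoG b) = q ^ (2 * l + 1) * (q ^ (l ^ 2) * ∏ i : Fin l, (q ^ (2 * ((i : ℕ) + 1)) - 1)) := by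
    have hpos : 0 < q ^ (2 * (l + 1)) - 1 := by
      apply Nat.sub_pos_of_lt
      exact Nat.one_lt_pow (by omega) hq
    apply Nat.eq_of_mul_eq_mul_left hpos
    rw [c1]
    ring
  rw [card_cent_aux ht h1 h3 hd, c2, ← exp2 (s_le ht hs) (by omega), hF, hk]
  have : l + 1 + (l + 1) - 1 = 2 * l + 1 := by omega
  rw [this, pow_add _ _ (2 * l + 1)]
  ring

end H48.InvC
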