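import Mathlib
import Cfsg.Agent.Lib.H89.ON1

set_option autoImplicit false
set_option linter.unusedSectionVars false

/-! Symmetric designs with a 2-transitive group and elements fixing a block pointwise. -/

namespace H48.It

structure Des (G P X : Type*) [Group G] [MulAction G P] [MulAction G X] (I : P → X → Prop)
    (K L : ℕ) : Prop where
  inv : ∀ (g : G) (p : P) (x : X), I (g • p) (g • x) ↔ I p x
  cardB : ∀ x, Nat.card {p // I p x} = K
  cardP : ∀ p, Nat.card {x // I p x} = K
  meet : ∀ x y, x ≠ y → Nat.card {p // I p x ∧ I p y} = L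
  join : ∀ p q, p ≠ q → Nat.card {x // I p x ∧ I q x} = L
  tt : ∀ x y x2 y2 : X, x ≠ y → x2 ≠ y2 → ∃ g : G, g • x = x2 ∧ g • y = y2
  faith : ∀ g : G, (∀ p : P, g • p = p) → g = 1
  nofix : ∀ (x : X) (p : P), ∃ g : G, g • x = x ∧ g • p ≠ p
  hK : 2 ≤ K
  hKv : K < Nat.card P

/-- points of a block -/
def pts {P X : Type*} (I : P → X → Prop) (x : X) : Set P := {p | I p x}
/-- blocks through a point -/
def bls {P X : Type*} (I : P → X → Prop) (p : P) : Set X := {x | I p x}

theorem dc {A B : Type*} [Finite A] [Finite B] (S : Set A) (T : Set B) (r : A → B → Prop)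
    {m n : ℕ} (h1 : ∀ a ∈ S, {b | b ∈ T ∧ r a b}.ncard = m)
    (h2 : ∀ b ∈ T, {a | a ∈ S ∧ r a b}.ncard = n) : S.ncard * m = T.ncard * n := by
  classical
  have : Fintype A := Fintype.ofFinite A
  have : Fintype B := Fintype.ofFinite B
  rw [Set.ncard_eq_toFinset_card' S, Set.ncard_eq_toFinset_card' T]
  refine Finset.card_mul_eq_card_mul r ?_ ?_
  · intro a ha
    rw [← h1 a (by simpa using ha), Set.ncard_eq_toFinset_card']
    congr 1
    ext b
    simp [Finset.mem_bipartiteAbove]
  · intro b hb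
    rw [← h2 b (by simpa using hb), Set.ncard_eq_toFinset_card']
    congr 1
    ext a
    simp [Finset.mem_bipartiteBelow]

/-- two sets of equal size. -/
lemma eq_of_sub_card {α : Type*} [Finite α] {A B : Set α} {n : ℕ} (hA : A.ncard = n) (hB : B.ncard = n)
    (h : A ⊆ B) : A = B :=
  Set.eq_of_subset_of_ncard_le h (by rw [hA, hB]) (Set.toFinite _)

theorem dvd_of_fibers {A β : Type*} [Finite A] (S : Set A) (f : A → β) {k : ℕ}
    (h : ∀ a ∈ S, {b | b ∈ S ∧ f b = f a}.ncard = k) : k ∣ S.ncard := by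
  classical
  have : Fintype A := Fintype.ofFinite A
  rw [Set.ncard_eq_toFinset_card' S, Finset.card_eq_sum_card_image f S.toFinset]
  refine Finset.dvd_sum fun b hb => ?_
  obtain ⟨a, ha, rfl⟩ := Finset.mem_image.1 hb
  rw [← h a (by simpa using ha), Set.ncard_eq_toFinset_card']
  apply dvd_of_eq
  congr 1
  ext c
  simp

variable {G P X : Type*} [Group G] [MulAction G P] [MulAction G X] {I : P → X → Prop} {K L : ℕ}
  [Finite G] [Finite P] [Finite X]

namespace Des

variable (D : Des G P X I K L)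
include D

lemma ncard_pts (x : X) : (pts I x).ncard = K := D.cardB x
lemma ncard_bls (p : P) : (bls I p).ncard = K := D.cardP p
lemma ncard_meet {x y : X} (h : x ≠ y) : (pts I x ∩ pts I y).ncard = L := D.meet x y h
lemma ncard_join {p q : P} (h : p ≠ q) : (bls I p ∩ bls I q).ncard = L := D.join p q h

lemma params (p : P) : (Nat.card P - 1) * L = K * (K - 1) := by
  have h := dc (S := ({p}ᶜ : Set P)) (T := bls I p) (r := fun q x => I q x) (m := L) (n := K - 1)
    (by
      intro q hq
      have hq' : p ≠ q := fun h => hq (by simp [h])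
      rw [← D.ncard_join hq']
      rfl)
    (by
      intro x hx
      have : {a | a ∈ ({p}ᶜ : Set P) ∧ I a x} = pts I x \ {p} := by
        ext a
        simp only [Set.mem_ofPred_eq, Set.mem_compl_iff, Set.mem_singleton_iff, Set.mem_sdiff, pts]
        tauto
      rw [this, Set.ncard_sdiff_singleton_of_mem (show p ∈ pts I x from hx), D.ncard_pts])
  rw [Set.ncard_compl, Set.ncard_singleton, D.ncard_bls] at h
  exact h

lemma exP : Nonempty P := by
  have := D.hKv
  by_contra h
  rw [not_nonempty_iff] at h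
  rw [Nat.card_of_isEmpty] at this
  omega

lemma exX : Nonempty X := by
  obtain ⟨p⟩ := D.exP
  have h := D.ncard_bls p
  have hK := D.hK
  obtain ⟨x, _⟩ : (bls I p).Nonempty := by
    rw [← Set.ncard_pos (Set.toFinite _), h]; omega
  exact ⟨x⟩

lemma exPX (x : X) : ∃ p, I p x := by
  have h := D.ncard_pts x
  have hK := D.hK
  obtain ⟨p, hp⟩ : (pts I x).Nonempty := by
    rw [← Set.ncard_pos (Set.toFinite _), h]; omega
  exact ⟨p, hp⟩

lemma exXP (p : P) : ∃ x, I p x := by
  have h := D.ncard_bls p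
  have hK := D.hK
  obtain ⟨x, hx⟩ : (bls I p).Nonempty := by
    rw [← Set.ncard_pos (Set.toFinite _), h]; omega
  exact ⟨x, hx⟩

lemma L_pos : 1 ≤ L := by
  obtain ⟨p⟩ := D.exP
  have h := D.params p
  have hK := D.hK
  by_contra hL
  have : L = 0 := by omega
  rw [this, mul_zero] at h
  have : 0 < K * (K - 1) := Nat.mul_pos (by omega) (by omega)
  omega

lemma L_lt : L < K := by
  obtain ⟨p⟩ := D.exP
  have h := D.params p
  have hK := D.hK
  have hKv := D.hKv
  by_contra hL
  push Not at hL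
  have h1 : (K - 1) < (Nat.card P - 1) := by omega
  have h2 : K * (K - 1) < K * (Nat.card P - 1) := Nat.mul_lt_mul_of_pos_left h1 (by omega)
  have h3 : K * (Nat.card P - 1) ≤ (Nat.card P - 1) * L := by
    rw [mul_comm]; exact Nat.mul_le_mul_left _ hL
  omega

lemma params2 : (Nat.card P - K) * L = (K - 1) * (K - L) := by
  obtain ⟨p⟩ := D.exP
  have h := D.params p
  have hK := D.hK
  have hKv := D.hKv
  have hL := D.L_lt
  obtain ⟨v, hv⟩ : ∃ v, Nat.card P = K + v := ⟨Nat.card P - K, by omega⟩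
  obtain ⟨m, hm⟩ : ∃ m, K = L + m := ⟨K - L, by omega⟩
  obtain ⟨j, hj⟩ : ∃ j, K = j + 1 := ⟨K - 1, by omega⟩
  rw [hv] at h ⊢
  have e1 : K + v - 1 = j + v := by omega
  have e2 : K + v - K = v := by omega
  have e3 : K - 1 = j := by omega
  have e4 : K - L = m := by omega
  rw [e1, e3] at h
  rw [e2, e3, e4]
  have h5 : j + 1 = L + m := by omega
  rw [hm] at h
  nlinarith

/-- the number of points off a block is at least two. -/
lemma off_two : K + 2 ≤ Nat.card P := by
  classical
  obtain ⟨x⟩ := D.exX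
  by_contra hcon
  have hKv := D.hKv
  have h1 : Nat.card P = K + 1 := by omega
  have h2 : ((pts I x)ᶜ).ncard = 1 := by
    rw [Set.ncard_compl, D.ncard_pts, h1]; omega
  obtain ⟨p, hp⟩ := Set.ncard_eq_one.1 h2
  obtain ⟨g, hg, hgp⟩ := D.nofix x p
  apply hgp
  have hp1 : p ∈ (pts I x)ᶜ := by rw [hp]; rfl
  have : g • p ∈ (pts I x)ᶜ := by
    intro h
    apply hp1
    have h' : I (g • p) (g • x) := by rw [hg]; exact h
    exact (D.inv g p x).1 h'
  rw [hp] at this
  exact this

lemma KL_two : L + 2 ≤ K := by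
  have h := D.params2
  have h1 := D.off_two
  have h2 := D.L_lt
  have h3 := D.L_pos
  by_contra hcon
  have h4 : K = L + 1 := by omega
  rw [h4] at h
  have e1 : L + 1 - 1 = L := by omega
  have e2 : L + 1 - L = 1 := by omega
  rw [e1, e2, mul_one] at h
  have h5 : 2 * L ≤ (Nat.card P - (L + 1)) * L := Nat.mul_le_mul_right _ (by omega)
  omega

/-- elements fixing all points of a block. -/
def N (_ : Des G P X I K L) (y : X) : Subgroup G where
  carrier := {g | ∀ p, I p y → g • p = p}
  one_mem' := fun p _ => one_smul _ _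
  mul_mem' := fun {a b} ha hb p hp => by rw [mul_smul, hb p hp, ha p hp]
  inv_mem' := fun {a} ha p hp => by rw [inv_smul_eq_iff, ha p hp]

lemma mem_N {y : X} {g : G} : g ∈ D.N y ↔ ∀ p, I p y → g • p = p := Iff.rfl

lemma eq_of_sub {x y : X} (h : ∀ p, I p x → I p y) : x = y := by
  by_contra hne
  have h1 := D.ncard_meet hne
  have h2 : pts I x ∩ pts I y = pts I x := Set.inter_eq_left.2 h
  rw [h2, D.ncard_pts] at h1
  have := D.L_lt
  omega

lemma N_fix {y : X} {g : G} (hg : g ∈ D.N y) : g • y = y := by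
  symm
  apply D.eq_of_sub
  intro p hp
  have := (D.inv g p y).2 hp
  rwa [hg p hp] at this

lemma N_conj {y : X} {n : G} (g : G) (hn : n ∈ D.N y) : g * n * g⁻¹ ∈ D.N (g • y) := by
  intro p hp
  have h1 : I (g⁻¹ • p) y := by
    rw [← D.inv g, smul_inv_smul]; exact hp
  rw [mul_smul, mul_smul, hn _ h1, smul_inv_smul]

lemma off_smul {y : X} {g : G} (hg : g ∈ D.N y) {b : P} (hb : ¬ I b y) : ¬ I (g • b) y := by
  intro h
  apply hb
  rw [← D.inv g, D.N_fix hg]
  exact h

lemma moved_meet {y z : X} {w : G} (hw : w ∈ D.N y) (hzy : z ≠ y) (hz : w • z ≠ z) :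
    pts I z ∩ pts I (w • z) = pts I z ∩ pts I y := by
  symm
  refine eq_of_sub_card (D.ncard_meet hzy) (D.ncard_meet (Ne.symm hz)) ?_
  rintro p ⟨h1, h2⟩
  refine ⟨h1, ?_⟩
  have := (D.inv w p z).2 h1
  rwa [hw p h2] at this

/-- (1) a block through `b` is fixed iff it contains the image of `b`. -/
lemma fix_iff {y z : X} {w : G} {b : P} (hw : w ∈ D.N y) (hb : ¬ I b y) (hbz : I b z) :
    w • z = z ↔ I (w • b) z := by
  constructor
  · intro h
    have := (D.inv w b z).2 hbz
    rwa [h] at this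
  · intro h
    by_contra hne
    have hzy : z ≠ y := by rintro rfl; exact hb hbz
    have h1 : w • b ∈ pts I z ∩ pts I (w • z) := ⟨h, (D.inv w b z).2 hbz⟩
    rw [D.moved_meet hw hzy hne] at h1
    exact D.off_smul hw hb h1.2

/-- the fixed blocks through a moved point. -/
lemma fixed_through {y : X} {w : G} {b : P} (hw : w ∈ D.N y) (hb : ¬ I b y) :
    {z | w • z = z ∧ I b z} = bls I b ∩ bls I (w • b) := by
  ext z
  simp only [Set.mem_ofPred_eq, Set.mem_inter_iff, bls]
  constructor
  · rintro ⟨h1, h2⟩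
    exact ⟨h2, (D.fix_iff hw hb h2).1 h1⟩
  · rintro ⟨h1, h2⟩
    exact ⟨(D.fix_iff hw hb h1).2 h2, h1⟩

/-- (f) -/
lemma TI {y z : X} {w : G} (hy : w ∈ D.N y) (hz : w ∈ D.N z) (hyz : y ≠ z) : w = 1 := by
  apply D.faith
  intro a
  by_contra ha
  have hay : ¬ I a y := fun h => ha (hy a h)
  have haz : ¬ I a z := fun h => ha (hz a h)
  -- blocks through `a`, moved
  have h1 : (bls I a \ (bls I a ∩ bls I (w • a))).ncard = K - L := by
    rw [Set.ncard_sdiff Set.inter_subset_left (Set.toFinite _), D.ncard_bls,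
      D.ncard_join (Ne.symm ha)]
  have h2 := D.KL_two
  obtain ⟨u, u', hu, hu', hne⟩ : ∃ u u', u ∈ bls I a \ (bls I a ∩ bls I (w • a)) ∧
      u' ∈ bls I a \ (bls I a ∩ bls I (w • a)) ∧ u ≠ u' := by
    have h3 : 1 < (bls I a \ (bls I a ∩ bls I (w • a))).ncard := by rw [h1]; omega
    obtain ⟨u, hu, u', hu', h⟩ := (Set.one_lt_ncard (Set.toFinite _)).1 h3
    exact ⟨u, u', hu, hu', h⟩
  have key : ∀ u, u ∈ bls I a \ (bls I a ∩ bls I (w • a)) → pts I y ∩ pts I z ⊆ pts I u := by
    intro u hu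
    have hua : I a u := hu.1
    have hnf : w • u ≠ u := by
      intro h
      exact hu.2 ⟨hua, (D.fix_iff hy hay hua).1 h⟩
    have huy : u ≠ y := by rintro rfl; exact hay hua
    have huz : u ≠ z := by rintro rfl; exact haz hua
    have e1 := D.moved_meet hy huy hnf
    have e2 := D.moved_meet hz huz hnf
    have e3 : pts I u ∩ pts I y = pts I y ∩ pts I z := by
      refine eq_of_sub_card (D.ncard_meet huy) (D.ncard_meet hyz) ?_
      rintro p hp
      refine ⟨hp.2, ?_⟩
      rw [← e1, e2] at hp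
      exact hp.2
    rw [← e3]
    exact Set.inter_subset_left
  have h3 : insert a (pts I y ∩ pts I z) ⊆ pts I u ∩ pts I u' := by
    rintro p (rfl | hp)
    · exact ⟨hu.1, hu'.1⟩
    · exact ⟨key u hu hp, key u' hu' hp⟩
  have h4 := Set.ncard_le_ncard h3 (Set.toFinite _)
  rw [Set.ncard_insert_of_notMem (fun h => hay h.1) (Set.toFinite _), D.ncard_meet hyz,
    D.ncard_meet hne] at h4
  omega

lemma exists_block_sep {p q : P} (h : p ≠ q) : ∃ z, I p z ∧ ¬ I q z := by
  have h1 := D.ncard_join h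
  have h2 := D.ncard_bls p
  have h3 := D.L_lt
  by_contra hcon
  push Not at hcon
  have : bls I p ∩ bls I q = bls I p := Set.inter_eq_left.2 hcon
  rw [this, h2] at h1
  omega

lemma exists_block_join (p q : P) : ∃ z, I p z ∧ I q z := by
  by_cases h : p = q
  · subst h
    obtain ⟨x, hx⟩ := D.exXP p
    exact ⟨x, hx, hx⟩
  have h1 := D.ncard_join h
  have h2 := D.L_pos
  obtain ⟨z, hz⟩ : (bls I p ∩ bls I q).Nonempty := by
    rw [← Set.ncard_pos (Set.toFinite _), h1]; omega
  exact ⟨z, hz.1, hz.2⟩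

/-- (e): at most one fixed point off `y`. -/
lemma center_unique {y : X} {w : G} (hw : w ∈ D.N y) (hw1 : w ≠ 1) {p q : P} (hp : ¬ I p y)
    (hq : ¬ I q y) (hwp : w • p = p) (hwq : w • q = q) : p = q := by
  by_contra hpq
  obtain ⟨z, hpz, hqz⟩ := D.exists_block_sep hpq
  apply hw1
  have hzy : y ≠ z := by rintro rfl; exact hp hpz
  refine D.TI hw ?_ hzy
  intro a haz
  by_contra ha
  have hay : ¬ I a y := fun h => ha (hw a h)
  have key : ∀ r, ¬ I r y → w • r = r → bls I a ∩ bls I r = bls I a ∩ bls I (w • a) := by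
    intro r hr hwr
    have har : a ≠ r := by rintro rfl; exact ha hwr
    refine eq_of_sub_card (D.ncard_join har) (D.ncard_join (Ne.symm ha)) ?_
    rintro u ⟨h1, h2⟩
    refine ⟨h1, ?_⟩
    have : w • u = u := (D.fix_iff hw hr h2).2 (by rw [hwr]; exact h2)
    exact (D.fix_iff hw hay h1).1 this
  have h1 : z ∈ bls I a ∩ bls I p := ⟨haz, hpz⟩
  rw [key p hp hwp, ← key q hq hwq] at h1
  exact hqz h1.2

/-- a homology fixes exactly `y` and the blocks through its centre. -/
lemma fix_hom {y : X} {w : G} (hw : w ∈ D.N y) (hw1 : w ≠ 1) {p : P} (hp : ¬ I p y)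
    (hwp : w • p = p) : {z : X | w • z = z}.ncard = K + 1 := by
  have : {z : X | w • z = z} = insert y (bls I p) := by
    ext z
    simp only [Set.mem_ofPred_eq, Set.mem_insert_iff, bls]
    constructor
    · intro hz
      by_cases hzy : z = y
      · exact Or.inl hzy
      right
      obtain ⟨b, hbz, hby⟩ : ∃ b, I b z ∧ ¬ I b y := by
        by_contra hcon
        push Not at hcon
        exact hzy (D.eq_of_sub hcon)
      by_cases hb : w • b = b
      · rw [D.center_unique hw hw1 hp hby hwp hb]; exact hbz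
      have hbp : b ≠ p := by rintro rfl; exact hb hwp
      have e : bls I b ∩ bls I p = bls I b ∩ bls I (w • b) := by
        refine eq_of_sub_card (D.ncard_join hbp) (D.ncard_join (Ne.symm hb)) ?_
        rintro u ⟨h1, h2⟩
        refine ⟨h1, ?_⟩
        have : w • u = u := (D.fix_iff hw hp h2).2 (by rw [hwp]; exact h2)
        exact (D.fix_iff hw hby h1).1 this
      have h1 : z ∈ bls I b ∩ bls I (w • b) := ⟨hbz, (D.fix_iff hw hby hbz).1 hz⟩
      rw [← e] at h1
      exact h1.2
    · rintro (rfl | h)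
      · exact D.N_fix hw
      · exact (D.fix_iff hw hp h).2 (by rw [hwp]; exact h)
  rw [this, Set.ncard_insert_of_notMem (show y ∉ bls I p from fun h => hp h) (Set.toFinite _),
    D.ncard_bls]

/-- an elation fixes exactly `K` blocks. -/
lemma fix_el {y : X} {w : G} (hw : w ∈ D.N y) (hel : ∀ p, ¬ I p y → w • p ≠ p) :
    {z : X | w • z = z}.ncard = K := by
  have hKL := D.L_lt
  have h := dc (S := (pts I y)ᶜ) (T := {z : X | w • z = z} \ {y}) (r := fun b z => I b z)
    (m := L) (n := K - L)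
    (by
      intro b hb
      have hb' : ¬ I b y := hb
      rw [← D.ncard_join (Ne.symm (hel b hb')), ← D.fixed_through hw hb']
      congr 1
      ext z
      simp only [Set.mem_ofPred_eq, Set.mem_sdiff, Set.mem_singleton_iff]
      constructor
      · rintro ⟨⟨h1, _⟩, h2⟩; exact ⟨h1, h2⟩
      · rintro ⟨h1, h2⟩
        exact ⟨⟨h1, by rintro rfl; exact hb' h2⟩, h2⟩)
    (by
      rintro z ⟨_, hzy⟩
      have hzy' : z ≠ y := hzy
      have : {a | a ∈ (pts I y)ᶜ ∧ I a z} = pts I z \ (pts I z ∩ pts I y) := by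
        ext a
        simp only [Set.mem_ofPred_eq, Set.mem_compl_iff, Set.mem_sdiff, Set.mem_inter_iff, pts]
        tauto
      rw [this, Set.ncard_sdiff Set.inter_subset_left (Set.toFinite _), D.ncard_pts,
        D.ncard_meet hzy'])
  rw [Set.ncard_compl, D.ncard_pts, D.params2] at h
  have h1 := Nat.eq_of_mul_eq_mul_right (show 0 < K - L by omega) h
  rw [Set.ncard_sdiff_singleton_of_mem (show y ∈ {z : X | w • z = z} from D.N_fix hw)] at h1
  have h2 : 0 < {z : X | w • z = z}.ncard := by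
    rw [Set.ncard_pos (Set.toFinite _)]
    exact ⟨y, D.N_fix hw⟩
  have := D.hK
  omega

end Des

end H48.It
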