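import Mathlib
import Cfsg.Agent.Lib.H48.It1

set_option autoImplicit false
set_option linter.unusedSectionVars false

/-! Symmetric designs with a 2-transitive group: pencils, elations and homologies. -/

namespace H48.It

variable {G P X : Type*} [Group G] [MulAction G P] [MulAction G X] {I : P → X → Prop} {K L : ℕ}
  [Finite G] [Finite P] [Finite X]

/-- the members other than `x` of the pencil of `x`, `z`. -/
def pen (I : P → X → Prop) (x z : X) : Set X := {u | u ≠ x ∧ pts I x ∩ pts I u = pts I x ∩ pts I z}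

namespace Des

variable (D : Des G P X I K L)
include D

lemma mem_pen_iff {x z u : X} (hxz : x ≠ z) :
    u ∈ pen I x z ↔ u ≠ x ∧ ∀ p, I p x → I p z → I p u := by
  constructor
  · rintro ⟨h1, h2⟩
    refine ⟨h1, fun p hp hp' => ?_⟩
    have : p ∈ pts I x ∩ pts I z := ⟨hp, hp'⟩
    rw [← h2] at this
    exact this.2
  · rintro ⟨h1, h2⟩
    refine ⟨h1, Eq.symm ?_⟩
    exact eq_of_sub_card (D.ncard_meet hxz) (D.ncard_meet (Ne.symm h1))
      (fun p hp => ⟨hp.1, h2 p hp.1 hp.2⟩)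

/-- the pencils seen from the other member. -/
lemma mem_pen_symm {x z u : X} (hxz : x ≠ z) (hux : u ≠ x) (huz : u ≠ z) :
    u ∈ pen I x z ↔ u ∈ pen I z x := by
  rw [D.mem_pen_iff hxz, D.mem_pen_iff (Ne.symm hxz)]
  constructor
  · rintro ⟨_, h⟩; exact ⟨huz, fun p h1 h2 => h p h2 h1⟩
  · rintro ⟨_, h⟩; exact ⟨hux, fun p h1 h2 => h p h2 h1⟩

lemma pts_smul (g : G) (x : X) : pts I (g • x) = (fun p => g • p) '' pts I x := by
  ext p
  constructor
  · intro hp
    refine ⟨g⁻¹ • p, ?_, smul_inv_smul g p⟩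
    have : I (g • (g⁻¹ • p)) (g • x) := by rw [smul_inv_smul]; exact hp
    exact (D.inv g _ x).1 this
  · rintro ⟨q, hq, rfl⟩
    exact (D.inv g q x).2 hq

lemma pen_smul (g : G) (x z : X) : pen I (g • x) (g • z) = (fun u => g • u) '' pen I x z := by
  have hinj : Function.Injective (fun p : P => g • p) := MulAction.injective g
  ext u
  constructor
  · rintro ⟨h1, h2⟩
    refine ⟨g⁻¹ • u, ⟨?_, ?_⟩, smul_inv_smul g u⟩
    · rintro h
      exact h1 (by rw [← h, smul_inv_smul])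
    · apply (Set.image_injective.2 hinj)
      rw [Set.image_inter hinj, Set.image_inter hinj, ← D.pts_smul, ← D.pts_smul, ← D.pts_smul,
        smul_inv_smul]
      exact h2
  · rintro ⟨w, ⟨h1, h2⟩, rfl⟩
    refine ⟨fun h => h1 (MulAction.injective g h), ?_⟩
    change pts I (g • x) ∩ pts I (g • w) = _
    rw [D.pts_smul, D.pts_smul, D.pts_smul, ← Set.image_inter hinj, ← Set.image_inter hinj, h2]

/-- the pencils have the same size. -/
lemma exists_k : ∃ k : ℕ, ∀ x z : X, x ≠ z → (pen I x z).ncard = k := by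
  by_cases h : ∃ x z : X, x ≠ z
  · obtain ⟨x, z, hxz⟩ := h
    refine ⟨(pen I x z).ncard, fun x' z' h' => ?_⟩
    obtain ⟨g, hg, hg'⟩ := D.tt x z x' z' hxz h'
    rw [← hg, ← hg', D.pen_smul, Set.ncard_image_of_injective _ (MulAction.injective g)]
  · push Not at h
    exact ⟨0, fun x z hxz => absurd (h x z) hxz⟩

lemma dvd_K {k : ℕ} (hk : ∀ x z : X, x ≠ z → (pen I x z).ncard = k) : k ∣ K - 1 := by
  obtain ⟨x⟩ := D.exX
  obtain ⟨b, hb⟩ := D.exPX x
  have h := dvd_of_fibers (bls I b \ {x}) (fun z => pts I x ∩ pts I z) (k := k) (by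
    rintro z ⟨hz, hzx⟩
    have hzx' : z ≠ x := hzx
    rw [← hk x z (Ne.symm hzx')]
    congr 1
    ext u
    constructor
    · rintro ⟨⟨_, h1⟩, h2⟩
      exact ⟨h1, h2⟩
    · rintro ⟨h1, h2⟩
      refine ⟨⟨?_, h1⟩, h2⟩
      have : b ∈ pts I x ∩ pts I z := ⟨hb, hz⟩
      rw [← h2] at this
      exact this.2)
  rwa [Set.ncard_sdiff_singleton_of_mem (show x ∈ bls I b from hb), D.ncard_bls] at h

/-- (3) fixed blocks are closed under pencils not through `y`. -/
lemma fixed_pencil {y x z u : X} {w : G} (hw : w ∈ D.N y) (hxy : x ≠ y) (hx : w • x = x)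
    (hz : w • z = z) (hzx : z ≠ x) (hzy : z ∉ pen I x y) (hu : u ∈ pen I x z) : w • u = u := by
  obtain ⟨b, hbx, hbz, hby⟩ : ∃ b, I b x ∧ I b z ∧ ¬ I b y := by
    by_contra hcon
    push Not at hcon
    apply hzy
    refine ⟨hzx, ?_⟩
    exact eq_of_sub_card (D.ncard_meet (Ne.symm hzx)) (D.ncard_meet hxy)
      (fun p hp => ⟨hp.1, hcon p hp.1 hp.2⟩)
  have h1 := (D.mem_pen_iff (Ne.symm hzx)).1 hu
  refine (D.fix_iff hw hby (h1.2 b hbx hbz)).2 (h1.2 _ ?_ ?_)
  · have := (D.inv w b x).2 hbx; rwa [hx] at this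
  · have := (D.inv w b z).2 hbz; rwa [hz] at this

/-- (4) numerical form. -/
lemma fixed_count {k : ℕ} (hk : ∀ x z : X, x ≠ z → (pen I x z).ncard = k) {y x : X} {w : G}
    (hw : w ∈ D.N y) (hxy : x ≠ y) (hx : w • x = x) :
    ∃ j, {z : X | w • z = z}.ncard = 1 + {u | u ∈ pen I x y ∧ w • u = u}.ncard + k * j := by
  have h := dvd_of_fibers ({z : X | w • z = z} \ (insert x (pen I x y)))
    (fun z => pts I x ∩ pts I z) (k := k) (by
      rintro z ⟨hz, hzn⟩
      rw [Set.mem_insert_iff, not_or] at hzn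
      rw [← hk x z (Ne.symm hzn.1)]
      congr 1
      ext u
      constructor
      · rintro ⟨⟨h1, h2⟩, h3⟩
        rw [Set.mem_insert_iff, not_or] at h2
        exact ⟨h2.1, h3⟩
      · intro hu
        refine ⟨⟨D.fixed_pencil hw hxy hx hz hzn.1 hzn.2 hu, ?_⟩, hu.2⟩
        rw [Set.mem_insert_iff, not_or]
        refine ⟨hu.1, fun h => hzn.2 ⟨hzn.1, ?_⟩⟩
        rw [← hu.2, h.2])
  obtain ⟨j, hj⟩ := h
  refine ⟨j, ?_⟩
  have h1 : {z : X | w • z = z} =
      insert x {u | u ∈ pen I x y ∧ w • u = u} ∪ ({z : X | w • z = z} \ (insert x (pen I x y))) := by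
    ext z
    simp only [Set.mem_ofPred_eq, Set.mem_union, Set.mem_insert_iff, Set.mem_sdiff]
    constructor
    · intro h
      by_cases h2 : z = x
      · exact Or.inl (Or.inl h2)
      by_cases h3 : z ∈ pen I x y
      · exact Or.inl (Or.inr ⟨h3, h⟩)
      · exact Or.inr ⟨h, by tauto⟩
    · rintro ((rfl | h) | h)
      · exact hx
      · exact h.2
      · exact h.1
  rw [h1, Set.ncard_union_eq ?_ (Set.toFinite _) (Set.toFinite _), hj, Set.ncard_insert_of_notMem
    (fun h => h.1.1 rfl) (Set.toFinite _)]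
  · ring
  · rw [Set.disjoint_left]
    rintro z (rfl | h2) h3
    · exact h3.2 (Set.mem_insert _ _)
    · exact h3.2 (Set.mem_insert_of_mem _ h2.1)

lemma mem_pen_self {x y : X} (hxy : x ≠ y) : y ∈ pen I x y := ⟨Ne.symm hxy, rfl⟩

/-- an elation fixes a pencil memberwise as soon as it fixes a block of it. -/
lemma el_pencil {k : ℕ} (hk : ∀ x z : X, x ≠ z → (pen I x z).ncard = k) {y x : X} {w : G}
    (hw : w ∈ D.N y) (hel : ∀ p, ¬ I p y → w • p ≠ p) (hxy : x ≠ y) (hx : w • x = x) :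
    ∀ u ∈ pen I x y, w • u = u := by
  obtain ⟨j, hj⟩ := D.fixed_count hk hw hxy hx
  rw [D.fix_el hw hel] at hj
  obtain ⟨i, hi⟩ := D.dvd_K hk
  have h1 : {u | u ∈ pen I x y ∧ w • u = u}.ncard ≤ (pen I x y).ncard :=
    Set.ncard_le_ncard (fun u hu => hu.1) (Set.toFinite _)
  rw [hk x y hxy] at h1
  have h2 : 0 < {u | u ∈ pen I x y ∧ w • u = u}.ncard := by
    rw [Set.ncard_pos (Set.toFinite _)]
    exact ⟨y, D.mem_pen_self hxy, D.N_fix hw⟩
  have hK := D.hK
  have h3 : k ∣ {u | u ∈ pen I x y ∧ w • u = u}.ncard := by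
    have e : {u | u ∈ pen I x y ∧ w • u = u}.ncard + k * j = k * i := by omega
    exact (Nat.dvd_add_left ⟨j, rfl⟩).1 ⟨i, e⟩
  have h4 := Nat.le_of_dvd h2 h3
  have h5 : {u | u ∈ pen I x y ∧ w • u = u} = pen I x y :=
    Set.eq_of_subset_of_ncard_le (fun u hu => hu.1) (by rw [hk x y hxy]; exact h4) (Set.toFinite _)
  intro u hu
  rw [← h5] at hu
  exact hu.2

/-- a homology fixes only two members of a pencil. -/
lemma hom_pencil {k : ℕ} (hk : ∀ x z : X, x ≠ z → (pen I x z).ncard = k) (hk2 : 2 ≤ k) {y x : X}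
    {w : G} (hw : w ∈ D.N y) (hw1 : w ≠ 1) {p : P} (hp : ¬ I p y) (hwp : w • p = p) (hxy : x ≠ y)
    (hx : w • x = x) : ¬ ∀ u ∈ pen I x y, w • u = u := by
  intro hall
  obtain ⟨j, hj⟩ := D.fixed_count hk hw hxy hx
  rw [D.fix_hom hw hw1 hp hwp] at hj
  obtain ⟨i, hi⟩ := D.dvd_K hk
  have h1 : {u | u ∈ pen I x y ∧ w • u = u} = pen I x y := by
    ext u
    exact ⟨fun h => h.1, fun h => ⟨h, hall u h⟩⟩
  rw [h1, hk x y hxy] at hj
  have hK := D.hK
  have h2 : k ∣ 1 := by
    have e : k * i + 1 = k + k * j := by omega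
    exact (Nat.dvd_add_right (⟨i, rfl⟩ : k ∣ k * i)).1 (e ▸ ⟨1 + j, by ring⟩)
  have := Nat.le_of_dvd one_pos h2
  omega

/-- the image of a block under an element of `N y` stays in the pencil. -/
lemma smul_mem_pen {y x : X} {n : G} (hn : n ∈ D.N y) (hxy : x ≠ y) : n • x ∈ pen I y x := by
  rw [D.mem_pen_iff (Ne.symm hxy)]
  refine ⟨?_, ?_⟩
  · intro h
    apply hxy
    have : n • x = n • y := by rw [h, D.N_fix hn]
    exact smul_left_cancel n this
  · intro p hp hp'
    have := (D.inv n p x).2 hp'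
    rwa [hn p hp] at this

lemma exists_moved {y : X} {n : G} (hn : n ∈ D.N y) (hn1 : n ≠ 1) : ∃ x, x ≠ y ∧ n • x ≠ x := by
  obtain ⟨a, ha⟩ : ∃ a, n • a ≠ a := by
    by_contra hcon
    push Not at hcon
    exact hn1 (D.faith n hcon)
  have hay : ¬ I a y := fun h => ha (hn a h)
  obtain ⟨z, h1, h2⟩ := D.exists_block_sep (Ne.symm ha)
  refine ⟨z, by rintro rfl; exact hay h1, fun h => h2 ((D.fix_iff hn hay h1).1 h)⟩

lemma two_le_k {k : ℕ} (hk : ∀ x z : X, x ≠ z → (pen I x z).ncard = k) {y : X} {n : G}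
    (hn : n ∈ D.N y) (hn1 : n ≠ 1) : 2 ≤ k := by
  obtain ⟨x, hxy, hx⟩ := D.exists_moved hn hn1
  rw [← hk y x (Ne.symm hxy)]
  have : 1 < (pen I y x).ncard := by
    rw [Set.one_lt_ncard (Set.toFinite _)]
    exact ⟨x, D.mem_pen_self (Ne.symm hxy), n • x, D.smul_mem_pen hn hxy, Ne.symm hx⟩
  exact this

/-- (5) the group of elations. -/
def E (D : Des G P X I K L) (y : X) : Subgroup G where
  carrier := {w | w ∈ D.N y ∧ (w = 1 ∨ ∀ p, ¬ I p y → w • p ≠ p)}
  one_mem' := ⟨(D.N y).one_mem, Or.inl rfl⟩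
  inv_mem' := by
    rintro w ⟨h1, h2⟩
    refine ⟨(D.N y).inv_mem h1, ?_⟩
    rcases h2 with rfl | h2
    · exact Or.inl inv_one
    · right
      intro p hp h
      apply h2 p hp
      rw [inv_smul_eq_iff] at h
      exact h.symm
  mul_mem' := by
    rintro a b ⟨ha, ha2⟩ ⟨hb, hb2⟩
    refine ⟨(D.N y).mul_mem ha hb, ?_⟩
    rcases ha2 with rfl | ha2
    · rw [one_mul]; exact hb2
    rcases hb2 with rfl | hb2
    · rw [mul_one]; exact Or.inr ha2
    by_cases hab : a * b = 1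
    · exact Or.inl hab
    right
    intro p hp hfix
    obtain ⟨k, hk⟩ := D.exists_k
    have hk2 := D.two_le_k hk ((D.N y).mul_mem ha hb) hab
    obtain ⟨z, hpz, hqz⟩ := D.exists_block_join p (b • p)
    have hzy : z ≠ y := by rintro rfl; exact hp hpz
    have hbz : b • z = z := (D.fix_iff hb hp hpz).2 hqz
    have haz : a • z = z := (D.fix_iff ha (D.off_smul hb hp) hqz).2 (by
      rw [← mul_smul, hfix]; exact hpz)
    have h1 := D.el_pencil hk ha ha2 hzy haz
    have h2 := D.el_pencil hk hb hb2 hzy hbz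
    refine D.hom_pencil hk hk2 ((D.N y).mul_mem ha hb) hab hp hfix hzy (by rw [mul_smul, hbz, haz])
      (fun u hu => ?_)
    rw [mul_smul, h2 u hu, h1 u hu]

lemma E_le {y : X} {w : G} (h : w ∈ D.E y) : w ∈ D.N y := h.1

lemma E_el {y : X} {w : G} (h : w ∈ D.E y) (h1 : w ≠ 1) : ∀ p, ¬ I p y → w • p ≠ p :=
  h.2.resolve_left h1

lemma E_conj {y : X} {n : G} (g : G) (hn : n ∈ D.E y) : g * n * g⁻¹ ∈ D.E (g • y) := by
  refine ⟨D.N_conj g hn.1, ?_⟩
  rcases hn.2 with rfl | h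
  · left; simp
  · right
    intro p hp hfix
    have h1 : ¬ I (g⁻¹ • p) y := by
      rw [← D.inv g, smul_inv_smul]; exact hp
    apply h _ h1
    rw [mul_smul, mul_smul] at hfix
    rw [eq_inv_smul_iff, hfix]

lemma E_card {y : X} {w : G} (h : w ∈ D.E y) (h1 : w ≠ 1) : {z : X | w • z = z}.ncard = K :=
  D.fix_el (D.E_le h) (D.E_el h h1)

/-- conjugates by elements of `N y` fix the same blocks. -/
lemma E_fix_conj {y z : X} {a n : G} (ha : a ∈ D.E y) (hn : n ∈ D.N y) (hz : a • z = z) :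
    (n * a * n⁻¹) • z = z := by
  obtain ⟨k, hk⟩ := D.exists_k
  by_cases ha1 : a = 1
  · rw [ha1]; simp
  by_cases hzy : z = y
  · rw [hzy, mul_smul, mul_smul, D.N_fix ((D.N y).inv_mem hn), D.N_fix (D.E_le ha), D.N_fix hn]
  have h1 := D.el_pencil hk (D.E_le ha) (D.E_el ha ha1) hzy hz
  have h2 : a • (n⁻¹ • z) = n⁻¹ • z := by
    by_cases h3 : n⁻¹ • z = z
    · rw [h3, hz]
    have h4 := D.smul_mem_pen ((D.N y).inv_mem hn) hzy
    exact h1 _ ((D.mem_pen_symm (Ne.symm hzy) h4.1 h3).1 h4)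
  rw [mul_smul, mul_smul, h2, smul_inv_smul]

/-- (7) the elation group is abelian. -/
lemma E_comm {y : X} {a b : G} (ha : a ∈ D.E y) (hb : b ∈ D.E y) : a * b = b * a := by
  obtain ⟨k, hk⟩ := D.exists_k
  -- elements with different fixed blocks commute
  have key : ∀ a b : G, a ∈ D.E y → b ∈ D.E y → a ≠ 1 → b ≠ 1 →
      {z : X | a • z = z} ≠ {z : X | b • z = z} → a * b = b * a := by
    intro a b ha hb ha1 hb1 hne
    by_contra hab
    have hc : a * b * a⁻¹ * b⁻¹ ∈ D.E y :=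
      (D.E y).mul_mem ((D.E y).mul_mem ((D.E y).mul_mem ha hb) ((D.E y).inv_mem ha))
        ((D.E y).inv_mem hb)
    have hc1 : a * b * a⁻¹ * b⁻¹ ≠ 1 := by
      intro h
      apply hab
      rw [mul_inv_eq_one, mul_inv_eq_iff_eq_mul] at h
      exact h
    apply hne
    have h1 : {z : X | a • z = z} = {z : X | (a * b * a⁻¹ * b⁻¹) • z = z} := by
      refine eq_of_sub_card (D.E_card ha ha1) (D.E_card hc hc1) ?_
      intro z hz
      have hz' : a⁻¹ • z = z := by rw [inv_smul_eq_iff]; exact (show a • z = z from hz).symm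
      have h2 := D.E_fix_conj ((D.E y).inv_mem ha) (D.E_le hb) hz'
      change (a * b * a⁻¹ * b⁻¹) • z = z
      have e : a * b * a⁻¹ * b⁻¹ = a * (b * a⁻¹ * b⁻¹) := by group
      rw [e, mul_smul, h2]
      exact hz
    have h2 : {z : X | b • z = z} = {z : X | (a * b * a⁻¹ * b⁻¹) • z = z} := by
      refine eq_of_sub_card (D.E_card hb hb1) (D.E_card hc hc1) ?_
      intro z hz
      have hz' : b⁻¹ • z = z := by rw [inv_smul_eq_iff]; exact (show b • z = z from hz).symm
      have h2 := D.E_fix_conj hb (D.E_le ha) hz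
      change (a * b * a⁻¹ * b⁻¹) • z = z
      rw [mul_smul, hz', h2]
    rw [h1, h2]
  by_cases ha1 : a = 1
  · rw [ha1, one_mul, mul_one]
  by_cases hb1 : b = 1
  · rw [hb1, one_mul, mul_one]
  by_cases hab : {z : X | a • z = z} = {z : X | b • z = z}
  swap
  · exact key a b ha hb ha1 hb1 hab
  -- an elation with other fixed blocks
  obtain ⟨d, hd, hd1, hda⟩ : ∃ d ∈ D.E y, d ≠ 1 ∧ {z : X | d • z = z} ≠ {z : X | a • z = z} := by
    by_contra hcon
    push Not at hcon
    have hcard := D.E_card ha ha1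
    have hK := D.hK
    obtain ⟨z, hz, hzy⟩ : ∃ z, a • z = z ∧ z ≠ y := by
      by_contra hc
      push Not at hc
      have : {z : X | a • z = z}.ncard ≤ ({y} : Set X).ncard :=
        Set.ncard_le_ncard (fun z hz => hc z hz) (Set.toFinite _)
      rw [Set.ncard_singleton] at this
      omega
    obtain ⟨x, hxy, hx⟩ := D.exists_moved (D.E_le ha) ha1
    obtain ⟨g, hg, hg'⟩ := D.tt y x y z (Ne.symm hxy) (Ne.symm hzy)
    have h1 : g * a * g⁻¹ ∈ D.E y := by
      have := D.E_conj g ha; rwa [hg] at this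
    have h2 : g * a * g⁻¹ ≠ 1 := by
      intro h
      apply ha1
      rw [mul_inv_eq_one, mul_eq_left] at h
      exact h
    have h3 := hcon _ h1 h2
    have h4 : z ∈ {z : X | (g * a * g⁻¹) • z = z} := by rw [h3]; exact hz
    have h5 : (g * a * g⁻¹) • z = z := h4
    rw [← hg', mul_smul, mul_smul, inv_smul_smul] at h5
    exact hx (smul_left_cancel g h5)
  have h1 : d * b = b * d := key d b hd hb hd1 hb1 (by rw [← hab]; exact hda)
  have had1 : a * d ≠ 1 := by
    intro h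
    apply hda
    have : d = a⁻¹ := eq_inv_of_mul_eq_one_right h
    rw [this]
    ext z
    change a⁻¹ • z = z ↔ a • z = z
    rw [inv_smul_eq_iff]
    exact eq_comm
  have h2 : (a * d) * b = b * (a * d) := by
    refine key (a * d) b ((D.E y).mul_mem ha hd) hb had1 hb1 ?_
    rw [← hab]
    intro h
    apply hda
    symm
    refine eq_of_sub_card (D.E_card ha ha1) (D.E_card hd hd1) ?_
    intro z hz
    have h3 : z ∈ {z : X | (a * d) • z = z} := by rw [h]; exact hz
    have h4 : (a * d) • z = z := h3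
    have h5 : a • z = z := hz
    rw [mul_smul] at h4
    change d • z = z
    apply smul_left_cancel a
    rw [h4, h5]
  have h3 : a * (b * d) = b * a * d := by
    rw [← h1, ← mul_assoc, h2, mul_assoc]
  rw [← mul_assoc] at h3
  exact mul_right_cancel h3

end Des

end H48.It
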