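import Mathlib
import Cfsg.Agent.Lib.H48.It2

set_option autoImplicit false
set_option linter.unusedSectionVars false

/-! Symmetric designs with a 2-transitive group and an element fixing a block pointwise: an abelian
normal subgroup of the block stabilizer, not semiregular on the blocks. -/

namespace H48.It

/-- A group in which every nontrivial element fixes exactly one point of an invariant set fixes a
point. -/
theorem frob {M S : Type*} [Group M] [Finite M] [MulAction M S] [Finite S] [Nontrivial M]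
    (Y : Set S) (hY : ∀ (g : M) (p : S), p ∈ Y → g • p ∈ Y)
    (h1 : ∀ w : M, w ≠ 1 → ∃ p ∈ Y, w • p = p)
    (h2 : ∀ w : M, w ≠ 1 → ∀ p ∈ Y, ∀ q ∈ Y, w • p = p → w • q = q → p = q) :
    ∃ p ∈ Y, ∀ w : M, w • p = p := by
  classical
  by_contra hcon
  push Not at hcon
  have hidx : ∀ p : S, (MulAction.orbit M p).ncard * Nat.card (MulAction.stabilizer M p) =
      Nat.card M := by
    intro p
    rw [← MulAction.index_stabilizer, Subgroup.index_mul_card]
  have hst : ∀ p q : S, q ∈ MulAction.orbit M p → Nat.card (MulAction.stabilizer M q) =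
      Nat.card (MulAction.stabilizer M p) := by
    intro p q hq
    have e1 := hidx p
    have e2 := hidx q
    rw [MulAction.orbit_eq_iff.2 hq, ← e1] at e2
    have h0 : 0 < (MulAction.orbit M p).ncard := by
      rw [Set.ncard_pos (Set.toFinite _)]
      exact ⟨p, MulAction.mem_orbit_self p⟩
    exact Nat.eq_of_mul_eq_mul_left h0 e2
  have hYo : ∀ p ∈ Y, ∀ q ∈ MulAction.orbit M p, q ∈ Y := by
    rintro p hp q ⟨g, rfl⟩
    exact hY g p hp
  let U : S → Set M := fun p => {w | w ≠ 1 ∧ ∃ q ∈ MulAction.orbit M p, w • q = q}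
  have hU : ∀ p ∈ Y, (U p).ncard + (MulAction.orbit M p).ncard = Nat.card M := by
    intro p hp
    have h := dc (S := MulAction.orbit M p) (T := U p) (r := fun q w => w • q = q)
      (m := Nat.card (MulAction.stabilizer M p) - 1) (n := 1)
      (by
        intro q hq
        have : {w | w ∈ U p ∧ w • q = q} = ((MulAction.stabilizer M q : Subgroup M) : Set M) \ {1} := by
          ext w
          simp only [Set.mem_ofPred_eq, Set.mem_sdiff, SetLike.mem_coe, MulAction.mem_stabilizer_iff,
            Set.mem_singleton_iff]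
          constructor
          · rintro ⟨⟨h3, _⟩, h4⟩; exact ⟨h4, h3⟩
          · rintro ⟨h3, h4⟩; exact ⟨⟨h4, q, hq, h3⟩, h3⟩
        rw [this, Set.ncard_sdiff_singleton_of_mem (Subgroup.one_mem _), ← hst p q hq]
        rfl)
      (by
        rintro w ⟨hw1, q, hq, hwq⟩
        rw [Set.ncard_eq_one]
        refine ⟨q, ?_⟩
        ext r
        simp only [Set.mem_ofPred_eq, Set.mem_singleton_iff]
        constructor
        · rintro ⟨h3, h4⟩
          exact h2 w hw1 r (hYo p hp r h3) q (hYo p hp q hq) h4 hwq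
        · rintro rfl
          exact ⟨hq, hwq⟩)
    have h3 := hidx p
    have h4 : 0 < Nat.card (MulAction.stabilizer M p) := Nat.card_pos
    obtain ⟨s, hs⟩ : ∃ s, Nat.card (MulAction.stabilizer M p) = s + 1 :=
      ⟨Nat.card (MulAction.stabilizer M p) - 1, by omega⟩
    rw [hs] at h h3
    rw [mul_one, Nat.add_sub_cancel] at h
    rw [← h, ← h3]
    ring
  have hbig : ∀ p ∈ Y, (∃ w : M, w ≠ 1 ∧ w • p = p) → 2 * (MulAction.orbit M p).ncard ≤ Nat.card M := by
    rintro p _ ⟨w, hw1, hw⟩
    rw [← hidx p, mul_comm]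
    apply Nat.mul_le_mul_left
    have : Nontrivial (MulAction.stabilizer M p) :=
      ⟨⟨⟨w, hw⟩, 1, fun h => hw1 (congrArg Subtype.val h)⟩⟩
    exact Finite.one_lt_card
  obtain ⟨w, hw⟩ := exists_ne (1 : M)
  obtain ⟨p, hp, hwp⟩ := h1 w hw
  have hT2 : 2 ≤ (MulAction.orbit M p).ncard := by
    obtain ⟨g, hg⟩ := hcon p hp
    have : 1 < (MulAction.orbit M p).ncard := by
      rw [Set.one_lt_ncard (Set.toFinite _)]
      exact ⟨p, MulAction.mem_orbit_self p, g • p, MulAction.mem_orbit p g, Ne.symm hg⟩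
    exact this
  have e1 := hU p hp
  have e2 := hbig p hp ⟨w, hw, hwp⟩
  -- an element with centre outside the orbit
  obtain ⟨w', hw', hw'U⟩ : ∃ w' : M, w' ≠ 1 ∧ w' ∉ U p := by
    by_contra hc
    push Not at hc
    have h3 : ({1}ᶜ : Set M).ncard ≤ (U p).ncard := Set.ncard_le_ncard (fun w h => hc w h) (Set.toFinite _)
    rw [Set.ncard_compl, Set.ncard_singleton] at h3
    omega
  obtain ⟨p', hp', hwp'⟩ := h1 w' hw'
  have e3 := hU p' hp'
  have e4 := hbig p' hp' ⟨w', hw', hwp'⟩
  have hdis : Disjoint (U p) (U p') := by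
    rw [Set.disjoint_left]
    rintro x ⟨hx1, q, hq, hxq⟩ ⟨_, q', hq', hxq'⟩
    have h5 := h2 x hx1 q (hYo p hp q hq) q' (hYo p' hp' q' hq') hxq hxq'
    subst h5
    apply hw'U
    refine ⟨hw', p', ?_, hwp'⟩
    have h6 := MulAction.orbit_eq_iff.2 hq
    have h7 := MulAction.orbit_eq_iff.2 hq'
    rw [← h6, h7]
    exact MulAction.mem_orbit_self p'
  have h8 : (U p ∪ U p').ncard ≤ ({1}ᶜ : Set M).ncard := by
    refine Set.ncard_le_ncard ?_ (Set.toFinite _)
    rintro x (hx | hx)
    · exact hx.1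
    · exact hx.1
  rw [Set.ncard_union_eq hdis (Set.toFinite _) (Set.toFinite _), Set.ncard_compl,
    Set.ncard_singleton] at h8
  have : 0 < Nat.card M := Nat.card_pos
  omega

variable {G P X : Type*} [Group G] [MulAction G P] [MulAction G X] {I : P → X → Prop} {K L : ℕ}
  [Finite G] [Finite P] [Finite X]

namespace Des

variable (D : Des G P X I K L)
include D

/-- (6) there are elations. -/
lemma exists_el {y : X} {h : G} (hh : h ∈ D.N y) (hh1 : h ≠ 1) : ∃ w ∈ D.E y, w ≠ 1 := by
  by_contra hcon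
  push Not at hcon
  have hc : ∀ w ∈ D.N y, w ≠ 1 → ∃ p, ¬ I p y ∧ w • p = p := by
    intro w hw hw1
    by_contra h
    push Not at h
    exact hw1 (hcon w ⟨hw, Or.inr h⟩)
  have : Nontrivial (D.N y) := ⟨⟨⟨h, hh⟩, 1, fun e => hh1 (congrArg Subtype.val e)⟩⟩
  obtain ⟨p, hp, hfix⟩ := frob (M := D.N y) (S := P) {p | ¬ I p y}
    (fun g p hp => D.off_smul g.2 hp)
    (by
      rintro ⟨w, hw⟩ hw1
      obtain ⟨p, hp, hwp⟩ := hc w hw (fun e => hw1 (Subtype.ext e))
      exact ⟨p, hp, hwp⟩)
    (by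
      rintro ⟨w, hw⟩ hw1 p hp q hq hwp hwq
      exact D.center_unique hw (fun e => hw1 (Subtype.ext e)) hp hq hwp hwq)
  obtain ⟨g, hg, hgp⟩ := D.nofix y p
  have h1 : g⁻¹ * h * g ∈ D.N y := by
    have := D.N_conj g⁻¹ hh
    rw [inv_inv] at this
    have e : g⁻¹ • y = y := by rw [inv_smul_eq_iff, hg]
    rwa [e] at this
  have h2 : (g⁻¹ * h * g) • p = p := hfix ⟨_, h1⟩
  have h3 : h • (g • p) = g • p := by
    rw [mul_smul, mul_smul, inv_smul_eq_iff] at h2
    exact h2
  have h4 : h • p = p := hfix ⟨h, hh⟩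
  have h5 : ¬ I (g • p) y := by
    intro hI
    apply hp
    rw [← D.inv g, hg]
    exact hI
  exact hgp (D.center_unique hh hh1 h5 hp h3 h4)

/-- every block stabilizer contains an abelian normal subgroup which is not semiregular. -/
theorem main (hun : ∃ x, ∃ g : G, g ≠ 1 ∧ ∀ p, I p x → g • p = p) :
    Nonempty (H89.ON.Dat G X) := by
  obtain ⟨x, g, hg1, hg⟩ := hun
  have hgN : g ∈ D.N x := hg
  obtain ⟨w, hw, hw1⟩ := D.exists_el hgN hg1
  -- `w` fixes another block
  have hcard := D.E_card hw hw1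
  have hK := D.hK
  obtain ⟨z, hz, hzx⟩ : ∃ z, w • z = z ∧ z ≠ x := by
    by_contra hc
    push Not at hc
    have : {z : X | w • z = z}.ncard ≤ ({x} : Set X).ncard :=
      Set.ncard_le_ncard (fun z hz => hc z hz) (Set.toFinite _)
    rw [Set.ncard_singleton] at this
    omega
  refine ⟨{ N := D.E, conj := fun g x n hn => D.E_conj g hn, fix := fun x n hn => D.N_fix (D.E_le hn),
            comm := fun x a b ha hb => D.E_comm ha hb, ne := ?_, faith := ?_, tt := D.tt }⟩
  · intro a b hab
    obtain ⟨g, hg, hg'⟩ := D.tt x z a b (Ne.symm hzx) hab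
    refine ⟨g * w * g⁻¹, ?_, ?_, ?_⟩
    · have := D.E_conj g hw; rwa [hg] at this
    · intro h
      apply hw1
      rw [mul_inv_eq_one, mul_eq_left] at h
      exact h
    · rw [← hg', mul_smul, mul_smul, inv_smul_smul, hz]
  · intro g hg
    apply D.faith
    intro p
    by_contra hne
    obtain ⟨z, h1, h2⟩ := D.exists_block_sep (Ne.symm hne)
    apply h2
    have := (D.inv g p z).2 h1
    rwa [hg z] at this

end Des

end H48.It
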