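import Cfsg.Agent.Lib.H48.It3
import Cfsg.Agent.Lib.H8.Ito1
import Cfsg.Agent.Lib.H89.ON11
set_option autoImplicit false
set_option linter.unusedSectionVars false

/-! Ito's theorem: the design of the cosets of `H`. -/

namespace H48.It
open MulAction

section
variable {G Ω : Type*} [Group G] [Finite G] [MulAction G Ω] [FaithfulSMul G Ω] [Finite Ω]

theorem exists_des (h2 : IsMultiplyPretransitive G Ω 2) (H : Subgroup G) (hidx : H.index = Nat.card Ω)
    (hnt : ¬ IsPretransitive H Ω) (hfix : ∀ a : Ω, ∃ h : H, h • a ≠ a)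
    (hunf : ∃ a : Ω, ∃ h : H, h ≠ 1 ∧ ∀ b ∈ orbit H a, h • b = b) :
    ∃ (I : Ω → (G ⧸ H) → Prop) (K L : ℕ), H48.It.Des G Ω (G ⧸ H) I K L ∧
      ∃ x, ∃ g : G, g ≠ 1 ∧ ∀ p, I p x → g • p = p := by
  classical
  obtain ⟨a, h₀, hh₀, hh₀'⟩ := hunf
  have : Fintype Ω := Fintype.ofFinite Ω
  have : Fintype (G ⧸ H) := Fintype.ofFinite _
  have h2' : ∀ a b a' b' : Ω, a ≠ b → a' ≠ b' → ∃ g : G, g • a = a' ∧ g • b = b' :=
    fun a b a' b' h h' => is_two_pretransitive_iff.mp h2 h h'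
  have h1' : ∀ a b : Ω, ∃ g : G, g • a = b := by
    have : IsPretransitive G Ω := isPretransitive_of_is_two_pretransitive
    exact fun a b => exists_smul_eq G a b
  let I : G ⧸ H → Ω → Prop := fun x ω => ∃ g : G, (g : G ⧸ H) = x ∧ ∃ b ∈ orbit H a, g • b = ω
  have hI : ∀ (g : G) (x : G ⧸ H) (ω : Ω), I (g • x) (g • ω) ↔ I x ω := by
    have h : ∀ (g : G) (x : G ⧸ H) (ω : Ω), I x ω → I (g • x) (g • ω) := by
      rintro g x ω ⟨s, rfl, b, hb, rfl⟩
      exact ⟨g * s, rfl, b, hb, mul_smul _ _ _⟩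
    intro g x ω
    refine ⟨fun h' => ?_, h g x ω⟩
    have := h g⁻¹ _ _ h'
    rwa [inv_smul_smul, inv_smul_smul] at this
  have hI1 : ∀ ω, I ((1 : G) : G ⧸ H) ω ↔ ω ∈ orbit H a := by
    intro ω
    constructor
    · rintro ⟨g, hg, b, hb, rfl⟩
      have hg' : g ∈ H := by
        rw [QuotientGroup.eq] at hg
        simpa using hg
      exact (H8.Ito.smul_mem_orb hg').2 hb
    · intro h
      exact ⟨1, rfl, ω, h, one_smul _ _⟩
  have hXt : ∀ x x' : G ⧸ H, ∃ g : G, g • x = x' := fun x x' => exists_smul_eq G x x'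
  have hcard : Fintype.card (G ⧸ H) = Fintype.card Ω := by
    rw [← Nat.card_eq_fintype_card, ← Nat.card_eq_fintype_card, ← hidx]; rfl
  -- sizes
  have hk2 : 2 ≤ (H8.Ito.pts I ((1 : G) : G ⧸ H)).card := by
    obtain ⟨h, hh⟩ := hfix a
    refine Finset.one_lt_card.2 ⟨a, ?_, h • a, ?_, hh.symm⟩
    · rw [H8.Ito.mem_pts, hI1]; exact mem_orbit_self a
    · rw [H8.Ito.mem_pts, hI1]; exact mem_orbit a h
  obtain ⟨b, hb⟩ : ∃ b, b ∉ orbit H a := by
    by_contra h
    push Not at h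
    apply hnt
    constructor
    intro x y
    obtain ⟨s, hs⟩ := h x
    obtain ⟨t, ht⟩ := h y
    refine ⟨t * s⁻¹, ?_⟩
    simp only at hs ht
    rw [mul_smul, ← hs, inv_smul_smul, ht]
  have hkv : (H8.Ito.pts I ((1 : G) : G ⧸ H)).card + 2 ≤ Fintype.card Ω := by
    obtain ⟨h, hh⟩ := hfix b
    have e1 : 2 ≤ (H8.Ito.pts I ((1 : G) : G ⧸ H))ᶜ.card := by
      refine Finset.one_lt_card.2 ⟨b, ?_, h • b, ?_, hh.symm⟩
      · rw [Finset.mem_compl, H8.Ito.mem_pts, hI1]; exact hb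
      · rw [Finset.mem_compl, H8.Ito.mem_pts, hI1]
        intro h3
        exact hb ((H8.Ito.smul_mem_orb h.2).1 h3)
    rw [Finset.card_compl] at e1
    omega
  obtain ⟨l, D⟩ := H8.Ito.exists_des hI hcard hXt h1' h2' _ hk2 hkv
  -- orbits of H
  have hor := H64.TwoOrbits.card_orbits_le_two h2 hidx
  have ho : ∀ c d : Ω, (I ((1 : G) : G ⧸ H) c ↔ I ((1 : G) : G ⧸ H) d) →
      ∃ g : G, g • ((1 : G) : G ⧸ H) = ((1 : G) : G ⧸ H) ∧ g • c = d := by
    intro c d hcd
    rw [hI1, hI1] at hcd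
    have h3 : d ∈ orbit H c := by
      by_cases hc : c ∈ orbit H a
      · have hd := hcd.1 hc
        rw [← orbit_eq_iff] at hc
        rw [hc]; exact hd
      · have hd : d ∉ orbit H a := fun h => hc (hcd.2 h)
        by_contra hdc
        have : Finite (orbitRel.Quotient H Ω) := Quotient.finite _
        have := Fintype.ofFinite (orbitRel.Quotient H Ω)
        rw [Nat.card_eq_fintype_card] at hor
        have h4 : 2 < Fintype.card (orbitRel.Quotient H Ω) := by
          rw [Fintype.two_lt_card_iff]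
          refine ⟨Quotient.mk _ a, Quotient.mk _ c, Quotient.mk _ d, ?_, ?_, ?_⟩
          · intro h
            have h5 : a ∈ orbit H c := Quotient.exact h
            exact hc ((mem_orbit_symm).1 h5)
          · intro h
            have h5 : a ∈ orbit H d := Quotient.exact h
            exact hd ((mem_orbit_symm).1 h5)
          · intro h
            have h5 : c ∈ orbit H d := Quotient.exact h
            exact hdc ((mem_orbit_symm).1 h5)
        omega
    obtain ⟨s, hs⟩ := h3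
    refine ⟨s, ?_, hs⟩
    rw [MulAction.Quotient.smul_mk, smul_eq_mul, mul_one, QuotientGroup.eq]
    simp
  have htr := D.trans hI ((1 : G) : G ⧸ H) ho
  have hst : ∀ g : G, g ∈ stabilizer G (((1 : G) : G ⧸ H)) ↔ g ∈ H := by
    intro g
    rw [mem_stabilizer_iff, MulAction.Quotient.smul_mk, smul_eq_mul, mul_one, QuotientGroup.eq]
    simp
  refine ⟨fun p x => I x p, (H8.Ito.pts I ((1 : G) : G ⧸ H)).card, l, ?_, ((1 : G) : G ⧸ H), h₀, ?_, ?_⟩
  · constructor
    · exact fun g p x => hI g x p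
    · intro x
      rw [Nat.card_eq_fintype_card, Fintype.card_subtype]
      exact D.bk x
    · intro p
      rw [Nat.card_eq_fintype_card, Fintype.card_subtype]
      exact D.pk p
    · intro x y hxy
      rw [Nat.card_eq_fintype_card, Fintype.card_subtype, ← D.bl x y hxy]
      congr 1
      ext ω
      simp [H8.Ito.pts]
    · intro p q hpq
      rw [Nat.card_eq_fintype_card, Fintype.card_subtype, ← D.pl p q hpq]
      congr 1
      ext ω
      simp [H8.Ito.blk]
    · intro x y z w hxy hzw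
      obtain ⟨g, hg⟩ := hXt x ((1 : G) : G ⧸ H)
      obtain ⟨s, hs⟩ := hXt z ((1 : G) : G ⧸ H)
      obtain ⟨t, ht0, ht⟩ := htr (g • y) (s • w) (by rw [← hg]; exact fun h => hxy (MulAction.injective g h).symm)
        (by rw [← hs]; exact fun h => hzw (MulAction.injective s h).symm)
      refine ⟨s⁻¹ * t * g, ?_, ?_⟩
      · rw [mul_smul, mul_smul, hg, ht0, inv_smul_eq_iff, hs]
      · rw [mul_smul, mul_smul, ht, inv_smul_smul]
    · intro g hg
      apply FaithfulSMul.eq_of_smul_eq_smul (α := Ω)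
      intro ω
      rw [hg, one_smul]
    · intro x p
      obtain ⟨g, hg⟩ := hXt ((1 : G) : G ⧸ H) x
      obtain ⟨h, hh⟩ := hfix (g⁻¹ • p)
      refine ⟨g * h * g⁻¹, ?_, ?_⟩
      · rw [mul_smul, mul_smul]
        have e : g⁻¹ • x = ((1 : G) : G ⧸ H) := by rw [← hg, inv_smul_smul]
        rw [e, (hst (h : G)).2 h.2, hg]
      · intro e
        apply hh
        rw [mul_smul, mul_smul, ← eq_inv_smul_iff] at e
        exact e
    · exact hk2
    · rw [Nat.card_eq_fintype_card]; omega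
  · intro h
    exact hh₀ (Subtype.ext h)
  · intro p hp
    exact hh₀' p ((hI1 p).1 hp)

/-- **Ito's theorem** -/
theorem ito (h2 : IsMultiplyPretransitive G Ω 2) (H : Subgroup G) (hidx : H.index = Nat.card Ω)
    (hnt : ¬ IsPretransitive H Ω) (hfix : ∀ a : Ω, ∃ h : H, h • a ≠ a)
    (hunf : ∃ a : Ω, ∃ h : H, h ≠ 1 ∧ ∀ b ∈ orbit H a, h • b = b) :
    ∃ (m : ℕ) (F : Type) (_ : Field F) (_ : Fintype F), 2 ≤ m ∧
      Nat.card Ω = (Fintype.card F ^ (m + 1) - 1) / (Fintype.card F - 1) ∧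
      ∃ N : Subgroup G, N.Normal ∧ Nonempty (N ≃* Matrix.ProjectiveSpecialLinearGroup (Fin (m + 1)) F) ∧
        Subgroup.centralizer (N : Set G) = ⊥ := by
  obtain ⟨I, K, L, D, hun⟩ := exists_des h2 H hidx hnt hfix hunf
  obtain ⟨E⟩ := D.main hun
  have hne : ∃ x y : G ⧸ H, x ≠ y := by
    by_contra h
    push Not at h
    have h1 : H.index = 1 := by
      rw [Subgroup.index, Nat.card_eq_one_iff_unique]
      exact ⟨⟨fun x y => h x y⟩, ⟨((1 : G) : G ⧸ H)⟩⟩
    have h2 := D.hKv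
    have h3 := D.hK
    rw [← hidx, h1] at h2
    omega
  obtain ⟨F, fF, ftF, n, T, hn, hT1, hT2, -, he, hc⟩ := E.main hne
  obtain ⟨m, rfl⟩ : ∃ m, n = m + 1 := ⟨n - 1, by omega⟩
  refine ⟨m, F, fF, ftF, by omega, ?_, T, hT1, he, hT2⟩
  rw [← hidx]
  exact H8.Ito.arith Fintype.one_lt_card hc

end
end H48.It
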