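import Cfsg.Agent.Lib.H48.JTForm
import Cfsg.Agent.Lib.H41.AltForm
import Cfsg.Agent.Lib.H48.QuadWitt
import Cfsg.Agent.Lib.H17.OrthDet
import Cfsg.Prelude.Def_Classical

set_option autoImplicit false
set_option linter.unusedSectionVars false
set_option linter.style.haveILetI false

/-! Unipotent Jordan types in symplectic and orthogonal groups. -/

namespace H48.JTForm

open Matrix H48.JTCent

variable {F : Type*} [Field F] {t : ℕ} {d : Fin t → ℕ}

theorem alt_of_skew {n : Type*} [Fintype n] [DecidableEq n] (M : Matrix n n F) (h1 : ∀ i j, M j i = - M i j)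
    (h0 : ∀ i, M i i = 0) (v : n → F) : v ⬝ᵥ M *ᵥ v = 0 := by
  classical
  simp only [dotProduct, Matrix.mulVec, Finset.mul_sum]
  rw [← Finset.sum_product']
  refine Finset.sum_involution (fun p _ => (p.2, p.1)) ?_ ?_ ?_ ?_
  · rintro ⟨i, j⟩ _
    simp only [h1 i j]
    ring
  · rintro ⟨i, j⟩ _ h heq
    apply h
    simp only [Prod.mk.injEq] at heq
    obtain ⟨rfl, -⟩ := heq
    simp only [h0]
    ring
  · intro p _
    exact Finset.mem_product.mpr ⟨Finset.mem_univ _, Finset.mem_univ _⟩
  · intro p _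
    rfl

/-- existence of a nondegenerate invariant alternating form -/
theorem exists_alt (h : ∀ j, Odd j → Even (Finset.univ.filter (fun k : Fin t => d k = j)).card) :
    ∃ G : Matrix ((k : Fin t) × Fin (d k)) ((k : Fin t) × Fin (d k)) F, G.det ≠ 0 ∧
      (∀ v, v ⬝ᵥ G *ᵥ v = 0) ∧
      (Cfsg.jordanTypeMatrix d F)ᵀ * G * Cfsg.jordanTypeMatrix d F = G := by
  classical
  obtain ⟨σ, h1, h2, h3, h4⟩ := exists_pairing d Odd h
  let β : Fin t → ℕ → ℕ → F := fun k i j =>
    if k ≤ σ k then ((bz (d k) i j : ℤ) : F) else -((bz (d k) j i : ℤ) : F)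
  refine ⟨G d σ β, ?_, ?_, ?_⟩
  · apply nondeg σ h1 β h2
    · intro k i j hij
      simp only [β]
      rw [bz_eq_zero hij, bz_eq_zero (by omega)]
      simp
    · intro k i j hij
      simp only [β]
      rw [bz_anti hij, bz_anti (by omega)]
      split_ifs <;> simp
  · apply alt_of_skew
    · rintro ⟨k, i⟩ ⟨l, j⟩
      simp only [G, Matrix.of_apply]
      by_cases hkl : l = σ k
      · have hlk : k = σ l := by rw [hkl, h1]
        rw [if_pos hkl, if_pos hlk]
        have hd : d l = d k := by rw [hkl, h2]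
        simp only [β, hd, ← hlk, ← hkl]
        rcases lt_trichotomy k l with hlt | heq | hgt
        · rw [if_neg (not_le.mpr hlt), if_pos hlt.le]
        · subst heq
          rw [if_pos le_rfl, if_pos le_rfl]
          have hev : Even (d k) := by
            by_contra hodd
            rw [Nat.not_even_iff_odd] at hodd
            exact h3 k hodd hkl.symm
          obtain ⟨r, hr⟩ := hev
          have hr' : d k = 2 * r := by omega
          have := bz_skew r i j
          rw [← hr'] at this
          rw [this]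
          push_cast
          ring
        · rw [if_pos hgt.le, if_neg (not_le.mpr hgt), neg_neg]
      · have hlk : ¬ k = σ l := fun h => hkl (by rw [h, h1])
        rw [if_neg hkl, if_neg hlk, neg_zero]
    · rintro ⟨k, i⟩
      simp only [G, Matrix.of_apply]
      split_ifs with hk
      · simp only [β]
        rw [if_pos hk.le]
        have hev : Even (d k) := by
          by_contra hodd
          rw [Nat.not_even_iff_odd] at hodd
          exact h3 k hodd hk.symm
        obtain ⟨r, hr⟩ := hev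
        have hr' : d k = 2 * r := by omega
        have := bz_self r i
        rw [← hr'] at this
        rw [this]
        simp
      · rfl
  · apply invariant σ β h2
    · intro k i j hij
      simp only [β]
      rw [bz_eq_zero hij, bz_eq_zero (by omega)]
      simp
    · intro k i j
      have e1 := congrArg (Int.cast : ℤ → F) (bz_rec (d k) i j)
      have e2 := congrArg (Int.cast : ℤ → F) (bz_rec (d k) j i)
      push_cast at e1 e2
      simp only [β]
      split_ifs
      · exact e1
      · linear_combination -e2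

/-- existence of a nondegenerate invariant symmetric form, odd characteristic -/
theorem exists_symm (hF2 : (2 : F) ≠ 0)
    (h : ∀ j, Even j → Even (Finset.univ.filter (fun k : Fin t => d k = j)).card) :
    ∃ G : Matrix ((k : Fin t) × Fin (d k)) ((k : Fin t) × Fin (d k)) F, G.det ≠ 0 ∧
      (∀ i j, G j i = G i j) ∧
      (Cfsg.jordanTypeMatrix d F)ᵀ * G * Cfsg.jordanTypeMatrix d F = G := by
  classical
  obtain ⟨σ, h1, h2, h3, h4⟩ := exists_pairing d Even h
  let β : Fin t → ℕ → ℕ → F := fun k i j =>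
    (if k ≤ σ k then ((bz (d k) i j : ℤ) : F) else 0) + (if σ k ≤ k then ((bz (d k) j i : ℤ) : F) else 0)
  refine ⟨G d σ β, ?_, ?_, ?_⟩
  · apply nondeg σ h1 β h2
    · intro k i j hij
      simp only [β]
      rw [bz_eq_zero hij, bz_eq_zero (by omega)]
      simp
    · intro k i j hij
      simp only [β]
      rw [bz_anti hij, bz_anti (by omega)]
      rcases lt_trichotomy k (σ k) with hlt | heq | hgt
      · rw [if_pos hlt.le, if_neg (not_le.mpr hlt)]; simp
      · rw [if_pos heq.le, if_pos heq.ge]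
        have hodd : Odd (d k) := by
          by_contra hev
          rw [Nat.not_odd_iff_even] at hev
          exact h3 k hev heq.symm
        have hij2 : Even (i + j) := by
          rw [← hij, Nat.odd_add_one, Nat.not_odd_iff_even] at hodd
          exact hodd
        have e : ((-1 : ℤ)) ^ i = (-1) ^ j := by
          rcases Nat.even_or_odd i with hi | hi
          · rw [hi.neg_one_pow, (((Nat.even_add.mp hij2).mp hi)).neg_one_pow]
          · rw [hi.neg_one_pow, ((Nat.odd_iff.mpr (by
              have := Nat.odd_iff.mp hi; have := Nat.even_iff.mp hij2; omega) : Odd j)).neg_one_pow]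
        rw [e, ← two_mul]
        push_cast
        apply mul_ne_zero hF2
        simp
      · rw [if_neg (not_le.mpr hgt), if_pos hgt.le]; simp
  · rintro ⟨k, i⟩ ⟨l, j⟩
    simp only [G, Matrix.of_apply]
    by_cases hkl : l = σ k
    · have hlk : k = σ l := by rw [hkl, h1]
      rw [if_pos hkl, if_pos hlk]
      have hd : d l = d k := by rw [hkl, h2]
      simp only [β, hd, ← hlk, ← hkl]
      rw [add_comm]
    · have hlk : ¬ k = σ l := fun h => hkl (by rw [h, h1])
      rw [if_neg hkl, if_neg hlk]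
  · apply invariant σ β h2
    · intro k i j hij
      simp only [β]
      rw [bz_eq_zero hij, bz_eq_zero (by omega)]
      simp
    · intro k i j
      have e1 := congrArg (Int.cast : ℤ → F) (bz_rec (d k) i j)
      have e2 := congrArg (Int.cast : ℤ → F) (bz_rec (d k) j i)
      push_cast at e1 e2
      simp only [β]
      split_ifs
      · linear_combination e1 + e2
      · linear_combination e1
      · linear_combination e2
      · simp

/-- congruence to the standard alternating matrix -/
theorem exists_congr_J {m : ℕ} (G : Matrix (Fin m ⊕ Fin m) (Fin m ⊕ Fin m) F) (hG : G.det ≠ 0)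
    (hA : ∀ v, v ⬝ᵥ G *ᵥ v = 0) : ∃ P : Matrix (Fin m ⊕ Fin m) (Fin m ⊕ Fin m) F, P.det ≠ 0 ∧
      Pᵀ * G * P = Matrix.J (Fin m) F := by
  classical
  let B : LinearMap.BilinForm F (Fin m ⊕ Fin m → F) := Matrix.toLinearMap₂' F G
  have hB : ∀ v w, B v w = v ⬝ᵥ G *ᵥ w := fun v w => Matrix.toLinearMap₂'_apply' G v w
  obtain ⟨m', hm', e, he⟩ := H41.AltForm.exists_symplectic (Module.finrank F (Fin m ⊕ Fin m → F)) B
    (fun x => by rw [hB]; exact hA x) (fun x hx => by
      have h1 : G *ᵥ x = 0 := by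
        funext i
        have h2 := hx (Pi.single i 1)
        have h3 := H41.AltForm.alt_antisymm B (fun x => by rw [hB]; exact hA x) x (Pi.single i 1)
        rw [h2, neg_zero, hB, single_dotProduct, one_mul] at h3
        exact h3
      by_contra hx0
      exact hG (Matrix.exists_mulVec_eq_zero_iff.mp ⟨x, hx0, h1⟩)) rfl
  have hmm : m' = m := by
    rw [Module.finrank_fintype_fun_eq_card, Fintype.card_sum, Fintype.card_fin] at hm'
    omega
  subst hmm
  let P : Matrix (Fin m' ⊕ Fin m') (Fin m' ⊕ Fin m') F := Matrix.of fun i j => e j i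
  have hP : Pᵀ * G * P = Matrix.J (Fin m') F := by
    ext i j
    rw [← he i j, hB, Matrix.mul_assoc, Matrix.mul_apply, dotProduct]
    apply Finset.sum_congr rfl
    intro k _
    rfl
  refine ⟨P, ?_, hP⟩
  intro h0
  have h1 := congrArg Matrix.det hP
  rw [Matrix.det_mul, h0, mul_zero] at h1
  exact (Matrix.isUnit_det_J (Fin m') F).ne_zero h1.symm

theorem isConj_rank {n : Type*} [Fintype n] [DecidableEq n] {A B : Matrix n n F} (h : IsConj A B) (k : ℕ) :
    ((A - 1) ^ k).rank = ((B - 1) ^ k).rank := by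
  obtain ⟨c, hc⟩ := h
  have h1 : SemiconjBy (c : Matrix n n F) (A - 1) (B - 1) := hc.sub_right (SemiconjBy.one_right _)
  have h2 := h1.pow_right k
  have h3 : (c : Matrix n n F) * (A - 1) ^ k = (B - 1) ^ k * c := h2
  have hdet : IsUnit ((c : Matrix n n F)).det := (Matrix.isUnit_iff_isUnit_det _).mp c.isUnit
  rw [← Matrix.rank_mul_eq_right_of_isUnit_det _ _ hdet, h3, Matrix.rank_mul_eq_left_of_isUnit_det _ _ hdet]

theorem rank_reindex_jt {n : Type*} [Fintype n] [DecidableEq n] (e : ((k : Fin t) × Fin (d k)) ≃ n) (r : ℕ) :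
    ((Matrix.reindex e e (Cfsg.jordanTypeMatrix d F) - 1) ^ r).rank = ∑ k, (d k - r) := by
  rw [← H48.Jordan.rank_jordanType (F := F) d r]
  have h1 : (Matrix.reindex e e (Cfsg.jordanTypeMatrix d F) - 1) ^ r =
      Matrix.reindex e e ((Cfsg.jordanTypeMatrix d F - 1) ^ r) := by
    change _ = Matrix.reindexAlgEquiv F F e _
    rw [map_pow, map_sub, map_one]
    rfl
  rw [h1, Matrix.rank_reindex]

theorem reindex_invariant {n : Type*} [Fintype n] [DecidableEq n] (e : ((k : Fin t) × Fin (d k)) ≃ n)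
    {G J : Matrix ((k : Fin t) × Fin (d k)) ((k : Fin t) × Fin (d k)) F} (h : Jᵀ * G * J = G) :
    (Matrix.reindex e e J)ᵀ * Matrix.reindex e e G * Matrix.reindex e e J = Matrix.reindex e e G := by
  conv_rhs => rw [← h]
  have h1 : ∀ A B : Matrix ((k : Fin t) × Fin (d k)) ((k : Fin t) × Fin (d k)) F,
      Matrix.reindex e e A * Matrix.reindex e e B = Matrix.reindex e e (A * B) := fun A B =>
    (map_mul (Matrix.reindexAlgEquiv F F e) A B).symm
  rw [Matrix.transpose_reindex, h1, h1]

theorem reindex_alt {n : Type*} [Fintype n] [DecidableEq n] (e : ((k : Fin t) × Fin (d k)) ≃ n)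
    {G : Matrix ((k : Fin t) × Fin (d k)) ((k : Fin t) × Fin (d k)) F} (h : ∀ v, v ⬝ᵥ G *ᵥ v = 0)
    (v : n → F) : v ⬝ᵥ Matrix.reindex e e G *ᵥ v = 0 := by
  rw [← h (v ∘ e)]
  simp only [dotProduct, Matrix.mulVec, Matrix.reindex_apply, Matrix.submatrix_apply, Function.comp_apply]
  rw [← e.sum_comp]
  apply Finset.sum_congr rfl
  intro i _
  rw [Equiv.symm_apply_apply]
  congr 1
  rw [← e.sum_comp]
  apply Finset.sum_congr rfl
  intro j _
  rw [Equiv.symm_apply_apply]

/-- S2582 -/
theorem sp_types {m : ℕ} (hsum : ∑ k, d k = 2 * m) :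
    (∃ e : ((k : Fin t) × Fin (d k)) ≃ (Fin m ⊕ Fin m), ∃ A : Matrix.symplecticGroup (Fin m) F,
      IsConj (Matrix.reindex e e (Cfsg.jordanTypeMatrix d F)) (A : Matrix (Fin m ⊕ Fin m) (Fin m ⊕ Fin m) F)) ↔
    ∀ j : ℕ, Odd j → Even (Finset.univ.filter (fun k : Fin t => d k = j)).card := by
  classical
  constructor
  · rintro ⟨e, A, hA⟩ j hj
    have hJ : (A : Matrix (Fin m ⊕ Fin m) (Fin m ⊕ Fin m) F)ᵀ * Matrix.J (Fin m) F * (A : Matrix _ _ F) =
        Matrix.J (Fin m) F := SymplecticGroup.mem_iff'.mp A.2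
    have hev : ∀ k, Even (∑ l, (d l - 2 * k)) := by
      intro k
      rw [← rank_reindex_jt (F := F) e, isConj_rank hA]
      apply even_rank_pow (Matrix.J (Fin m) F) _ (Matrix.isUnit_det_J (Fin m) F).ne_zero _ hJ
      apply alt_of_skew
      · intro i j
        have := Matrix.J_transpose (Fin m) F
        have h2 := congrFun (congrFun this i) j
        rw [Matrix.transpose_apply] at h2
        rw [h2]; rfl
      · rintro (i | i) <;> simp [Matrix.J]
    obtain ⟨r, hr⟩ := hj
    apply even_mult (d := d) (fun j => ∑ k, (d k - j)) (fun _ => rfl) j (by omega)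
    · have := hev r
      have e1 : j - 1 = 2 * r := by omega
      simpa only [e1] using this
    · have := hev (r + 1)
      have e1 : j + 1 = 2 * (r + 1) := by omega
      simpa only [e1] using this
  · intro h
    obtain ⟨G, hG, hGA, hGJ⟩ := exists_alt (F := F) h
    have hc : Fintype.card ((k : Fin t) × Fin (d k)) = Fintype.card (Fin m ⊕ Fin m) := by
      rw [Fintype.card_sigma, Fintype.card_sum, Fintype.card_fin]
      simp only [Fintype.card_fin]
      omega
    let e := Fintype.equivOfCardEq hc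
    have hdet : (Matrix.reindex e e G).det ≠ 0 := by
      rw [Matrix.det_reindex_self]; exact hG
    obtain ⟨P, hP, hPG⟩ := exists_congr_J (Matrix.reindex e e G) hdet (reindex_alt e hGA)
    have hinv := reindex_invariant e hGJ
    have hPu : IsUnit P.det := isUnit_iff_ne_zero.mpr hP
    have h1 : P * P⁻¹ = 1 := Matrix.mul_nonsing_inv _ hPu
    have h2 : P⁻¹ * P = 1 := Matrix.nonsing_inv_mul _ hPu
    let J₁ := Matrix.reindex e e (Cfsg.jordanTypeMatrix d F)
    let G₁ := Matrix.reindex e e G
    have hmem : P⁻¹ * J₁ * P ∈ Matrix.symplecticGroup (Fin m) F := by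
      rw [SymplecticGroup.mem_iff', ← hPG, Matrix.transpose_mul, Matrix.transpose_mul]
      calc Pᵀ * (J₁ᵀ * (P⁻¹)ᵀ) * (Pᵀ * G₁ * P) * (P⁻¹ * J₁ * P)
          = Pᵀ * J₁ᵀ * ((P⁻¹)ᵀ * Pᵀ) * G₁ * (P * P⁻¹) * J₁ * P := by simp only [Matrix.mul_assoc]
        _ = Pᵀ * J₁ᵀ * G₁ * J₁ * P := by
            rw [h1, ← Matrix.transpose_mul P, h1, Matrix.transpose_one, Matrix.mul_one, Matrix.mul_one]
        _ = Pᵀ * (J₁ᵀ * G₁ * J₁) * P := by simp only [Matrix.mul_assoc]
        _ = Pᵀ * G₁ * P := by rw [hinv]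
    refine ⟨e, ⟨_, hmem⟩, ?_⟩
    refine ⟨⟨P⁻¹, P, h2, h1⟩, ?_⟩
    change P⁻¹ * J₁ = P⁻¹ * J₁ * P * P⁻¹
    rw [Matrix.mul_assoc _ P, h1, Matrix.mul_one]

theorem dot_conj {n : Type*} [Fintype n] [DecidableEq n] (G J : Matrix n n F) (v w : n → F) :
    (J *ᵥ v) ⬝ᵥ G *ᵥ (J *ᵥ w) = v ⬝ᵥ (Jᵀ * G * J) *ᵥ w := by
  rw [← Matrix.mulVec_mulVec, ← Matrix.mulVec_mulVec, Matrix.dotProduct_mulVec v, Matrix.vecMul_transpose]

theorem sub_one_pow_eq_zero {n : Type*} [Fintype n] [DecidableEq n] (e : ((k : Fin t) × Fin (d k)) ≃ n)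
    {A : Matrix n n F} (hA : IsConj (Matrix.reindex e e (Cfsg.jordanTypeMatrix d F)) A) :
    IsNilpotent (A - 1) := by
  refine ⟨Finset.univ.sup d, ?_⟩
  apply H48.Jordan.eq_zero_of_rank
  rw [← isConj_rank hA, rank_reindex_jt]
  apply Finset.sum_eq_zero
  intro k _
  have := Finset.le_sup (f := d) (Finset.mem_univ k)
  omega

/-- rank of odd powers is even for unipotent isometries of symmetric forms in odd characteristic -/
theorem even_rank_pow_odd {n : Type*} [Fintype n] [DecidableEq n] (G A : Matrix n n F)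
    (hG : G.det ≠ 0) (hGA : ∀ i j, G j i = G i j) (hA : Aᵀ * G * A = G) (h2 : (2 : F) ≠ 0)
    (hnil : IsNilpotent (A - 1)) (k : ℕ) :
    Even ((A - 1) ^ (2 * k + 1)).rank := by
  have hdA : A.det ≠ 0 := by
    intro h
    apply hG
    rw [← hA, Matrix.det_mul, h, mul_zero]
  have hdA' : IsUnit A.det := isUnit_iff_ne_zero.mpr hdA
  have hA' : A * A⁻¹ = 1 := Matrix.mul_nonsing_inv _ hdA'
  have hA'' : A⁻¹ * A = 1 := Matrix.nonsing_inv_mul _ hdA'
  have hGT : Gᵀ = G := by ext i j; exact hGA i j
  have hGinv : G * A⁻¹ = Aᵀ * G := by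
    calc G * A⁻¹ = Aᵀ * G * A * A⁻¹ := by rw [hA]
      _ = _ := by rw [Matrix.mul_assoc _ A, hA', Matrix.mul_one]
  have halt : ∀ v, v ⬝ᵥ (G * (A - A⁻¹)) *ᵥ v = 0 := by
    intro v
    rw [Matrix.mul_sub, hGinv, Matrix.sub_mulVec, dotProduct_sub, sub_eq_zero]
    have : (Aᵀ * G) = (G * A)ᵀ := by rw [Matrix.transpose_mul, hGT]
    rw [this, Matrix.dotProduct_mulVec v (G * A)ᵀ, Matrix.vecMul_transpose, dotProduct_comm]
  have h1 := even_rank_comp (G * (A - A⁻¹)) ((A - 1) ^ k) halt
  have hcAA : Commute A⁻¹ A := by rw [commute_iff_eq, hA', hA'']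
  have hc1 : Commute (A⁻¹ - 1) (A - A⁻¹) :=
    ((hcAA.sub_right (Commute.refl _)).sub_left (Commute.one_left _))
  have hc2 : Commute (A - 1) (A - A⁻¹) :=
    (((Commute.refl A).sub_right hcAA.symm).sub_left (Commute.one_left _))
  have e1 : ((A - 1) ^ k)ᵀ * (G * (A - A⁻¹)) * (A - 1) ^ k =
      (G * ((-A⁻¹) ^ k * (A⁻¹ * (A + 1)))) * (A - 1) ^ (2 * k + 1) := by
    rw [← Matrix.mul_assoc, adj_pow G A A⁻¹ hA hA' k, Matrix.mul_assoc (G * _), ← (hc2.pow_left k).eq,
      Matrix.mul_assoc, ← Matrix.mul_assoc _ _ (A - A⁻¹), commute_stuff A A⁻¹ hA' k]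
    have e2 : A - A⁻¹ = (A⁻¹ * (A + 1)) * (A - 1) := by
      rw [Matrix.mul_add, hA'', Matrix.mul_one, Matrix.add_mul, Matrix.mul_sub, Matrix.mul_sub, Matrix.one_mul,
        Matrix.mul_one, hA'', Matrix.mul_one]
      abel
    have hc3 : Commute ((A - 1) ^ (2 * k)) (A⁻¹ * (A + 1)) := by
      apply Commute.pow_left
      apply Commute.mul_right
      · exact (hcAA.symm.sub_left (Commute.one_left _))
      · exact (((Commute.refl A).add_right (Commute.one_right _)).sub_left (Commute.one_left _))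
    rw [e2, Matrix.mul_assoc ((-A⁻¹) ^ k), ← Matrix.mul_assoc ((A - 1) ^ (2 * k)), hc3.eq,
      Matrix.mul_assoc, pow_succ]
    simp only [Matrix.mul_assoc]
  rw [e1] at h1
  rwa [Matrix.rank_mul_eq_right_of_isUnit_det] at h1
  have hA1 : IsUnit (A + 1) := by
    have e3 : A + 1 = (2 : F) • (1 : Matrix n n F) + (A - 1) := by
      rw [two_smul]; abel
    rw [e3]
    apply IsNilpotent.isUnit_add_left_of_commute hnil
    · have : (2 : F) • (1 : Matrix n n F) = algebraMap F (Matrix n n F) 2 := (Algebra.algebraMap_eq_smul_one _).symm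
      rw [this]
      exact (isUnit_iff_ne_zero.mpr h2).map _
    · exact (Commute.one_right _).smul_right _
  rw [Matrix.det_mul, Matrix.det_mul, Matrix.det_mul, Matrix.det_pow]
  apply IsUnit.mul (isUnit_iff_ne_zero.mpr hG)
  apply IsUnit.mul
  · apply IsUnit.pow
    rw [Matrix.det_neg]
    apply IsUnit.mul
    · exact (isUnit_one.neg).pow _
    · rw [Matrix.isUnit_nonsing_inv_det_iff]
      exact hdA'
  · apply IsUnit.mul
    · rw [Matrix.isUnit_nonsing_inv_det_iff]
      exact hdA'
    · exact (Matrix.isUnit_iff_isUnit_det _).mp hA1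

/-- Gram matrix of the polar form -/
theorem gram {n : Type} [Fintype n] [DecidableEq n] (Q : QuadraticForm F (n → F))
    (hQ : (QuadraticMap.polarBilin Q).Nondegenerate) :
    ∃ G : Matrix n n F, G.det ≠ 0 ∧ (∀ v w, QuadraticMap.polar Q v w = v ⬝ᵥ G *ᵥ w) ∧
      (∀ i j, G j i = G i j) ∧
      ∀ A : Matrix n n F, (∀ v, Q (A *ᵥ v) = Q v) → Aᵀ * G * A = G := by
  classical
  let G : Matrix n n F := LinearMap.toMatrix₂' F (QuadraticMap.polarBilin Q)
  have hG : ∀ v w, QuadraticMap.polar Q v w = v ⬝ᵥ G *ᵥ w := by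
    intro v w
    rw [← Matrix.toLinearMap₂'_apply' G v w]
    have : Matrix.toLinearMap₂' F G = QuadraticMap.polarBilin Q := Matrix.toLinearMap₂'_toMatrix' _
    rw [this, QuadraticMap.polarBilin_apply_apply]
  refine ⟨G, ?_, hG, ?_, ?_⟩
  · intro hdet
    obtain ⟨x, hx0, hx⟩ := Matrix.exists_mulVec_eq_zero_iff.mpr hdet
    apply hx0
    apply H48.QuadWitt.nondeg_left hQ
    intro y
    rw [QuadraticMap.polar_comm, hG, hx, dotProduct_zero]
  · intro i j
    have h1 := hG (Pi.single i 1) (Pi.single j 1)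
    have h2 := hG (Pi.single j 1) (Pi.single i 1)
    rw [QuadraticMap.polar_comm, h1] at h2
    simpa using h2.symm
  · intro A hA
    ext i j
    have h1 : QuadraticMap.polar Q (A *ᵥ Pi.single i 1) (A *ᵥ Pi.single j 1) =
        QuadraticMap.polar Q (Pi.single i 1) (Pi.single j 1) := by
      rw [QuadraticMap.polar, QuadraticMap.polar, ← Matrix.mulVec_add, hA, hA, hA]
    rw [hG, hG] at h1
    have h3 : (A *ᵥ Pi.single i 1) ⬝ᵥ G *ᵥ (A *ᵥ Pi.single j 1) = (Aᵀ * G * A) i j := by
      rw [Matrix.mul_assoc, Matrix.mul_apply, dotProduct]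
      apply Finset.sum_congr rfl
      intro k _
      congr 1
      · simp
      · rw [Matrix.mulVec_mulVec]
        simp
    have h4 : Pi.single i (1 : F) ⬝ᵥ G *ᵥ Pi.single j 1 = G i j := by simp
    rw [← h3, h1, h4]

theorem o_types_odd (h2 : (2 : F) ≠ 0) {n : ℕ} (hd : ∀ k, 1 ≤ d k) (hsum : ∑ k, d k = n) :
    (∃ Q : QuadraticForm F (Fin n → F), (QuadraticMap.polarBilin Q).Nondegenerate ∧
      ∃ e : ((k : Fin t) × Fin (d k)) ≃ Fin n, ∃ A : ↥(Cfsg.isometryGroup F ⇑Q),
        IsConj (Matrix.reindex e e (Cfsg.jordanTypeMatrix d F))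
          ((A : Matrix.GeneralLinearGroup (Fin n) F) : Matrix (Fin n) (Fin n) F)) ↔
    ∀ j : ℕ, Even j → 0 < j → Even (Finset.univ.filter (fun k : Fin t => d k = j)).card := by
  classical
  constructor
  · rintro ⟨Q, hQ, e, A, hA⟩ j hj hj0
    obtain ⟨G, hG, -, hsym, hinv⟩ := gram Q hQ
    have hiso : ∀ v, Q (((A : Matrix.GeneralLinearGroup (Fin n) F) : Matrix (Fin n) (Fin n) F) *ᵥ v) = Q v :=
      (H17.OrthDet.mem_isometryGroup_iff _ _).mp A.2
    have hev : ∀ k, Even (∑ l, (d l - (2 * k + 1))) := by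
      intro k
      rw [← rank_reindex_jt (F := F) e, isConj_rank hA]
      exact even_rank_pow_odd G _ hG hsym (hinv _ hiso) h2 (sub_one_pow_eq_zero e hA) k
    obtain ⟨r, hr⟩ := hj
    apply even_mult (d := d) (fun j => ∑ k, (d k - j)) (fun _ => rfl) j (by omega)
    · have := hev (r - 1)
      have e1 : j - 1 = 2 * (r - 1) + 1 := by omega
      simpa only [e1] using this
    · have := hev r
      have e1 : j + 1 = 2 * r + 1 := by omega
      simpa only [e1] using this
  · intro h
    have h' : ∀ j, Even j → Even (Finset.univ.filter (fun k : Fin t => d k = j)).card := by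
      intro j hj
      rcases Nat.eq_zero_or_pos j with h0 | h0
      · subst h0
        have : Finset.univ.filter (fun k : Fin t => d k = 0) = ∅ := by
          rw [Finset.filter_eq_empty_iff]
          intro k _ hk
          have := hd k
          omega
        rw [this]; simp
      · exact h j hj h0
    obtain ⟨G, hG, hGs, hGJ⟩ := exists_symm (F := F) h2 h'
    have hc : Fintype.card ((k : Fin t) × Fin (d k)) = Fintype.card (Fin n) := by
      rw [Fintype.card_sigma, Fintype.card_fin]
      simp only [Fintype.card_fin]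
      omega
    let e := Fintype.equivOfCardEq hc
    have hdet : (Matrix.reindex e e G).det ≠ 0 := by
      rw [Matrix.det_reindex_self]; exact hG
    have hinv := reindex_invariant e hGJ
    have hsym : (Matrix.reindex e e G)ᵀ = Matrix.reindex e e G := by
      ext i j
      rw [Matrix.transpose_apply, Matrix.reindex_apply, Matrix.submatrix_apply, Matrix.submatrix_apply, hGs]
    let J₁ := Matrix.reindex e e (Cfsg.jordanTypeMatrix d F)
    let G₁ := Matrix.reindex e e G
    let B : LinearMap.BilinForm F (Fin n → F) := Matrix.toLinearMap₂' F G₁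
    have hB : ∀ v w, B v w = v ⬝ᵥ G₁ *ᵥ w := fun v w => Matrix.toLinearMap₂'_apply' G₁ v w
    let Q : QuadraticForm F (Fin n → F) := LinearMap.BilinMap.toQuadraticMap B
    have hQ : ∀ v, Q v = v ⬝ᵥ G₁ *ᵥ v := fun v => hB v v
    have hBs : ∀ v w, B v w = B w v := by
      intro v w
      rw [hB, hB, Matrix.dotProduct_mulVec, ← Matrix.mulVec_transpose, hsym, dotProduct_comm]
    have hpol : ∀ v w, QuadraticMap.polar Q v w = 2 * B v w := by
      intro v w
      change B (v + w) (v + w) - B v v - B w w = _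
      rw [map_add, map_add, LinearMap.add_apply, LinearMap.add_apply, hBs w v]
      ring
    have hJdet : IsUnit J₁.det := by
      rw [isUnit_iff_ne_zero]
      intro h0
      apply hdet
      rw [← hinv, Matrix.det_mul, h0, mul_zero]
    refine ⟨Q, ?_, e, ⟨Matrix.GeneralLinearGroup.mkOfDetNeZero J₁ hJdet.ne_zero,
      (H17.OrthDet.mem_isometryGroup_iff _ _).mpr ?_⟩, IsConj.refl _⟩
    · rw [H48.QuadWitt.nondeg_iff]
      intro x hx
      by_contra hx0
      apply hdet
      apply Matrix.exists_mulVec_eq_zero_iff.mp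
      refine ⟨x, hx0, ?_⟩
      funext i
      have h3 := hx (Pi.single i 1)
      rw [hpol, hBs, hB, single_dotProduct, one_mul] at h3
      exact (mul_eq_zero.mp h3).resolve_left h2
    · intro x
      change Q (J₁ *ᵥ x) = Q x
      rw [hQ, hQ, dot_conj, show J₁ᵀ * G₁ * J₁ = G₁ from hinv]

/-- in characteristic two every isometry of an alternating form over a finite field preserves a quadratic form
polarising to it (Dye) -/
theorem exists_quad [Finite F] [CharP F 2] {n : Type} [Fintype n] [DecidableEq n] [LinearOrder n]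
    (G J : Matrix n n F) (hG : ∀ v, v ⬝ᵥ G *ᵥ v = 0) (hJ : Jᵀ * G * J = G) :
    ∃ Q : QuadraticForm F (n → F), (∀ v w, QuadraticMap.polar Q v w = v ⬝ᵥ G *ᵥ w) ∧
      ∀ v, Q (J *ᵥ v) = Q v := by
  classical
  have hGB : ∀ v w, v ⬝ᵥ G *ᵥ w = w ⬝ᵥ G *ᵥ v := by
    intro v w
    have h1 := hG (v + w)
    rw [Matrix.mulVec_add, add_dotProduct, dotProduct_add, dotProduct_add, hG, hG, zero_add, add_zero,
      CharTwo.add_eq_zero] at h1
    exact h1
  let U : Matrix n n F := Matrix.of fun i j => if i < j then G i j else 0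
  have hGij : ∀ i j, G j i = G i j := by
    intro i j
    have := hGB (Pi.single j 1) (Pi.single i 1)
    simpa using this
  have hGii : ∀ i, G i i = 0 := by
    intro i
    have := hG (Pi.single i 1)
    simpa using this
  have hU : U + Uᵀ = G := by
    ext i j
    rw [Matrix.add_apply, Matrix.transpose_apply]
    simp only [U, Matrix.of_apply]
    rcases lt_trichotomy i j with h | h | h
    · rw [if_pos h, if_neg (not_lt.mpr h.le), add_zero]
    · subst h
      rw [if_neg (lt_irrefl _), hGii, add_zero]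
    · rw [if_neg (not_lt.mpr h.le), if_pos h, zero_add, hGij]
  let B : LinearMap.BilinForm F (n → F) := Matrix.toLinearMap₂' F U
  have hB : ∀ v w, B v w = v ⬝ᵥ U *ᵥ w := fun v w => Matrix.toLinearMap₂'_apply' U v w
  let Q₀ : QuadraticForm F (n → F) := LinearMap.BilinMap.toQuadraticMap B
  have hpol : ∀ v w, QuadraticMap.polar Q₀ v w = v ⬝ᵥ G *ᵥ w := by
    intro v w
    change B (v + w) (v + w) - B v v - B w w = _
    rw [map_add, map_add, LinearMap.add_apply, LinearMap.add_apply]
    have h1 : B v w + B w v = v ⬝ᵥ G *ᵥ w := by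
      rw [hB, hB, ← hU, Matrix.add_mulVec, dotProduct_add]
      congr 1
      rw [Matrix.dotProduct_mulVec v Uᵀ, Matrix.vecMul_transpose, dotProduct_comm]
    rw [← h1]
    ring
  have hinvp : ∀ v w, QuadraticMap.polar Q₀ (J *ᵥ v) (J *ᵥ w) = QuadraticMap.polar Q₀ v w := by
    intro v w
    rw [hpol, hpol, dot_conj, hJ]
  have hadd : ∀ v w, Q₀ (v + w) = Q₀ v + Q₀ w + QuadraticMap.polar Q₀ v w := by
    intro v w
    rw [QuadraticMap.polar]; ring
  -- the square root of the defect
  have : Fintype F := Fintype.ofFinite F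
  let fr := frobeniusEquiv F 2
  have hfr : ∀ x, fr.symm x ^ 2 = x := fun x => fr.apply_symm_apply x
  have hfr2 : ∀ x : F, fr.symm (x ^ 2) = x := fun x => fr.symm_apply_apply x
  let ℓ : (n → F) →ₗ[F] F :=
    { toFun := fun v => fr.symm (Q₀ (J *ᵥ v) + Q₀ v)
      map_add' := by
        intro v w
        rw [← _root_.map_add fr.symm]
        congr 1
        rw [Matrix.mulVec_add, hadd (J *ᵥ v), hadd v, hinvp]
        have := CharTwo.add_self_eq_zero (QuadraticMap.polar Q₀ v w)
        linear_combination this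
      map_smul' := by
        intro c v
        rw [RingHom.id_apply, smul_eq_mul, Matrix.mulVec_smul, QuadraticMap.map_smul, QuadraticMap.map_smul,
          smul_eq_mul, smul_eq_mul, ← mul_add, map_mul, ← pow_two, hfr2] }
  have hℓ : ∀ v, ℓ v ^ 2 = Q₀ (J *ᵥ v) + Q₀ v := fun v => hfr _
  let N : (n → F) →ₗ[F] (n → F) := Matrix.mulVecLin J - LinearMap.id
  have hmem : ℓ ∈ (LinearMap.ker N).dualAnnihilator := by
    rw [Submodule.mem_dualAnnihilator]
    intro w hw
    have h1 : J *ᵥ w = w := by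
      have : N w = 0 := hw
      have h2 : J *ᵥ w - w = 0 := this
      exact sub_eq_zero.mp h2
    have h2 := hℓ w
    rw [h1, CharTwo.add_self_eq_zero] at h2
    exact pow_eq_zero_iff two_ne_zero |>.mp h2
  rw [← LinearMap.range_dualMap_eq_dualAnnihilator_ker] at hmem
  obtain ⟨μ, hμ⟩ := hmem
  have hμ' : ∀ v, μ (J *ᵥ v) + μ v = ℓ v := by
    intro v
    rw [← hμ, LinearMap.dualMap_apply]
    change _ = μ (J *ᵥ v - v)
    rw [map_sub, CharTwo.sub_eq_add]
  refine ⟨Q₀ + QuadraticMap.linMulLin μ μ, ?_, ?_⟩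
  · intro v w
    rw [← hpol, QuadraticMap.polar, QuadraticMap.polar]
    simp only [_root_.add_apply, QuadraticMap.linMulLin_apply, map_add]
    have := CharTwo.add_self_eq_zero (μ v * μ w)
    linear_combination this
  · intro v
    simp only [_root_.add_apply, QuadraticMap.linMulLin_apply]
    have h1 := hℓ v
    rw [← hμ'] at h1
    have h2 : (2 : F) = 0 := CharTwo.two_eq_zero
    linear_combination h1 + (Q₀ (J *ᵥ v) - μ (J *ᵥ v) * μ v - μ v ^ 2) * h2

theorem o_types_two [Finite F] [CharP F 2] {m : ℕ} (hsum : ∑ k, d k = 2 * m) :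
    (∃ Q : QuadraticForm F (Fin (2 * m) → F), (QuadraticMap.polarBilin Q).Nondegenerate ∧
      ∃ e : ((k : Fin t) × Fin (d k)) ≃ Fin (2 * m), ∃ A : ↥(Cfsg.isometryGroup F ⇑Q),
        IsConj (Matrix.reindex e e (Cfsg.jordanTypeMatrix d F))
          ((A : Matrix.GeneralLinearGroup (Fin (2 * m)) F) : Matrix (Fin (2 * m)) (Fin (2 * m)) F)) ↔
    ∀ j : ℕ, Odd j → Even (Finset.univ.filter (fun k : Fin t => d k = j)).card := by
  classical
  constructor
  · rintro ⟨Q, hQ, e, A, hA⟩ j hj
    obtain ⟨G, hG, hpol, hsym, hinv⟩ := gram Q hQ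
    have hiso : ∀ v, Q (((A : Matrix.GeneralLinearGroup (Fin (2 * m)) F) :
        Matrix (Fin (2 * m)) (Fin (2 * m)) F) *ᵥ v) = Q v :=
      (H17.OrthDet.mem_isometryGroup_iff _ _).mp A.2
    have hGA : ∀ v, v ⬝ᵥ G *ᵥ v = 0 := by
      intro v
      rw [← hpol, QuadraticMap.polar_self, two_smul]
      exact CharTwo.add_self_eq_zero _
    have hev : ∀ k, Even (∑ l, (d l - 2 * k)) := by
      intro k
      rw [← rank_reindex_jt (F := F) e, isConj_rank hA]
      exact even_rank_pow G _ hG hGA (hinv _ hiso) k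
    obtain ⟨r, hr⟩ := hj
    apply even_mult (d := d) (fun j => ∑ k, (d k - j)) (fun _ => rfl) j (by omega)
    · have := hev r
      have e1 : j - 1 = 2 * r := by omega
      simpa only [e1] using this
    · have := hev (r + 1)
      have e1 : j + 1 = 2 * (r + 1) := by omega
      simpa only [e1] using this
  · intro h
    obtain ⟨G, hG, hGA, hGJ⟩ := exists_alt (F := F) h
    have hc : Fintype.card ((k : Fin t) × Fin (d k)) = Fintype.card (Fin (2 * m)) := by
      rw [Fintype.card_sigma, Fintype.card_fin]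
      simp only [Fintype.card_fin]
      omega
    let e := Fintype.equivOfCardEq hc
    have hdet : (Matrix.reindex e e G).det ≠ 0 := by
      rw [Matrix.det_reindex_self]; exact hG
    have hinv := reindex_invariant e hGJ
    have halt := reindex_alt e hGA
    obtain ⟨Q, hpol, hQ⟩ := exists_quad (Matrix.reindex e e G) (Matrix.reindex e e (Cfsg.jordanTypeMatrix d F))
      halt hinv
    have hJdet : (Matrix.reindex e e (Cfsg.jordanTypeMatrix d F)).det ≠ 0 := by
      intro h0
      apply hdet
      rw [← hinv, Matrix.det_mul, h0, mul_zero]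
    refine ⟨Q, ?_, e, ⟨Matrix.GeneralLinearGroup.mkOfDetNeZero _ hJdet,
      (H17.OrthDet.mem_isometryGroup_iff _ _).mpr hQ⟩, IsConj.refl _⟩
    rw [H48.QuadWitt.nondeg_iff]
    intro x hx
    by_contra hx0
    apply hdet
    apply Matrix.exists_mulVec_eq_zero_iff.mp
    refine ⟨x, hx0, ?_⟩
    funext i
    have h3 := hx (Pi.single i 1)
    rw [QuadraticMap.polar_comm, hpol, single_dotProduct, one_mul] at h3
    exact h3

end H48.JTForm
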