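import Cfsg.Agent.Lib.H48.OmegaNeg
import Cfsg.Agent.Lib.H48.Gram

set_option autoImplicit false
set_option linter.unusedSectionVars false
set_option linter.style.haveILetI false

/-! `-1 ∈ Ω(Q)` if and only if the discriminant is a square (even dimension, odd characteristic). -/

namespace H48.OmegaNegOne

open QuadraticMap Matrix H48.OmegaPlus H48.QuadStd H48.QuadSplit H48.Gram

variable {F : Type*} [Field F] {V : Type*} [AddCommGroup V] [Module F V] [FiniteDimensional F V]

/-- orthogonal bases of non-singular vectors -/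
theorem exists_ortho_basis (h2 : (2 : F) ≠ 0) (Q : QuadraticForm F V)
    (hQ : (polarBilin Q).Nondegenerate) :
    ∃ b : Module.Basis (Fin (Module.finrank F V)) F V,
      (∀ i, Q (b i) ≠ 0) ∧ ∀ i j, i ≠ j → polar (⇑Q) (b i) (b j) = 0 := by
  haveI : Invertible (2 : F) := invertibleOfNonzero h2
  have hs : LinearMap.IsSymm (polarBilin Q) := by
    constructor
    intro x y
    simp only [polarBilin_apply_apply]
    exact polar_comm _ _ _
  obtain ⟨b, hb⟩ := LinearMap.BilinForm.exists_orthogonal_basis hs
  have ho : ∀ i j, i ≠ j → polar (⇑Q) (b i) (b j) = 0 := fun i j hij => hb hij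
  refine ⟨b, ?_, ho⟩
  intro i hi
  have h0 : ∀ y, polarBilin Q (b i) y = 0 := by
    intro y
    have : polarBilin Q (b i) = 0 := by
      apply b.ext
      intro j
      rw [polarBilin_apply_apply, LinearMap.zero_apply]
      by_cases hij : i = j
      · subst hij
        rw [QuadraticMap.polar_self, hi]; simp
      · exact ho i j hij
    rw [this]; rfl
  exact b.ne_zero i (hQ.1 (b i) h0)

theorem gdet_ortho {ι : Type*} [Fintype ι] [DecidableEq ι] (Q : QuadraticForm F V)
    (b : Module.Basis ι F V)
    (ho : ∀ i j, i ≠ j → polar (⇑Q) (b i) (b j) = 0) :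
    gdet Q b = 2 ^ Fintype.card ι * ∏ i, Q (b i) := by
  rw [gdet]
  have : (Matrix.of (fun i j : ι => polar (⇑Q) (b i) (b j))) =
      Matrix.diagonal (fun i => 2 * Q (b i)) := by
    ext i j
    rw [Matrix.of_apply]
    by_cases hij : i = j
    · subst hij
      rw [Matrix.diagonal_apply_eq, QuadraticMap.polar_self]; simp
    · rw [Matrix.diagonal_apply_ne _ hij, ho i j hij]
  rw [this, Matrix.det_diagonal, Finset.prod_mul_distrib]
  simp

end H48.OmegaNegOne
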