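import Cfsg.Agent.Lib.H48.OutO9
import Cfsg.Agent.Lib.H50.OrthField

set_option autoImplicit false
set_option linter.unusedSectionVars false
set_option linter.style.haveILetI false
set_option linter.unusedVariables false

/-! Images of the similarity groups in `Aut (PΩ)`, modulo inner automorphisms. -/

namespace H48.Pgo

open Matrix QuadraticMap H48.OutO H48.QuadStd H50.OrthPsi H50.OrthSim

/-! ### abstract lemmas -/

theorem main {G A X : Type*} [Group G] [Group A] [Group X] (ψ : G →* A) (χ : G →* X) (hχ : Function.Surjective χ)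
    (S T : Subgroup A) (hS : S = ψ.range) (hT : ∀ g, χ g = 1 ↔ ψ g ∈ T) :
    ∃ φ : ↥S →* X, Function.Surjective φ ∧ φ.ker = T.subgroupOf S := by
  subst hS
  have hker : ψ.rangeRestrict.ker ≤ χ.ker := by
    intro g hg
    rw [MonoidHom.mem_ker] at hg ⊢
    rw [hT]
    have h1 : ψ g = 1 := congrArg Subtype.val hg
    rw [h1]
    exact T.one_mem
  refine ⟨ψ.rangeRestrict.liftOfSurjective ψ.rangeRestrict_surjective ⟨χ, hker⟩, ?_, ?_⟩
  · intro x
    obtain ⟨g, rfl⟩ := hχ x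
    exact ⟨ψ.rangeRestrict g, MonoidHom.liftOfRightInverse_comp_apply _ _ _ ⟨χ, hker⟩ g⟩
  · ext a
    obtain ⟨g, rfl⟩ := ψ.rangeRestrict_surjective a
    rw [MonoidHom.mem_ker, Subgroup.mem_subgroupOf]
    have h1 : (ψ.rangeRestrict.liftOfSurjective ψ.rangeRestrict_surjective ⟨χ, hker⟩) (ψ.rangeRestrict g) = χ g :=
      MonoidHom.liftOfRightInverse_comp_apply _ _ _ ⟨χ, hker⟩ g
    rw [h1]
    exact hT g

open Classical in
theorem exists_char {G : Type*} [Group G] (P : G → Prop) (hP : ∀ g h, P (g * h) ↔ (P g ↔ P h)) :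
    ∃ χ : G →* Multiplicative (ZMod 2), ∀ g, χ g = 1 ↔ P g := by
  have h1 : P 1 := by
    have := hP 1 1
    rw [mul_one] at this
    exact this.mpr Iff.rfl
  have hne : (Multiplicative.ofAdd (1 : ZMod 2)) ≠ 1 := by decide
  refine ⟨{ toFun := fun g => if P g then 1 else Multiplicative.ofAdd 1
            map_one' := if_pos h1
            map_mul' := fun g h => ?_ }, fun g => ?_⟩
  · have := hP g h
    by_cases hg : P g <;> by_cases hh : P h
    · have h3 : P (g * h) := this.mpr ⟨fun _ => hh, fun _ => hg⟩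
      simp only [hg, hh, h3, if_true, mul_one]
    · have h3 : ¬ P (g * h) := fun h4 => hh ((this.mp h4).mp hg)
      simp only [hg, hh, h3, if_true, if_false, one_mul]
    · have h3 : ¬ P (g * h) := fun h4 => hg ((this.mp h4).mpr hh)
      simp only [hg, hh, h3, if_true, if_false, mul_one]
    · have h3 : P (g * h) := this.mpr ⟨fun h4 => absurd h4 hg, fun h4 => absurd h4 hh⟩
      simp only [hg, hh, h3, if_true, if_false]
      decide
  · change (if P g then (1 : Multiplicative (ZMod 2)) else Multiplicative.ofAdd 1) = 1 ↔ P g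
    by_cases hg : P g
    · simp [hg]
    · simp [hg, hne]

theorem char_surj {G : Type*} [Group G] {P : G → Prop} {χ : G →* Multiplicative (ZMod 2)} (hχ : ∀ g, χ g = 1 ↔ P g)
    {g : G} (hg : ¬ P g) : Function.Surjective χ := by
  have h1 : χ g ≠ 1 := fun h => hg ((hχ g).mp h)
  have h2 : ∀ x y : Multiplicative (ZMod 2), x ≠ 1 → y = 1 ∨ y = x := by decide
  intro y
  rcases h2 (χ g) y h1 with h | h
  · exact ⟨1, by rw [map_one, h]⟩
  · exact ⟨g, h.symm⟩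

theorem exists_char2 {G : Type*} [Group G] (P P' : G → Prop) (hP : ∀ g h, P (g * h) ↔ (P g ↔ P h))
    (hP' : ∀ g h, P' (g * h) ↔ (P' g ↔ P' h)) {g₁ g₂ : G} (h1 : P g₁) (h1' : ¬ P' g₁) (h2 : ¬ P g₂) (h2' : P' g₂) :
    ∃ χ : G →* Multiplicative (ZMod 2 × ZMod 2), Function.Surjective χ ∧ ∀ g, χ g = 1 ↔ (P g ∧ P' g) := by
  obtain ⟨χ, hχ⟩ := exists_char P hP
  obtain ⟨χ', hχ'⟩ := exists_char P' hP'
  have e : ∀ x y : Multiplicative (ZMod 2), x ≠ 1 → y ≠ 1 → x = y := by decide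
  let ξ : G →* Multiplicative (ZMod 2 × ZMod 2) :=
    { toFun := fun g => Multiplicative.ofAdd ((χ g).toAdd, (χ' g).toAdd)
      map_one' := by rw [map_one χ, map_one χ']; rfl
      map_mul' := fun g h => by rw [map_mul χ, map_mul χ']; rfl }
  have hξ : ∀ g, ξ g = 1 ↔ (χ g = 1 ∧ χ' g = 1) := by
    intro g
    change Multiplicative.ofAdd ((χ g).toAdd, (χ' g).toAdd) = 1 ↔ _
    rw [ofAdd_eq_one, Prod.mk_eq_zero, toAdd_eq_zero, toAdd_eq_zero]
  refine ⟨ξ, ?_, fun g => ?_⟩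
  · intro y
    have e1 : χ g₁ = 1 := (hχ g₁).mpr h1
    have e2 : χ' g₁ ≠ 1 := fun h => h1' ((hχ' g₁).mp h)
    have e3 : χ g₂ ≠ 1 := fun h => h2 ((hχ g₂).mp h)
    have e4 : χ' g₂ = 1 := (hχ' g₂).mpr h2'
    have e5 : ξ g₁ = Multiplicative.ofAdd ((0 : ZMod 2), (1 : ZMod 2)) := by
      change Multiplicative.ofAdd ((χ g₁).toAdd, (χ' g₁).toAdd) = _
      rw [e1, e _ (Multiplicative.ofAdd (1 : ZMod 2)) e2 (by decide)]
      rfl
    have e6 : ξ g₂ = Multiplicative.ofAdd ((1 : ZMod 2), (0 : ZMod 2)) := by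
      change Multiplicative.ofAdd ((χ g₂).toAdd, (χ' g₂).toAdd) = _
      rw [e4, e _ (Multiplicative.ofAdd (1 : ZMod 2)) e3 (by decide)]
      rfl
    have e7 : ∀ y : Multiplicative (ZMod 2 × ZMod 2), y = 1 ∨ y = Multiplicative.ofAdd ((0 : ZMod 2), (1 : ZMod 2)) ∨
        y = Multiplicative.ofAdd ((1 : ZMod 2), (0 : ZMod 2)) ∨
        y = Multiplicative.ofAdd ((0 : ZMod 2), (1 : ZMod 2)) * Multiplicative.ofAdd ((1 : ZMod 2), (0 : ZMod 2)) := by
      decide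
    rcases e7 y with h | h | h | h
    · exact ⟨1, by rw [map_one, h]⟩
    · exact ⟨g₁, by rw [e5, h]⟩
    · exact ⟨g₂, by rw [e6, h]⟩
    · exact ⟨g₁ * g₂, by rw [map_mul, e5, e6, h]⟩
  · rw [hξ, hχ, hχ']

theorem two_sq {A : Type*} [Group A] {a b : A} (ha : a * a = 1) (hb : b * b = 1) (hab : a * b = b * a) :
    (a * b) * (a * b) = 1 := by
  calc (a * b) * (a * b) = a * (b * a) * b := by group
    _ = (a * a) * (b * b) := by rw [← hab]; group
    _ = 1 := by rw [ha, hb, mul_one]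

theorem or_iff {A : Type*} [Group A] {z x y xy : A} (hz : z ≠ 1) (hzz : z * z = 1) (h : xy = x * y)
    (hx : x = 1 ∨ x = z) (hy : y = 1 ∨ y = z) : xy = 1 ↔ (x = 1 ↔ y = 1) := by
  subst h
  rcases hx with rfl | rfl <;> rcases hy with rfl | rfl
  · simp
  · simp [hz]
  · simp [hz]
  · simp [hz, hzz]

/-! ### similarities -/

variable {F : Type*} [Field F] {ι : Type} [Fintype ι] [DecidableEq ι] {Q : QuadraticForm F (ι → F)}

theorem mem_sl {g : GL ι F} (h : (g : Matrix ι ι F).det = 1) : g ∈ Cfsg.Geo.specialLinear ι F :=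
  MonoidHom.mem_ker.mpr (Units.ext h)

/-- special isometries as similarities -/
def soG (Q : QuadraticForm F (ι → F)) : ↥(Cfsg.specialIsometryGL F (⇑Q)) →* ↥(simG Q) :=
  (isoG Q).comp (Subgroup.inclusion inf_le_left)

theorem range_pso (Q : QuadraticForm F (ι → F)) : Cfsg.psoAut F (⇑Q) = ((psi1 Q).comp (soG Q)).range := by
  rw [Cfsg.psoAut, Cfsg.autSubgroupOf]
  have h1 : {β : MulAut (Cfsg.POmega F (⇑Q)) | Cfsg.IsSpecialIsometryInducedAutPOmega (⇑Q) β} =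
      (((psi1 Q).comp (soG Q)).range : Set (MulAut (Cfsg.POmega F (⇑Q)))) := by
    ext β
    constructor
    · rintro ⟨g, h1, h2⟩
      exact ⟨⟨g, h1⟩, ((isInduced_iff (soG Q ⟨g, h1⟩) β).mp h2).symm⟩
    · rintro ⟨g, rfl⟩
      exact ⟨g.1, g.2, (isInduced_iff (soG Q g) _).mpr rfl⟩
  exact (congrArg Subgroup.closure h1).trans (Subgroup.closure_eq _)

/-- square multiplier -/
def SqM (Q : QuadraticForm F (ι → F)) (g : ↥(simG Q)) : Prop :=
  ∃ c, c ≠ 0 ∧ IsMult Q (toGam Q g : GA ι F) c ∧ IsSquare c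

/-- proper similarity in dimension `2m` -/
def Prp (Q : QuadraticForm F (ι → F)) (m : ℕ) (g : ↥(simG Q)) : Prop :=
  ∃ c, c ≠ 0 ∧ IsMult Q (toGam Q g : GA ι F) c ∧ ((g : GL ι F) : Matrix ι ι F).det = c ^ m

theorem mult_mul {g h : ↥(simG Q)} {c c' : F} (hg : IsMult Q (toGam Q g : GA ι F) c) (hh : IsMult Q (toGam Q h : GA ι F) c') :
    IsMult Q (toGam Q (g * h) : GA ι F) (c * c') := by
  rw [map_mul]
  exact hg.mul' rfl hh

theorem toGam_right (g : ↥(simG Q)) : ((toGam Q g : ↥(Gam Q)) : GA ι F).right = 1 := rfl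

section odd

variable [Fintype F] (h2 : (2 : F) ≠ 0) (hQ : (polarBilin Q).Nondegenerate) (hn : 7 ≤ Fintype.card ι)
include h2 hQ hn

theorem exists_Q_ne : ∃ v : ι → F, Q v ≠ 0 := by
  obtain ⟨v₁, hv₁⟩ := exists_Q_eq hQ hn (one_ne_zero (α := F))
  exact ⟨v₁, by rw [hv₁]; exact one_ne_zero⟩

theorem sqM_iff {g : ↥(simG Q)} {c : F} (hg : IsMult Q (toGam Q g : GA ι F) c) : SqM Q g ↔ IsSquare c := by
  obtain ⟨v, hv⟩ := exists_Q_ne h2 hQ hn
  constructor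
  · rintro ⟨c', -, h1, h3⟩
    rwa [mult_unique hv hg h1]
  · intro h
    obtain ⟨c', hc', h1⟩ := exists_mult (toGam Q g)
    exact ⟨c', hc', h1, by rwa [mult_unique hv h1 hg]⟩

theorem prp_iff {m : ℕ} {g : ↥(simG Q)} {c : F} (hg : IsMult Q (toGam Q g : GA ι F) c) :
    Prp Q m g ↔ ((g : GL ι F) : Matrix ι ι F).det = c ^ m := by
  obtain ⟨v, hv⟩ := exists_Q_ne h2 hQ hn
  constructor
  · rintro ⟨c', -, h1, h3⟩
    rw [h3, mult_unique hv hg h1]
  · intro h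
    obtain ⟨c', hc', h1⟩ := exists_mult (toGam Q g)
    exact ⟨c', hc', h1, by rw [h, mult_unique hv h1 hg]⟩

theorem not_prp_iff {m : ℕ} (hm : Fintype.card ι = 2 * m) {g : ↥(simG Q)} {c : F} (hc : c ≠ 0)
    (hg : IsMult Q (toGam Q g : GA ι F) c) :
    ¬ Prp Q m g ↔ ((g : GL ι F) : Matrix ι ι F).det = - c ^ m := by
  rw [prp_iff h2 hQ hn hg]
  have hne : c ^ m ≠ - c ^ m := by
    intro h
    have h3 : (2 : F) * c ^ m = 0 := by linear_combination h
    rcases mul_eq_zero.mp h3 with h4 | h4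
    · exact h2 h4
    · exact pow_ne_zero m hc h4
  rcases proper_or hm hQ (toGam_right g) hg with h | h
  · have h' : ((g : GL ι F) : Matrix ι ι F).det = c ^ m := h
    constructor
    · intro h3; exact absurd h' h3
    · intro h3; rw [h'] at h3; exact absurd h3 hne
  · have h' : ((g : GL ι F) : Matrix ι ι F).det = - c ^ m := h
    constructor
    · intro _; exact h'
    · intro _ h4
      rw [h'] at h4
      exact hne h4.symm

theorem sqM_mul (g h : ↥(simG Q)) : SqM Q (g * h) ↔ (SqM Q g ↔ SqM Q h) := by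
  obtain ⟨c, hc, h1⟩ := exists_mult (toGam Q g)
  obtain ⟨c', hc', h1'⟩ := exists_mult (toGam Q h)
  rw [sqM_iff h2 hQ hn (mult_mul h1 h1'), sqM_iff h2 hQ hn h1, sqM_iff h2 hQ hn h1']
  exact H48.FinFieldSq.isSquare_mul_iff hc hc'

theorem prp_mul {m : ℕ} (hm : Fintype.card ι = 2 * m) (g h : ↥(simG Q)) : Prp Q m (g * h) ↔ (Prp Q m g ↔ Prp Q m h) := by
  obtain ⟨c, hc, h1⟩ := exists_mult (toGam Q g)
  obtain ⟨c', hc', h1'⟩ := exists_mult (toGam Q h)
  have hdet : (((g * h : ↥(simG Q)) : GL ι F) : Matrix ι ι F).det =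
      ((g : GL ι F) : Matrix ι ι F).det * ((h : GL ι F) : Matrix ι ι F).det := by
    rw [Subgroup.coe_mul, Units.val_mul, Matrix.det_mul]
  have hcc : c * c' ≠ 0 := mul_ne_zero hc hc'
  by_cases hg : Prp Q m g <;> by_cases hh : Prp Q m h
  · have e1 := (prp_iff h2 hQ hn h1).mp hg
    have e2 := (prp_iff h2 hQ hn h1').mp hh
    have e3 : Prp Q m (g * h) := by
      rw [prp_iff h2 hQ hn (mult_mul h1 h1'), hdet, e1, e2, mul_pow]
    tauto
  · have e1 := (prp_iff h2 hQ hn h1).mp hg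
    have e2 := (not_prp_iff h2 hQ hn hm hc' h1').mp hh
    have e3 : ¬ Prp Q m (g * h) := by
      rw [not_prp_iff h2 hQ hn hm hcc (mult_mul h1 h1'), hdet, e1, e2, mul_pow]
      ring
    tauto
  · have e1 := (not_prp_iff h2 hQ hn hm hc h1).mp hg
    have e2 := (prp_iff h2 hQ hn h1').mp hh
    have e3 : ¬ Prp Q m (g * h) := by
      rw [not_prp_iff h2 hQ hn hm hcc (mult_mul h1 h1'), hdet, e1, e2, mul_pow]
      ring
    tauto
  · have e1 := (not_prp_iff h2 hQ hn hm hc h1).mp hg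
    have e2 := (not_prp_iff h2 hQ hn hm hc' h1').mp hh
    have e3 : Prp Q m (g * h) := by
      rw [prp_iff h2 hQ hn (mult_mul h1 h1'), hdet, e1, e2, mul_pow]
      ring
    tauto

theorem pso_iff {m : ℕ} (hm : Fintype.card ι = 2 * m) (g : ↥(simG Q)) :
    psi1 Q g ∈ Cfsg.psoAut F (⇑Q) ↔ SqM Q g ∧ Prp Q m g := by
  rw [range_pso]
  constructor
  · rintro ⟨s, hs⟩
    obtain ⟨u, hu⟩ := (psi1_eq_iff hQ hn).mp (show psi1 Q (soG Q s) = psi1 Q g from hs)
    have hg : g = scG Q u⁻¹ * soG Q s := by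
      rw [hu, ← mul_assoc, ← map_mul, inv_mul_cancel, map_one, one_mul]
    set w : Fˣ := u⁻¹ with hw
    have hm1 : IsMult Q (toGam Q (scG Q w) : GA ι F) ((w : F) * (w : F)) := by
      intro v
      rw [toGam_coe, ap_inl, scG_coe, sc_mulVec, QuadraticMap.map_smul]
      rfl
    have hm2 : IsMult Q (toGam Q (soG Q s) : GA ι F) 1 := by
      intro v
      have h5 := (H17.OrthDet.mem_isometryGroup_iff _ _).mp s.2.1 v
      rw [toGam_coe, ap_inl, one_mul]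
      exact h5
    have hm3 := mult_mul hm1 hm2
    rw [← hg, mul_one] at hm3
    have hd : ((s : GL ι F) : Matrix ι ι F).det = 1 := by
      have h5 := s.2.2
      exact congrArg Units.val (MonoidHom.mem_ker.mp h5)
    have hdet : ((g : GL ι F) : Matrix ι ι F).det = ((w : F) * (w : F)) ^ m := by
      rw [hg, Subgroup.coe_mul, Units.val_mul, Matrix.det_mul, scG_coe, H50.PSLField.sc_coe, Matrix.det_smul, Matrix.det_one, mul_one,
        hm, pow_mul, ← pow_two]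
      change ((w : F) ^ 2) ^ m * ((s : GL ι F) : Matrix ι ι F).det = _
      rw [hd, mul_one]
    exact ⟨(sqM_iff h2 hQ hn hm3).mpr ⟨_, rfl⟩, (prp_iff h2 hQ hn hm3).mpr hdet⟩
  · rintro ⟨⟨c, hc, hg, l, rfl⟩, hp⟩
    have hdet := (prp_iff h2 hQ hn hg).mp hp
    have hl : l ≠ 0 := left_ne_zero_of_mul hc
    set w : Fˣ := Units.mk0 l hl with hw
    have hiso : ((scG Q w⁻¹ * g : ↥(simG Q)) : GL ι F) ∈ Cfsg.isometryGroup F (⇑Q) := by
      rw [H17.OrthDet.mem_isometryGroup_iff]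
      intro v
      have h5 := hg v
      rw [toGam_coe, ap_inl] at h5
      rw [Subgroup.coe_mul, Units.val_mul, ← Matrix.mulVec_mulVec, scG_coe, sc_mulVec, QuadraticMap.map_smul, h5,
        smul_eq_mul, Units.val_inv_eq_inv_val, hw, Units.val_mk0]
      change l⁻¹ * l⁻¹ * (l * l * Q v) = Q v
      field_simp
    have hd : (((scG Q w⁻¹ * g : ↥(simG Q)) : GL ι F) : Matrix ι ι F).det = 1 := by
      rw [Subgroup.coe_mul, Units.val_mul, Matrix.det_mul, scG_coe, H50.PSLField.sc_coe, Matrix.det_smul, Matrix.det_one, mul_one,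
        hm, hdet, pow_mul, Units.val_inv_eq_inv_val, hw, Units.val_mk0, ← mul_pow]
      have : l⁻¹ ^ 2 * (l * l) = 1 := by field_simp
      rw [this, one_pow]
    refine ⟨⟨_, hiso, ?_⟩, ?_⟩
    · exact mem_sl hd
    · change psi1 Q (scG Q w⁻¹ * g) = _
      rw [map_mul, psi1_scG, one_mul]

/-- `PGO / PSO` -/
theorem pgo_mod_pso {m : ℕ} (hm : Fintype.card ι = 2 * m) (d : ↥(Gam Q)) (hd : (d : GA ι F).right = 1) {e : F}
    (he : ¬ IsSquare e) (hde : IsMult Q (d : GA ι F) e) :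
    ∃ φ : ↥(Cfsg.pgoAut F (⇑Q)) →* Multiplicative (ZMod 2 × ZMod 2), Function.Surjective φ ∧
      φ.ker = (Cfsg.psoAut F (⇑Q)).subgroupOf (Cfsg.pgoAut F (⇑Q)) := by
  obtain ⟨v, hv⟩ := exists_Q_ne h2 hQ hn
  have he0 : e ≠ 0 := by
    rintro rfl
    exact he IsSquare.zero
  -- the reflection
  let r : ↥(simG Q) := isoG Q (H17.OrthDet.refl Q v hv)
  have hr1 : IsMult Q (toGam Q r : GA ι F) 1 := IsMult.one (g := H17.OrthDet.refl Q v hv)
  have hrd : ((r : GL ι F) : Matrix ι ι F).det = -1 := H17.OrthMat.reflection_det Q v hv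
  have hr2 : SqM Q r := (sqM_iff h2 hQ hn hr1).mpr IsSquare.one
  have hr3 : ¬ Prp Q m r := by
    rw [not_prp_iff h2 hQ hn hm one_ne_zero hr1, hrd, one_pow]
  obtain ⟨g, hg⟩ := exists_toGam hd
  have hg1 : IsMult Q (toGam Q g : GA ι F) e := by rw [hg]; exact hde
  have hg2 : ¬ SqM Q g := by rwa [sqM_iff h2 hQ hn hg1]
  obtain ⟨g', hg', hg''⟩ : ∃ g' : ↥(simG Q), ¬ SqM Q g' ∧ Prp Q m g' := by
    by_cases hp : Prp Q m g
    · exact ⟨g, hg2, hp⟩
    · refine ⟨g * r, ?_, ?_⟩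
      · rw [sqM_mul h2 hQ hn]
        exact fun h => hg2 (h.mpr hr2)
      · rw [prp_mul h2 hQ hn hm]
        exact ⟨fun h => absurd h hp, fun h => absurd h hr3⟩
  obtain ⟨χ, h1, h3⟩ := exists_char2 (SqM Q) (Prp Q m) (sqM_mul h2 hQ hn) (prp_mul h2 hQ hn hm) hr2 hr3 hg' hg''
  apply main (psi1 Q) χ h1 _ _ (H50.OrthField.range_psi1 Q)
  intro g
  rw [h3, pso_iff h2 hQ hn hm]

/-! ### inner automorphisms -/

theorem inn_le_pso : Cfsg.Inn (Cfsg.POmega F (⇑Q)) ≤ Cfsg.psoAut F (⇑Q) := by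
  rintro _ ⟨a, rfl⟩
  obtain ⟨s, rfl⟩ := QuotientGroup.mk_surjective a
  rw [range_pso]
  refine ⟨⟨s.1.1, s.1.2, ?_⟩, psi1_isoG s⟩
  exact mem_sl (det_of_mem s.2)

theorem inn_iff_pi (g : ↥(simG Q)) : psi1 Q g ∈ Cfsg.Inn (Cfsg.POmega F (⇑Q)) ↔ pi Q (toGam Q g) = 1 :=
  (QuotientGroup.eq_one_iff _).symm

theorem pso_eq_inn (hneg : ¬ NegMem Q) {m : ℕ} (hm : Fintype.card ι = 2 * m) :
    Cfsg.psoAut F (⇑Q) = Cfsg.Inn (Cfsg.POmega F (⇑Q)) := by
  apply le_antisymm _ (inn_le_pso h2 hQ hn)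
  rw [range_pso]
  rintro _ ⟨s, rfl⟩
  change psi1 Q (soG Q s) ∈ _
  rw [inn_iff_pi h2 hQ hn]
  obtain ⟨c₂, hc₂⟩ := H48.FinFieldSq.exists_not_isSquare h2
  have hc₂0 : c₂ ≠ 0 := by
    rintro rfl
    exact hc₂ IsSquare.zero
  obtain ⟨v₁, hv₁⟩ := exists_Q_eq hQ hn (one_ne_zero (α := F))
  obtain ⟨v₂, hv₂⟩ := exists_Q_eq hQ hn hc₂0
  have h1 : Q v₁ ≠ 0 := by rw [hv₁]; exact one_ne_zero
  have h1' : IsSquare (Q v₁) := by rw [hv₁]; exact IsSquare.one
  have h2' : Q v₂ ≠ 0 := by rw [hv₂]; exact hc₂0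
  have hh2 : ¬ IsSquare (Q v₂) := by rw [hv₂]; exact hc₂
  have hns : ¬ IsSquare (Q v₁ * Q v₂) := by rw [hv₁, one_mul]; exact hh2
  have hz := z_eq_one h2 hQ hn h1 h2' hns hneg ⟨m, by omega⟩
  have hd : ((s : GL ι F) : Matrix ι ι F).det = 1 := congrArg Units.val (MonoidHom.mem_ker.mp s.2.2)
  rcases pi_emb_cases h2 hQ hn h1 h1' hh2 h2' ⟨s.1, s.2.1⟩ with ⟨e1, e2⟩ | ⟨e1, e2⟩
  · rw [hz] at e2
    rcases e2 with e2 | e2 <;> exact e2
  · exfalso
    have e1' : ((s : GL ι F) : Matrix ι ι F).det = -1 := e1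
    rw [hd] at e1'
    have h7 : (2 : F) = 0 := by linear_combination e1'
    exact h2 h7

theorem relIndex_neg (hneg : NegMem Q) {m : ℕ} (hm : Fintype.card ι = 2 * m) :
    (Cfsg.Inn (Cfsg.POmega F (⇑Q))).relIndex (Cfsg.psoAut F (⇑Q)) = 2 := by
  obtain ⟨c₂, hc₂⟩ := H48.FinFieldSq.exists_not_isSquare h2
  have hc₂0 : c₂ ≠ 0 := by
    rintro rfl
    exact hc₂ IsSquare.zero
  obtain ⟨v₁, hv₁⟩ := exists_Q_eq hQ hn (one_ne_zero (α := F))
  obtain ⟨v₂, hv₂⟩ := exists_Q_eq hQ hn hc₂0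
  have h1 : Q v₁ ≠ 0 := by rw [hv₁]; exact one_ne_zero
  have h1' : IsSquare (Q v₁) := by rw [hv₁]; exact IsSquare.one
  have h2' : Q v₂ ≠ 0 := by rw [hv₂]; exact hc₂0
  have hh2 : ¬ IsSquare (Q v₂) := by rw [hv₂]; exact hc₂
  have hns : ¬ IsSquare (Q v₁ * Q v₂) := by rw [hv₁, one_mul]; exact hh2
  have hz : pi Q (Rf Q v₁ h1) * pi Q (Rf Q v₂ h2') ≠ 1 := z_ne_one_of_neg h2 hQ hn h1 h2' hns hneg
  have ha := pi_Rf_sq (Q := Q) v₁ h1
  have hb := pi_Rf_sq (Q := Q) v₂ h2'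
  have hab := pi_Rf_comm h2 hQ hn h1 h2'
  have hcase : ∀ s : ↥(Cfsg.specialIsometryGL F (⇑Q)), pi Q (toGam Q (soG Q s)) = 1 ∨
      pi Q (toGam Q (soG Q s)) = pi Q (Rf Q v₁ h1) * pi Q (Rf Q v₂ h2') := by
    intro s
    have hd : ((s : GL ι F) : Matrix ι ι F).det = 1 := congrArg Units.val (MonoidHom.mem_ker.mp s.2.2)
    rcases pi_emb_cases h2 hQ hn h1 h1' hh2 h2' ⟨s.1, s.2.1⟩ with ⟨e1, e2⟩ | ⟨e1, e2⟩
    · exact e2
    · exfalso
      have e1' : ((s : GL ι F) : Matrix ι ι F).det = -1 := e1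
      rw [hd] at e1'
      have h7 : (2 : F) = 0 := by linear_combination e1'
      exact h2 h7
  have hzz : (pi Q (Rf Q v₁ h1) * pi Q (Rf Q v₂ h2')) * (pi Q (Rf Q v₁ h1) * pi Q (Rf Q v₂ h2')) = 1 :=
    two_sq ha hb hab
  obtain ⟨χ, hχ⟩ := exists_char (fun s : ↥(Cfsg.specialIsometryGL F (⇑Q)) => pi Q (toGam Q (soG Q s)) = 1) (by
    intro s t
    have e1 : pi Q (toGam Q (soG Q (s * t))) = pi Q (toGam Q (soG Q s)) * pi Q (toGam Q (soG Q t)) := by
      rw [map_mul, map_mul, map_mul]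
    exact or_iff hz hzz e1 (hcase s) (hcase t))
  let s₀ : ↥(Cfsg.specialIsometryGL F (⇑Q)) := ⟨(H17.OrthDet.refl Q v₁ h1 * H17.OrthDet.refl Q v₂ h2' :
    ↥(Cfsg.isometryGroup F (⇑Q))).1, (H17.OrthDet.refl Q v₁ h1 * H17.OrthDet.refl Q v₂ h2').2, by
      apply mem_sl
      change (((H17.OrthDet.refl Q v₁ h1 * H17.OrthDet.refl Q v₂ h2' : ↥(Cfsg.isometryGroup F (⇑Q))) : GL ι F) :
        Matrix ι ι F).det = 1
      rw [Subgroup.coe_mul, Units.val_mul, Matrix.det_mul, H17.OrthDet.refl_coe, H17.OrthDet.refl_coe,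
        H17.OrthMat.reflection_det Q v₁ h1, H17.OrthMat.reflection_det Q v₂ h2']
      ring⟩
  have hs₀ : pi Q (toGam Q (soG Q s₀)) ≠ 1 := by
    have : pi Q (toGam Q (soG Q s₀)) = pi Q (Rf Q v₁ h1) * pi Q (Rf Q v₂ h2') := by
      rw [← map_mul]
      rfl
    rw [this]
    exact hz
  obtain ⟨φ, h3, h4⟩ := main ((psi1 Q).comp (soG Q)) χ (char_surj hχ hs₀) _ (Cfsg.Inn (Cfsg.POmega F (⇑Q)))
    (range_pso Q) (by
      intro s
      rw [hχ]
      exact (inn_iff_pi h2 hQ hn _).symm)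
  rw [Subgroup.relIndex, ← h4, Subgroup.index_ker, MonoidHom.range_eq_top.mpr h3]
  simp

end odd

end H48.Pgo
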