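import Cfsg.Agent.Lib.H48.Pgo1
import Cfsg.Agent.Lib.H18.MaxSing

set_option autoImplicit false
set_option linter.unusedSectionVars false
set_option linter.style.haveILetI false
set_option linter.unusedVariables false

/-! Similarities preserving the two classes of maximal totally singular subspaces. -/

namespace H48.Pgo

open Matrix QuadraticMap H48.OutO H48.QuadStd H50.OrthPsi H50.OrthSim H18.MaxSing H48.QuadSplit

theorem iff_helper {a b c : Prop} (ha : ¬ a) (hb : ¬ b) : (a ↔ c) ↔ (b ↔ c) := by tauto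

theorem iff_helper3 {a b c : Prop} (ha : a) (hb : b) : (a ↔ c) ↔ (b ↔ c) := by tauto

theorem iff_helper2 {a b c d e : Prop} (h1 : a ↔ (b ↔ c)) (h2 : a ↔ (d ↔ e)) (hb : b) (hd : d) : c ↔ e := by tauto

section sing

variable {F : Type*} [Field F] {ι : Type} [Fintype ι] [DecidableEq ι] {Q : QuadraticForm F (ι → F)} {n : ℕ}

theorem maxTS_iff (hQ : ND Q) (hn : Module.finrank F (ι → F) = 2 * n) {E : Submodule F (ι → F)}
    (hE : TS Q E) (hEn : Module.finrank F E = n) (U : Submodule F (ι → F)) :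
    Cfsg.IsMaxTotallySingular (⇑Q) U ↔ TS Q U ∧ Module.finrank F U = n := by
  constructor
  · rintro ⟨h1, h2⟩
    have hU : TS Q U := h1
    refine ⟨hU, ?_⟩
    have h3 := h2 _ (ts_replace hE hU) le_sup_right
    have h4 := finrank_replace hQ hn hE hEn hU
    rw [h3] at h4
    exact h4
  · rintro ⟨h1, h2⟩
    refine ⟨h1, fun W hW hUW => ?_⟩
    have h3 := finrank_le hQ hn (show TS Q W from hW)
    exact (Submodule.eq_of_le_of_finrank_le hUW (by omega)).symm

/-- image of a subspace -/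
abbrev im (g : GL ι F) (U : Submodule F (ι → F)) : Submodule F (ι → F) :=
  Cfsg.imageSubmodule (g : Matrix ι ι F) U

theorem mem_im {g : GL ι F} {U : Submodule F (ι → F)} {x : ι → F} :
    x ∈ im g U ↔ ∃ y ∈ U, (g : Matrix ι ι F) *ᵥ y = x := Iff.rfl

theorem inj_toLin (g : GL ι F) : Function.Injective (Matrix.toLin' (g : Matrix ι ι F)) := by
  intro x y h
  have h1 := congrArg (fun w => ((g⁻¹ : GL ι F) : Matrix ι ι F) *ᵥ w) h
  simp only [Matrix.toLin'_apply, Matrix.mulVec_mulVec, ← Units.val_mul, inv_mul_cancel, Units.val_one,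
    Matrix.one_mulVec] at h1
  exact h1

theorem im_mul (g h : GL ι F) (U : Submodule F (ι → F)) : im (g * h) U = im g (im h U) := by
  ext x
  rw [mem_im, mem_im]
  constructor
  · rintro ⟨y, hy, rfl⟩
    exact ⟨_, mem_im.mpr ⟨y, hy, rfl⟩, by rw [Units.val_mul, Matrix.mulVec_mulVec]⟩
  · rintro ⟨z, hz, rfl⟩
    obtain ⟨y, hy, rfl⟩ := mem_im.mp hz
    exact ⟨y, hy, by rw [Units.val_mul, Matrix.mulVec_mulVec]⟩

theorem im_one (U : Submodule F (ι → F)) : im (1 : GL ι F) U = U := by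
  ext x
  rw [mem_im]
  constructor
  · rintro ⟨y, hy, rfl⟩
    rwa [Units.val_one, Matrix.one_mulVec]
  · intro hx
    exact ⟨x, hx, by rw [Units.val_one, Matrix.one_mulVec]⟩

theorem im_inf (g : GL ι F) (U W : Submodule F (ι → F)) : im g (U ⊓ W) = im g U ⊓ im g W :=
  Submodule.map_inf _ (inj_toLin g)

theorem finrank_im (g : GL ι F) (U : Submodule F (ι → F)) : Module.finrank F (im g U) = Module.finrank F U :=
  (Submodule.equivMapOfInjective _ (inj_toLin g) U).finrank_eq.symm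

theorem ts_im {g : ↥(simG Q)} {U : Submodule F (ι → F)} (hU : TS Q U) : TS Q (im (g : GL ι F) U) := by
  obtain ⟨c, hc⟩ := g.2
  intro x hx
  obtain ⟨y, hy, rfl⟩ := mem_im.mp hx
  rw [hc, hU y hy, mul_zero]

/-- parity relation -/
def ev (n : ℕ) (U W : Submodule F (ι → F)) : Prop := Even (n - Module.finrank F ↥(U ⊓ W))

theorem ev_symm (n : ℕ) (U W : Submodule F (ι → F)) : ev n U W ↔ ev n W U := by
  rw [ev, ev, inf_comm]

theorem ev_im (n : ℕ) (g : GL ι F) (U W : Submodule F (ι → F)) : ev n (im g U) (im g W) ↔ ev n U W := by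
  rw [ev, ev, ← im_inf, finrank_im]

theorem ev_trans (hQ : ND Q) (hn : Module.finrank F (ι → F) = 2 * n) {U W X : Submodule F (ι → F)}
    (hU : TS Q U) (hUn : Module.finrank F U = n) (hW : TS Q W) (hWn : Module.finrank F W = n)
    (hX : TS Q X) (hXn : Module.finrank F X = n) : ev n U X ↔ (ev n U W ↔ ev n W X) := by
  have h := parity hQ hn _ hU hUn hW hWn hX hXn rfl
  rw [Nat.even_add, Nat.even_add] at h
  exact h.symm

theorem ev_mul (hQ : ND Q) (hn : Module.finrank F (ι → F) = 2 * n) {E : Submodule F (ι → F)}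
    (hE : TS Q E) (hEn : Module.finrank F E = n) (g h : ↥(simG Q)) :
    ev n E (im ((g * h : ↥(simG Q)) : GL ι F) E) ↔ (ev n E (im (g : GL ι F) E) ↔ ev n E (im (h : GL ι F) E)) := by
  rw [Subgroup.coe_mul, im_mul]
  rw [ev_trans hQ hn hE hEn (ts_im (g := g) hE) ((finrank_im _ _).trans hEn)
    (ts_im (g := g) (ts_im (g := h) hE)) ((finrank_im _ _).trans ((finrank_im _ _).trans hEn)), ev_im]

theorem ev_indep (hQ : ND Q) (hn : Module.finrank F (ι → F) = 2 * n) {E U : Submodule F (ι → F)}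
    (hE : TS Q E) (hEn : Module.finrank F E = n) (hU : TS Q U) (hUn : Module.finrank F U = n) (g : ↥(simG Q)) :
    ev n U (im (g : GL ι F) U) ↔ ev n E (im (g : GL ι F) E) := by
  have h1 := ev_trans hQ hn hU hUn hE hEn (ts_im (g := g) hU) ((finrank_im _ _).trans hUn)
  have h2 := ev_trans hQ hn hE hEn (ts_im (g := g) hE) ((finrank_im _ _).trans hEn) (ts_im (g := g) hU)
    ((finrank_im _ _).trans hUn)
  rw [ev_im] at h2
  rw [ev_symm n U E] at h1
  rw [h1, h2]
  tauto

/-- reflections exchange the classes -/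
theorem ev_refl (hQ : ND Q) (hn : Module.finrank F (ι → F) = 2 * n) {E : Submodule F (ι → F)}
    (hE : TS Q E) (hEn : Module.finrank F E = n) (v : ι → F) (hv : Q v ≠ 0) :
    ¬ ev n E (im ((H17.OrthDet.refl Q v hv : ↥(Cfsg.isometryGroup F (⇑Q))) : GL ι F) E) := by
  have hap : ∀ x, (((H17.OrthDet.refl Q v hv : ↥(Cfsg.isometryGroup F (⇑Q))) : GL ι F) : Matrix ι ι F) *ᵥ x =
      x - ((Q v)⁻¹ * polar (⇑Q) v x) • v := by
    intro x
    rw [H17.OrthDet.refl_coe, H17.OrthMat.reflectionMatrix_mulVec]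
  have hvE : ∀ c : F, c • v ∈ E → c = 0 := by
    intro c hc
    have h1 := hE _ hc
    rw [QuadraticMap.map_smul, smul_eq_mul] at h1
    exact mul_self_eq_zero.mp ((mul_eq_zero.mp h1).resolve_right hv)
  have h1 : E ⊓ im ((H17.OrthDet.refl Q v hv : ↥(Cfsg.isometryGroup F (⇑Q))) : GL ι F) E =
      E ⊓ orth Q (Submodule.span F {v}) := by
    ext x
    constructor
    · rintro ⟨h1, h2⟩
      obtain ⟨y, hy, hyx⟩ := mem_im.mp h2
      rw [hap] at hyx
      have h3 : (-((Q v)⁻¹ * polar (⇑Q) v y)) • v ∈ E := by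
        have : (-((Q v)⁻¹ * polar (⇑Q) v y)) • v = x - y := by
          rw [← hyx, neg_smul]; abel
        rw [this]
        exact E.sub_mem h1 hy
      have h4 := hvE _ h3
      have h5 : (Q v)⁻¹ * polar (⇑Q) v y = 0 := neg_eq_zero.mp h4
      rw [h5, zero_smul, sub_zero] at hyx
      subst hyx
      refine ⟨hy, ?_⟩
      have h6 : polar (⇑Q) v y = 0 := (mul_eq_zero.mp h5).resolve_left (inv_ne_zero hv)
      intro u hu
      obtain ⟨c, rfl⟩ := Submodule.mem_span_singleton.mp hu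
      rw [polar_smul_left, h6, smul_zero]
    · rintro ⟨h1, h2⟩
      have h3 : polar (⇑Q) v x = 0 := h2 v (Submodule.mem_span_singleton_self v)
      refine ⟨h1, mem_im.mpr ⟨x, h1, ?_⟩⟩
      rw [hap, h3, mul_zero, zero_smul, sub_zero]
  have hv0 : v ≠ 0 := by
    rintro rfl
    exact hv (QuadraticMap.map_zero Q)
  have h2 := finrank_inf_orth hQ hn hE hEn (H := Submodule.span F {v})
  have h3 : E ⊓ Submodule.span F {v} = ⊥ := by
    rw [eq_bot_iff]
    rintro x ⟨hx1, hx2⟩
    obtain ⟨c, rfl⟩ := Submodule.mem_span_singleton.mp hx2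
    rw [hvE c hx1, zero_smul]
    exact Submodule.zero_mem _
  rw [h3, finrank_bot, finrank_span_singleton hv0] at h2
  rw [ev, h1]
  have h4 : n - Module.finrank F ↥(E ⊓ orth Q (Submodule.span F {v})) = 1 := by omega
  rw [h4]
  decide

theorem ev_self {E : Submodule F (ι → F)} (hEn : Module.finrank F E = n) : ev n E E := by
  rw [ev, inf_idem, hEn, Nat.sub_self]
  exact Even.zero

section fin

variable [Fintype F] (h2 : (2 : F) ≠ 0) (hQ : (polarBilin Q).Nondegenerate) (hn : 7 ≤ Fintype.card ι)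
include h2 hQ hn

theorem finrank_fun (hm : Fintype.card ι = 2 * n) : Module.finrank F (ι → F) = 2 * n := by
  rw [Module.finrank_fintype_fun_eq_card, hm]

theorem ev_iso (hm : Fintype.card ι = 2 * n) {E : Submodule F (ι → F)}
    (hE : TS Q E) (hEn : Module.finrank F E = n) (g : ↥(Cfsg.isometryGroup F (⇑Q))) :
    ev n E (im (g : GL ι F) E) ↔ Prp Q n (isoG Q g) := by
  have hND : ND Q := nd_iff.mpr hQ
  have hfr : Module.finrank F (ι → F) = 2 * n := by rw [Module.finrank_fintype_fun_eq_card, hm]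
  obtain ⟨l, -, hl⟩ := exists_prod hQ hn g
  have hg : g = (l.map fun v => H17.OrthDet.refl Q v.1 v.2).prod := by
    apply Subtype.ext
    apply Units.ext
    rw [hl]
    clear hl
    induction l with
    | nil => rfl
    | cons v l ih =>
      rw [List.map_cons, H48.OmegaPlus.rprod_cons, ih, List.map_cons, List.prod_cons, Subgroup.coe_mul, Units.val_mul,
        H17.OrthDet.refl_coe]
  rw [hg]
  clear hg hl
  induction l with
  | nil =>
    rw [List.map_nil, List.prod_nil, map_one]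
    have e1 : ev n E (im ((1 : ↥(Cfsg.isometryGroup F (⇑Q))) : GL ι F) E) := by
      rw [Subgroup.coe_one, im_one]
      exact ev_self hEn
    have e2 : Prp Q n (1 : ↥(simG Q)) := by
      have := prp_mul h2 hQ hn hm 1 1
      rw [mul_one] at this
      exact this.mpr Iff.rfl
    exact ⟨fun _ => e2, fun _ => e1⟩
  | cons v l ih =>
    have ih' : ev n E (im (((l.map fun v => H17.OrthDet.refl Q v.1 v.2).prod : ↥(Cfsg.isometryGroup F (⇑Q))) : GL ι F) E) ↔
        Prp Q n (isoG Q ((l.map fun v => H17.OrthDet.refl Q v.1 v.2).prod)) := ih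
    rw [List.map_cons, List.prod_cons, map_mul, prp_mul h2 hQ hn hm, ← ih']
    have e1 := ev_mul hND hfr hE hEn (isoG Q (H17.OrthDet.refl Q v.1 v.2))
      (isoG Q ((l.map fun v => H17.OrthDet.refl Q v.1 v.2).prod))
    have e2 : ¬ Prp Q n (isoG Q (H17.OrthDet.refl Q v.1 v.2)) := by
      have hr1 : IsMult Q (toGam Q (isoG Q (H17.OrthDet.refl Q v.1 v.2)) : GA ι F) 1 :=
        IsMult.one (g := H17.OrthDet.refl Q v.1 v.2)
      rw [not_prp_iff h2 hQ hn hm one_ne_zero hr1, one_pow]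
      exact H17.OrthMat.reflection_det Q v.1 v.2
    have e3 := ev_refl hND hfr hE hEn v.1 v.2
    have e4 : ev n E (im (((H17.OrthDet.refl Q v.1 v.2 : ↥(Cfsg.isometryGroup F (⇑Q))) *
        (l.map fun v => H17.OrthDet.refl Q v.1 v.2).prod : ↥(Cfsg.isometryGroup F (⇑Q))) : GL ι F) E) ↔
        (ev n E (im ((H17.OrthDet.refl Q v.1 v.2 : ↥(Cfsg.isometryGroup F (⇑Q))) : GL ι F) E) ↔
        ev n E (im (((l.map fun v => H17.OrthDet.refl Q v.1 v.2).prod : ↥(Cfsg.isometryGroup F (⇑Q))) : GL ι F) E)) := e1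
    rw [e4]
    exact iff_helper e3 e2

/-- scalars are proper and preserve the classes -/
theorem im_sc (u : Fˣ) (U : Submodule F (ι → F)) : im (H50.PSLField.sc u : GL ι F) U = U := by
  ext x
  rw [mem_im]
  constructor
  · rintro ⟨y, hy, rfl⟩
    rw [sc_mulVec]
    exact U.smul_mem _ hy
  · intro hx
    exact ⟨((u⁻¹ : Fˣ) : F) • x, U.smul_mem _ hx, by
      rw [sc_mulVec, smul_smul, ← Units.val_mul, mul_inv_cancel, Units.val_one, one_smul]⟩

theorem prp_sc (hm : Fintype.card ι = 2 * n) (u : Fˣ) : Prp Q n (scG Q u) := by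
  have hm1 : IsMult Q (toGam Q (scG Q u) : GA ι F) ((u : F) * (u : F)) := by
    intro v
    rw [toGam_coe, ap_inl, scG_coe, sc_mulVec, QuadraticMap.map_smul]
    rfl
  rw [prp_iff h2 hQ hn hm1, scG_coe, H50.PSLField.sc_coe, Matrix.det_smul, Matrix.det_one, mul_one, hm, pow_mul, pow_two]

/-- square multiplier -/
theorem ev_sq (hm : Fintype.card ι = 2 * n) {E : Submodule F (ι → F)}
    (hE : TS Q E) (hEn : Module.finrank F E = n) (g : ↥(simG Q)) (hg : SqM Q g) :
    ev n E (im (g : GL ι F) E) ↔ Prp Q n g := by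
  obtain ⟨c, hc, hgc, l, rfl⟩ := hg
  have hl : l ≠ 0 := left_ne_zero_of_mul hc
  have hND : ND Q := nd_iff.mpr hQ
  have hfr : Module.finrank F (ι → F) = 2 * n := by rw [Module.finrank_fintype_fun_eq_card, hm]
  set w : Fˣ := Units.mk0 l hl with hw
  have hiso : ((scG Q w⁻¹ * g : ↥(simG Q)) : GL ι F) ∈ Cfsg.isometryGroup F (⇑Q) := by
    rw [H17.OrthDet.mem_isometryGroup_iff]
    intro v
    have h5 := hgc v
    rw [toGam_coe, ap_inl] at h5
    rw [Subgroup.coe_mul, Units.val_mul, ← Matrix.mulVec_mulVec, scG_coe, sc_mulVec, QuadraticMap.map_smul, h5,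
      smul_eq_mul, Units.val_inv_eq_inv_val, hw, Units.val_mk0]
    change l⁻¹ * l⁻¹ * (l * l * Q v) = Q v
    field_simp
  have e1 := ev_iso h2 hQ hn hm hE hEn ⟨_, hiso⟩
  have e2 : isoG Q ⟨_, hiso⟩ = scG Q w⁻¹ * g := rfl
  rw [e2, prp_mul h2 hQ hn hm] at e1
  have e3 := ev_mul hND hfr hE hEn (scG Q w⁻¹) g
  have e4 : ev n E (im ((scG Q w⁻¹ : ↥(simG Q)) : GL ι F) E) := by
    rw [scG_coe, im_sc h2 hQ hn]
    exact ev_self hEn
  have e5 := prp_sc h2 hQ hn hm w⁻¹
  have e6 : ev n E (im ((scG Q w⁻¹ * g : ↥(simG Q)) : GL ι F) E) ↔ (Prp Q n (scG Q w⁻¹) ↔ Prp Q n g) := e1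
  exact iff_helper2 e3 e6 e4 e5

/-- classes preserved, with one good subspace -/
theorem preserves_iff (hm : Fintype.card ι = 2 * n) {E : Submodule F (ι → F)}
    (hE : TS Q E) (hEn : Module.finrank F E = n) (g : ↥(simG Q)) :
    Cfsg.PreservesSingularClasses (⇑Q) ((g : GL ι F) : Matrix ι ι F) ↔ ev n E (im (g : GL ι F) E) := by
  have hND : ND Q := nd_iff.mpr hQ
  have hfr : Module.finrank F (ι → F) = 2 * n := by rw [Module.finrank_fintype_fun_eq_card, hm]
  constructor
  · intro h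
    have h1 := h E ((maxTS_iff hND hfr hE hEn E).mpr ⟨hE, hEn⟩)
    rw [Cfsg.SameParityClass, hEn] at h1
    exact h1
  · intro h U hU
    obtain ⟨h1, h3⟩ := (maxTS_iff hND hfr hE hEn U).mp hU
    rw [Cfsg.SameParityClass, h3]
    exact (ev_indep hND hfr hE hEn h1 h3 g).mpr h

end fin

end sing

end H48.Pgo
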