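import Cfsg.Agent.Lib.H48.Pgo2

set_option autoImplicit false
set_option linter.unusedSectionVars false
set_option linter.style.haveILetI false
set_option linter.unusedVariables false

/-! Proper similarities of the standard forms of even dimension are the ones preserving the classes of maximal
totally singular subspaces. -/

namespace H48.Pgo

open Matrix QuadraticMap H48.OutO H48.QuadStd H50.OrthPsi H50.OrthSim H18.MaxSing H48.QuadSplit H50.OrthDesc

section plus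

variable {F : Type*} [Field F]

/-- `diag(c, 1)` -/
noncomputable def dG (m : ℕ) (c : F) (hc : c ≠ 0) : GL (Fin m ⊕ Fin m) F :=
  Matrix.GeneralLinearGroup.mkOfDetNeZero (Matrix.fromBlocks (c • (1 : Matrix (Fin m) (Fin m) F)) 0 0 1) (by
    rw [Matrix.det_fromBlocks_zero₂₁, Matrix.det_smul, Matrix.det_one, mul_one, mul_one]
    exact pow_ne_zero _ hc)

theorem dG_coe (m : ℕ) (c : F) (hc : c ≠ 0) : ((dG m c hc : GL (Fin m ⊕ Fin m) F) :
    Matrix (Fin m ⊕ Fin m) (Fin m ⊕ Fin m) F) = Matrix.fromBlocks (c • (1 : Matrix (Fin m) (Fin m) F)) 0 0 1 := rfl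

theorem dG_det (m : ℕ) (c : F) (hc : c ≠ 0) : ((dG m c hc : GL (Fin m ⊕ Fin m) F) :
    Matrix (Fin m ⊕ Fin m) (Fin m ⊕ Fin m) F).det = c ^ m := by
  rw [dG_coe, Matrix.det_fromBlocks_zero₂₁, Matrix.det_smul, Matrix.det_one, mul_one, mul_one, Fintype.card_fin]

theorem dG_mulVec (m : ℕ) (c : F) (hc : c ≠ 0) (v : Fin m ⊕ Fin m → F) :
    ((dG m c hc : GL (Fin m ⊕ Fin m) F) : Matrix (Fin m ⊕ Fin m) (Fin m ⊕ Fin m) F) *ᵥ v = dPlus m c v := by
  rw [dG_coe, Matrix.fromBlocks_mulVec]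
  funext i
  rcases i with i | i
  · simp [dPlus, Matrix.smul_mulVec]
  · simp [dPlus]

theorem dG_mem (m : ℕ) (c : F) (hc : c ≠ 0) (v : Fin m ⊕ Fin m → F) :
    qPlus m F (((dG m c hc : GL (Fin m ⊕ Fin m) F) : Matrix (Fin m ⊕ Fin m) (Fin m ⊕ Fin m) F) *ᵥ v) =
      c * qPlus m F v := by
  rw [dG_mulVec, qPlus_apply, qPlus_apply, Finset.mul_sum]
  exact Finset.sum_congr rfl fun i _ => mul_assoc _ _ _

/-- the similarity -/
noncomputable def dS (m : ℕ) (c : F) (hc : c ≠ 0) : ↥(simG (qPlus m F)) :=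
  ⟨dG m c hc, Units.mk0 c hc, dG_mem m c hc⟩

theorem dS_mult (m : ℕ) (c : F) (hc : c ≠ 0) :
    IsMult (qPlus m F) (toGam (qPlus m F) (dS m c hc) : GA (Fin m ⊕ Fin m) F) c := by
  intro v
  rw [toGam_coe, ap_inl]
  exact dG_mem m c hc v

theorem im_dS (m : ℕ) (c : F) (hc : c ≠ 0) : im (dS m c hc : GL (Fin m ⊕ Fin m) F) (stdE m F) = stdE m F := by
  ext x
  rw [mem_im]
  constructor
  · rintro ⟨y, hy, rfl⟩
    rw [mem_stdE] at hy ⊢
    intro i
    have := dG_mulVec m c hc y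
    have h2 : (((dS m c hc : ↥(simG (qPlus m F))) : GL (Fin m ⊕ Fin m) F) : Matrix (Fin m ⊕ Fin m) (Fin m ⊕ Fin m) F) *ᵥ y =
      dPlus m c y := this
    rw [h2]
    exact hy i
  · intro hx
    refine ⟨dPlus m c⁻¹ x, ?_, ?_⟩
    · rw [mem_stdE] at hx ⊢
      exact hx
    · have := dG_mulVec m c hc (dPlus m c⁻¹ x)
      have h2 : (((dS m c hc : ↥(simG (qPlus m F))) : GL (Fin m ⊕ Fin m) F) :
        Matrix (Fin m ⊕ Fin m) (Fin m ⊕ Fin m) F) *ᵥ (dPlus m c⁻¹ x) = dPlus m c (dPlus m c⁻¹ x) := this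
      rw [h2]
      funext i
      rcases i with i | i
      · simp [dPlus, hc]
      · rfl

theorem preserves_plus_iff [Fintype F] (h2 : (2 : F) ≠ 0) {m : ℕ} (hm : 4 ≤ m) (g : ↥(simG (qPlus m F))) :
    Cfsg.PreservesSingularClasses (⇑(qPlus m F)) ((g : GL (Fin m ⊕ Fin m) F) : Matrix (Fin m ⊕ Fin m) (Fin m ⊕ Fin m) F) ↔
      Prp (qPlus m F) m g := by
  have hQ := nd_plus (F := F) m
  have hn : 7 ≤ Fintype.card (Fin m ⊕ Fin m) := by rw [card_plus]; omega
  rw [preserves_iff h2 hQ hn (card_plus m) (ts_stdE m) (finrank_stdE m)]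
  by_cases hs : SqM (qPlus m F) g
  · exact ev_sq h2 hQ hn (card_plus m) (ts_stdE m) (finrank_stdE m) g hs
  · obtain ⟨c, hc, hg⟩ := exists_mult (toGam (qPlus m F) g)
    have hcs : ¬ IsSquare c := by rwa [sqM_iff h2 hQ hn hg] at hs
    have hd := dS_mult m c hc
    have hds : ¬ SqM (qPlus m F) (dS m c hc) := by rwa [sqM_iff h2 hQ hn hd]
    have e1 : dS m c hc * ((dS m c hc)⁻¹ * g) = g := by group
    have e2 : SqM (qPlus m F) ((dS m c hc)⁻¹ * g) := by
      have := sqM_mul h2 hQ hn (dS m c hc) ((dS m c hc)⁻¹ * g)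
      rw [e1] at this
      tauto
    have e3 := ev_sq h2 hQ hn (card_plus m) (ts_stdE m) (finrank_stdE m) _ e2
    have e4 := ev_mul (nd_qPlus m) (finrank_fun h2 hQ hn (card_plus m)) (ts_stdE m) (finrank_stdE m) (dS m c hc)
      ((dS m c hc)⁻¹ * g)
    rw [e1] at e4
    have e5 := prp_mul h2 hQ hn (card_plus m) (dS m c hc) ((dS m c hc)⁻¹ * g)
    rw [e1] at e5
    have e6 : ev m (stdE m F) (im (dS m c hc : GL (Fin m ⊕ Fin m) F) (stdE m F)) := by
      rw [im_dS]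
      exact ev_self (finrank_stdE m)
    have e7 : Prp (qPlus m F) m (dS m c hc) := by
      rw [prp_iff h2 hQ hn hd]
      exact dG_det m c hc
    rw [e4, e5, ← e3]
    exact iff_helper3 e6 e7

end plus

section minus

/-- a totally singular subspace of half the dimension when the plane splits -/
def stdM {K : Type*} [Field K] (m : ℕ) (r : K) : Submodule K ((Fin m ⊕ Fin m) ⊕ Fin 2 → K) :=
  LinearMap.range (LinearMap.pi (fun i : (Fin m ⊕ Fin m) ⊕ Fin 2 =>
    Sum.elim (Sum.elim (fun j => LinearMap.proj (R := K) (φ := fun _ : Fin m ⊕ Unit => K) (Sum.inl j)) (fun _ => 0))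
      (fun k => (![r, 1] k) • LinearMap.proj (R := K) (φ := fun _ : Fin m ⊕ Unit => K) (Sum.inr ())) i))

theorem ts_stdM {K : Type*} [Field K] (m : ℕ) {r a b : K} (h : r ^ 2 + a * r + b = 0) : TS (qMinus m K a b) (stdM m r) := by
  rintro _ ⟨w, rfl⟩
  rw [qMinus_apply]
  simp only [LinearMap.pi_apply, Sum.elim_inl, Sum.elim_inr, LinearMap.zero_apply, mul_zero, Finset.sum_const_zero,
    Matrix.cons_val_zero, Matrix.cons_val_one, LinearMap.smul_apply, LinearMap.proj_apply, smul_eq_mul, one_mul, zero_add]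
  linear_combination (w (Sum.inr ())) ^ 2 * h

theorem finrank_stdM {K : Type*} [Field K] (m : ℕ) (r : K) : Module.finrank K (stdM m r) = m + 1 := by
  unfold stdM
  rw [LinearMap.finrank_range_of_inj]
  · simp
  · intro v w h
    ext i
    rcases i with i | i
    · have := congrFun h (Sum.inl (Sum.inl i))
      simpa using this
    · have := congrFun h (Sum.inr 1)
      simpa using this

theorem ovr_qMinus {F K : Type*} [Field F] [Field K] (j : F →+* K) (m : ℕ) (a b : F) :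
    Ovr j (qMinus m F a b) (qMinus m K (j a) (j b)) := by
  intro v
  rw [qMinus_apply, qMinus_apply]
  simp only [jv, map_add, map_sum, map_mul, map_pow]

/-- base change of a similarity -/
theorem sim_map {F K : Type*} [Field F] [Field K] {ι : Type} [Fintype ι] [DecidableEq ι] (j : F →+* K)
    {Q₀ : QuadraticForm F (ι → F)} {Q : QuadraticForm K (ι → K)} (ho : Ovr j Q₀ Q) {g : GL ι F} {c : F}
    (hg : ∀ v, Q₀ ((g : Matrix ι ι F) *ᵥ v) = c * Q₀ v) (v : ι → K) :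
    Q (((g : Matrix ι ι F).map j) *ᵥ v) = j c * Q v := by
  have h1 : Ovr j (c • Q₀) (Q.comp (Matrix.toLin' ((g : Matrix ι ι F).map j))) := by
    intro v
    rw [QuadraticMap.comp_apply, Matrix.toLin'_apply, map_mulVec_jv, ho, hg]
    rfl
  have h2 : Ovr j (c • Q₀) (j c • Q) := ho.smul c
  exact h1.unique h2 v

theorem preserves_ext {F K : Type*} [Field F] [Fintype F] [Field K] [Fintype K] (j : F →+* K) (h2 : (2 : F) ≠ 0)
    (hcard : Fintype.card K = Fintype.card F ^ 2) {m : ℕ} (hm : 3 ≤ m) {a b : F} (hab : 4 * b - a ^ 2 ≠ 0)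
    (g : ↥(simG (qMinus m F a b))) :
    Cfsg.PreservesSingularClasses (⇑(qMinus m K (j a) (j b)))
      (((g : GL ((Fin m ⊕ Fin m) ⊕ Fin 2) F) : Matrix ((Fin m ⊕ Fin m) ⊕ Fin 2) ((Fin m ⊕ Fin m) ⊕ Fin 2) F).map j) ↔
      Prp (qMinus m F a b) (m + 1) g := by
  have hQF : (polarBilin (qMinus m F a b)).Nondegenerate := nd_iff.mp (nd_qMinus m hab)
  have hn : 7 ≤ Fintype.card ((Fin m ⊕ Fin m) ⊕ Fin 2) := by rw [card_minus]; omega
  have h2K : (2 : K) ≠ 0 := by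
    rw [← map_ofNat j 2]
    exact (map_ne_zero j).mpr h2
  have habK : 4 * j b - j a ^ 2 ≠ 0 := by
    have : 4 * j b - j a ^ 2 = j (4 * b - a ^ 2) := by
      rw [map_sub, map_mul, map_pow, map_ofNat]
    rw [this]
    exact (map_ne_zero j).mpr hab
  have hNDK : ND (qMinus m K (j a) (j b)) := nd_qMinus m habK
  have hQK : (polarBilin (qMinus m K (j a) (j b))).Nondegenerate := nd_iff.mp hNDK
  -- a root
  obtain ⟨s, hs⟩ := isSquare_of_sq j hcard (a ^ 2 - 4 * b)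
  have hr : ((s - j a) / 2) ^ 2 + j a * ((s - j a) / 2) + j b = 0 := by
    rw [map_sub, map_mul, map_pow, map_ofNat] at hs
    field_simp
    linear_combination -hs
  have hE := ts_stdM (K := K) m hr
  have hEn := finrank_stdM (K := K) m ((s - j a) / 2)
  -- the base change
  obtain ⟨c, hc, hg⟩ := exists_mult (toGam (qMinus m F a b) g)
  have hg' : ∀ v, qMinus m F a b (((g : GL ((Fin m ⊕ Fin m) ⊕ Fin 2) F) : Matrix _ _ F) *ᵥ v) = c * qMinus m F a b v := hg
  have hgK := sim_map j (ovr_qMinus j m a b) hg'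
  have hdet : (((g : GL ((Fin m ⊕ Fin m) ⊕ Fin 2) F) : Matrix ((Fin m ⊕ Fin m) ⊕ Fin 2) ((Fin m ⊕ Fin m) ⊕ Fin 2) F).map j).det =
      j ((g : GL ((Fin m ⊕ Fin m) ⊕ Fin 2) F) : Matrix ((Fin m ⊕ Fin m) ⊕ Fin 2) ((Fin m ⊕ Fin m) ⊕ Fin 2) F).det :=
    (RingHom.map_det j _).symm
  have hdet0 : (((g : GL ((Fin m ⊕ Fin m) ⊕ Fin 2) F) : Matrix ((Fin m ⊕ Fin m) ⊕ Fin 2) ((Fin m ⊕ Fin m) ⊕ Fin 2) F).map j).det ≠ 0 := by
    rw [hdet]
    exact (map_ne_zero j).mpr ((Matrix.isUnit_iff_isUnit_det _).mp (g : GL ((Fin m ⊕ Fin m) ⊕ Fin 2) F).isUnit).ne_zero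
  let gK : ↥(simG (qMinus m K (j a) (j b))) :=
    ⟨Matrix.GeneralLinearGroup.mkOfDetNeZero _ hdet0, Units.mk0 (j c) ((map_ne_zero j).mpr hc), hgK⟩
  have hmK : IsMult (qMinus m K (j a) (j b)) (toGam _ gK : GA ((Fin m ⊕ Fin m) ⊕ Fin 2) K) (j c) := hgK
  have hsq : SqM (qMinus m K (j a) (j b)) gK := (sqM_iff h2K hQK hn hmK).mpr (isSquare_of_sq j hcard c)
  have h5 := ev_sq h2K hQK hn (card_minus m) hE hEn gK hsq
  have h6 := preserves_iff h2K hQK hn (card_minus m) hE hEn gK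
  have h7 : Prp (qMinus m K (j a) (j b)) (m + 1) gK ↔ Prp (qMinus m F a b) (m + 1) g := by
    rw [prp_iff h2K hQK hn hmK, prp_iff h2 hQF hn hg]
    have h8 : ((gK : GL ((Fin m ⊕ Fin m) ⊕ Fin 2) K) : Matrix ((Fin m ⊕ Fin m) ⊕ Fin 2) ((Fin m ⊕ Fin m) ⊕ Fin 2) K).det =
      j ((g : GL ((Fin m ⊕ Fin m) ⊕ Fin 2) F) : Matrix ((Fin m ⊕ Fin m) ⊕ Fin 2) ((Fin m ⊕ Fin m) ⊕ Fin 2) F).det := hdet
    rw [h8, ← map_pow]
    exact j.injective.eq_iff
  exact h6.trans (h5.trans h7)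

theorem preserves_minus_iff {F : Type*} [Field F] [Fintype F] (h2 : (2 : F) ≠ 0) {m : ℕ} (hm : 3 ≤ m) {a b : F}
    (hab : ∀ z₁ z₂ : F, z₁ ^ 2 + a * z₁ * z₂ + b * z₂ ^ 2 = 0 → z₁ = 0 ∧ z₂ = 0)
    (g : ↥(simG (qMinus m F a b))) :
    Cfsg.PreservesSingularClassesMinus m a b
      ((g : GL ((Fin m ⊕ Fin m) ⊕ Fin 2) F) : Matrix ((Fin m ⊕ Fin m) ⊕ Fin 2) ((Fin m ⊕ Fin m) ⊕ Fin 2) F) ↔
      Prp (qMinus m F a b) (m + 1) g := by
  have hd := disc_ne_zero hab
  constructor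
  · rintro ⟨K, _, _, h3, h4⟩
    haveI : FiniteDimensional F K := FiniteDimensional.of_finrank_pos (by omega)
    haveI : Finite K := Module.finite_of_finite F
    haveI := Fintype.ofFinite K
    have hcard : Fintype.card K = Fintype.card F ^ 2 := by
      rw [Module.card_eq_pow_finrank (K := F) (V := K), h3]
    rw [← coe_qMinus] at h4
    exact (preserves_ext (algebraMap F K) h2 hcard hm hd g).mp h4
  · intro h
    haveI := H7.AnisoPlane.Aniso.fact hab
    haveI : Fintype (H7.AnisoPlane.K a b) := Fintype.ofFinite _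
    refine ⟨H7.AnisoPlane.K a b, inferInstance, inferInstance, ?_, ?_⟩
    · exact QuadraticAlgebra.finrank_eq_two _ _
    · rw [← coe_qMinus]
      exact (preserves_ext (algebraMap F (H7.AnisoPlane.K a b)) h2 H7.AnisoPlane.card_K hm hd g).mpr h

end minus

end H48.Pgo
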