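import Cfsg.Agent.Lib.H48.Pgo3

set_option autoImplicit false
set_option linter.unusedSectionVars false
set_option linter.style.haveILetI false
set_option linter.unusedVariables false

/-! Structure of the similarity groups modulo inner automorphisms. -/

namespace H48.Pgo

open Matrix QuadraticMap H48.OutO H48.QuadStd H50.OrthPsi H50.OrthSim H48.QuadSplit

/-! ### abstract lemmas -/

section abs

variable {G A : Type*} [Group G] [Group A]

theorem of_iso (π : G →* A) {X : Type*} [Group X] (e : ↥π.range ≃* X) :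
    ∃ χ : G →* X, Function.Surjective χ ∧ ∀ g, χ g = 1 ↔ π g = 1 := by
  refine ⟨e.toMonoidHom.comp π.rangeRestrict, ?_, ?_⟩
  · intro x
    obtain ⟨g, hg⟩ := π.rangeRestrict_surjective (e.symm x)
    refine ⟨g, ?_⟩
    change e (π.rangeRestrict g) = x
    rw [hg, e.apply_symm_apply]
  · intro g
    change e (π.rangeRestrict g) = 1 ↔ _
    rw [map_eq_one_iff e e.injective]
    constructor
    · intro h
      exact congrArg Subtype.val h
    · intro h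
      exact Subtype.ext h

theorem abs_gen (π : G →* A) (χ : G →* Multiplicative (ZMod 2)) (z d : G) (hd : χ d ≠ 1)
    (hcases : ∀ g, χ g = 1 → π g = 1 ∨ π g = π z) (g : G) :
    π g = 1 ∨ π g = π z ∨ π g = π d ∨ π g = π d * π z := by
  have e : ∀ x y : Multiplicative (ZMod 2), x ≠ 1 → y ≠ 1 → x⁻¹ * y = 1 := by decide
  by_cases hg : χ g = 1
  · rcases hcases g hg with h | h
    · exact Or.inl h
    · exact Or.inr (Or.inl h)
  · have h1 : χ (d⁻¹ * g) = 1 := by rw [map_mul, map_inv, e _ _ hd hg]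
    have h2 : π g = π d * π (d⁻¹ * g) := by rw [← map_mul, mul_inv_cancel_left]
    rcases hcases _ h1 with h | h
    · rw [h, mul_one] at h2
      exact Or.inr (Or.inr (Or.inl h2))
    · rw [h] at h2
      exact Or.inr (Or.inr (Or.inr h2))

theorem abs_comm (π : G →* A) (χ : G →* Multiplicative (ZMod 2)) (z d : G) (hz : χ z = 1) (hz1 : π z ≠ 1)
    (hcases : ∀ g, χ g = 1 → π g = 1 ∨ π g = π z) : π z * π d = π d * π z := by
  have h1 : χ (d * z * d⁻¹) = 1 := by rw [map_mul, map_mul, hz, map_inv, mul_one, mul_inv_cancel]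
  rcases hcases _ h1 with h | h
  · exfalso
    rw [map_mul, map_mul, map_inv] at h
    apply hz1
    have h2 : π z = (π d)⁻¹ * (π d * π z * (π d)⁻¹) * π d := by group
    rw [h2, h]
    group
  · rw [map_mul, map_mul, map_inv, mul_inv_eq_iff_eq_mul] at h
    exact h.symm

theorem odd_ne {x : Multiplicative (ZMod 2)} (hx : x ≠ 1) {j : ℕ} (h : x ^ j = 1) : 2 ∣ j := by
  have h0 : ∀ x : Multiplicative (ZMod 2), x ^ 2 = 1 := by decide
  have h1 : orderOf x = 2 := orderOf_eq_prime (p := 2) (h0 x) hx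
  rw [← h1]
  exact orderOf_dvd_of_pow_eq_one h

/-- the four group case -/
theorem abs_four (π : G →* A) (χ : G →* Multiplicative (ZMod 2)) (hπ : ∀ g, π g = 1 → χ g = 1) (z d : G)
    (hz : χ z = 1) (hd : χ d ≠ 1) (hz1 : π z ≠ 1) (hzz : π z * π z = 1)
    (hcases : ∀ g, χ g = 1 → π g = 1 ∨ π g = π z) (hdd : π d * π d = 1) :
    ∃ ξ : G →* Multiplicative (ZMod 2 × ZMod 2), Function.Surjective ξ ∧ ∀ g, ξ g = 1 ↔ π g = 1 := by
  have hc := abs_comm π χ z d hz hz1 hcases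
  obtain ⟨e⟩ := H48.GrpIso.iso_prod 2 2 (π.rangeRestrict z) (π.rangeRestrict d)
    (Subtype.ext (by rw [pow_two]; exact hzz)) (Subtype.ext (by rw [pow_two]; exact hdd)) (Subtype.ext hc) (by
      intro H h1 h2 x
      obtain ⟨g, rfl⟩ := π.rangeRestrict_surjective x
      rcases abs_gen π χ z d hd hcases g with h | h | h | h
      · have : π.rangeRestrict g = 1 := Subtype.ext h
        rw [this]; exact H.one_mem
      · have : π.rangeRestrict g = π.rangeRestrict z := Subtype.ext h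
        rw [this]; exact h1
      · have : π.rangeRestrict g = π.rangeRestrict d := Subtype.ext h
        rw [this]; exact h2
      · have : π.rangeRestrict g = π.rangeRestrict d * π.rangeRestrict z := Subtype.ext h
        rw [this]; exact H.mul_mem h2 h1) (by
      intro i j hij
      have h1 : π (z ^ i * d ^ j) = 1 := by
        rw [map_mul, map_pow, map_pow]
        exact congrArg Subtype.val hij
      have h2 := hπ _ h1
      rw [map_mul, map_pow, map_pow, hz, one_pow, one_mul] at h2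
      have h3 := odd_ne hd h2
      refine ⟨?_, h3⟩
      obtain ⟨k, rfl⟩ := h3
      rw [map_mul, map_pow, map_pow, pow_mul (π d), pow_two (π d), hdd, one_pow, mul_one] at h1
      have h4 : orderOf (π z) = 2 := orderOf_eq_prime (p := 2) (by rw [pow_two]; exact hzz) hz1
      rw [← h4]
      exact orderOf_dvd_of_pow_eq_one h1)
  exact of_iso π e

/-- the cyclic case -/
theorem abs_cyc (π : G →* A) (χ : G →* Multiplicative (ZMod 2)) (hπ : ∀ g, π g = 1 → χ g = 1) (z d : G)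
    (hz : χ z = 1) (hd : χ d ≠ 1) (hz1 : π z ≠ 1) (hzz : π z * π z = 1)
    (hcases : ∀ g, χ g = 1 → π g = 1 ∨ π g = π z) (hdd : π d * π d = π z) :
    ∃ ξ : G →* Multiplicative (ZMod 4), Function.Surjective ξ ∧ ∀ g, ξ g = 1 ↔ π g = 1 := by
  have h0 := H48.GrpIso.absF 2 (by norm_num) (π.rangeRestrict z) (π.rangeRestrict d)
    (Subtype.ext hzz) (fun h => hz1 (congrArg Subtype.val h)) (Subtype.ext (by rw [pow_two]; exact hdd)) (by
      intro H h1 h2 x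
      obtain ⟨g, rfl⟩ := π.rangeRestrict_surjective x
      rcases abs_gen π χ z d hd hcases g with h | h | h | h
      · have : π.rangeRestrict g = 1 := Subtype.ext h
        rw [this]; exact H.one_mem
      · have : π.rangeRestrict g = π.rangeRestrict z := Subtype.ext h
        rw [this]; exact h1
      · have : π.rangeRestrict g = π.rangeRestrict d := Subtype.ext h
        rw [this]; exact h2
      · have : π.rangeRestrict g = π.rangeRestrict d * π.rangeRestrict z := Subtype.ext h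
        rw [this]; exact H.mul_mem h2 h1) (by
      intro l hl
      rw [← Subgroup.zpowers_eq_closure, Subgroup.mem_zpowers_iff] at hl
      obtain ⟨k, hk⟩ := hl
      have h1 : π (z ^ k * (d ^ l)⁻¹) = 1 := by
        rw [map_mul, map_inv, map_pow, map_zpow]
        have h2 : (π z) ^ k = (π d) ^ l := congrArg Subtype.val hk
        rw [h2, mul_inv_cancel]
      have h2 := hπ _ h1
      rw [map_mul, map_inv, map_pow, map_zpow, hz, _root_.one_zpow, one_mul, inv_eq_one] at h2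
      exact odd_ne hd h2)
  obtain ⟨h1, h2⟩ := h0
  haveI := h1
  have h3 : Nat.card (Multiplicative (ZMod 4)) = 2 * 2 := Nat.card_zmod 4
  exact of_iso π (mulEquivOfCyclicCardEq (h2.trans h3.symm))

/-- the dihedral case -/
theorem abs_dihedral (π : G →* A) (r₁ r₂ g : G) (a b d : A) (ea : π r₁ = a) (eb : π r₂ = b) (ed : π g = d)
    (ha : a * a = 1) (hb : b * b = 1) (hab : a * b = b * a) (hda : d * a * d⁻¹ = b) (hdd : d * d = 1 ∨ d * d = a * b)
    (hz : a * b ≠ 1) (hgen : ∀ H : Subgroup A, a ∈ H → b ∈ H → d ∈ H → ∀ y, π y ∈ H) :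
    ∃ χ : G →* DihedralGroup 4, Function.Surjective χ ∧ ∀ g, χ g = 1 ↔ π g = 1 := by
  subst ea eb ed
  obtain ⟨E⟩ := H48.GrpIso.iso_dihedral 1 (π.rangeRestrict r₁) (π.rangeRestrict r₂) (π.rangeRestrict g) 1
    (Subtype.ext ha) (Subtype.ext hb) (Subtype.ext hab) (Subtype.ext hda)
    (hdd.imp (fun h => Subtype.ext h) (fun h => Subtype.ext h))
    (one_pow _) (by rw [one_mul, mul_one]) (by rw [one_mul, mul_one]) (Or.inl (by group))
    (fun h => hz (congrArg Subtype.val h))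
    (by
      intro H hH1 hH2 hH3 _ x
      obtain ⟨y, rfl⟩ := π.rangeRestrict_surjective x
      obtain ⟨w, hw, hwy⟩ := hgen (H.map π.range.subtype) ⟨_, hH1, rfl⟩ ⟨_, hH2, rfl⟩ ⟨_, hH3, rfl⟩ y
      have : π.rangeRestrict y = w := Subtype.ext hwy.symm
      rw [this]
      exact hw)
    (fun l _ => one_dvd l)
  have hsub : Subsingleton (Multiplicative (ZMod 1)) := inferInstanceAs (Subsingleton (ZMod 1))
  obtain ⟨ξ, hξ1, hξ2⟩ := of_iso π E
  refine ⟨(MonoidHom.fst _ _).comp ξ, ?_, ?_⟩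
  · intro x
    obtain ⟨g, hg⟩ := hξ1 (x, 1)
    exact ⟨g, by rw [MonoidHom.comp_apply, hg]; rfl⟩
  · intro g
    rw [← hξ2, MonoidHom.comp_apply]
    constructor
    · intro h
      exact Prod.ext h (Subsingleton.elim _ _)
    · intro h
      rw [h]; rfl

end abs

/-! ### the groups -/

variable {F : Type*} [Field F] {ι : Type} [Fintype ι] [DecidableEq ι] {Q : QuadraticForm F (ι → F)}

/-- similarities in `Out` -/
def pi1 (Q : QuadraticForm F (ι → F)) : ↥(simG Q) →* Cfsg.Out (Cfsg.POmega F (⇑Q)) := (pi Q).comp (toGam Q)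

theorem pi1_apply (g : ↥(simG Q)) : pi1 Q g = pi Q (toGam Q g) := rfl

theorem inn_iff1 (g : ↥(simG Q)) : psi1 Q g ∈ Cfsg.Inn (Cfsg.POmega F (⇑Q)) ↔ pi1 Q g = 1 :=
  (QuotientGroup.eq_one_iff _).symm

theorem range_of_prop (K : Subgroup ↥(simG Q)) (R : GL ι F → Prop) (hR : ∀ g : ↥(simG Q), R (g : GL ι F) ↔ g ∈ K)
    (P : MulAut (Cfsg.POmega F (⇑Q)) → Prop)
    (hP : ∀ β, P β ↔ ∃ g : GL ι F, g ∈ Cfsg.Geo.quadSimilarityGroup (F := F) (⇑Q) ∧ R g ∧
      Cfsg.IsInducedBySemilinearPOmega (⇑Q) g (RingEquiv.refl F) β) :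
    Cfsg.autSubgroupOf P = ((psi1 Q).comp K.subtype).range := by
  rw [Cfsg.autSubgroupOf]
  have h1 : {β : MulAut (Cfsg.POmega F (⇑Q)) | P β} = (((psi1 Q).comp K.subtype).range :
      Set (MulAut (Cfsg.POmega F (⇑Q)))) := by
    ext β
    rw [Set.mem_ofPred_eq, hP]
    constructor
    · rintro ⟨g, h1, h2, h3⟩
      exact ⟨⟨⟨g, h1⟩, (hR ⟨g, h1⟩).mp h2⟩, ((isInduced_iff ⟨g, h1⟩ β).mp h3).symm⟩
    · rintro ⟨⟨g, h1⟩, rfl⟩
      exact ⟨g.1, g.2, (hR g).mpr h1, (isInduced_iff g _).mpr rfl⟩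
  exact (congrArg Subgroup.closure h1).trans (Subgroup.closure_eq _)

section odd

variable [Fintype F] (h2 : (2 : F) ≠ 0) (hQ : (polarBilin Q).Nondegenerate) (hn : 7 ≤ Fintype.card ι)
include h2 hQ hn

theorem gen_lin {m : ℕ} (hm : Fintype.card ι = 2 * m) {v₁ v₂ : ι → F}
    (h1 : Q v₁ ≠ 0) (h1' : IsSquare (Q v₁)) (hh2 : ¬ IsSquare (Q v₂)) (h2' : Q v₂ ≠ 0)
    (d : ↥(Gam Q)) (hd : (d : GA ι F).right = 1) {e : F} (he : ¬ IsSquare e)
    (hde : IsMult Q (d : GA ι F) e)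
    (H : Subgroup (Cfsg.Out (Cfsg.POmega F (⇑Q)))) (hH1 : pi Q (Rf Q v₁ h1) ∈ H) (hH2 : pi Q (Rf Q v₂ h2') ∈ H)
    (hH3 : pi Q d ∈ H) (x : ↥(Gam Q)) (hr : (x : GA ι F).right = 1) : pi Q x ∈ H := by
  have he0 : e ≠ 0 := by
    rintro rfl
    exact he IsSquare.zero
  have hsq : ∀ x : ↥(Gam Q), (x : GA ι F).right = 1 → ∀ c, c ≠ 0 → IsMult Q (x : GA ι F) c → IsSquare c → pi Q x ∈ H := by
    intro x hr c hc0 hx hc
    rcases sq_cases h2 hQ hn hm h1 h1' hh2 h2' x hr hc0 hx hc with ⟨-, e2 | e2⟩ | ⟨-, e2 | e2⟩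
    · rw [e2]; exact H.one_mem
    · rw [e2]; exact H.mul_mem hH1 hH2
    · rw [e2]; exact hH1
    · rw [e2]; exact hH2
  obtain ⟨c, hc, hx⟩ := exists_mult x
  by_cases hcs : IsSquare c
  · exact hsq x hr c hc hx hcs
  · have h5 := hsq (d⁻¹ * x) (right_mul_one (right_inv_one hd) hr) (e⁻¹ * c) (mul_ne_zero (inv_ne_zero he0) hc)
      ((hde.inv he0 hd).mul' (right_inv_one hd) hx) (H48.FinFieldSq.isSquare_mul_of_not (by rwa [isSquare_inv]) hcs)
    have h6 : pi Q x = pi Q d * pi Q (d⁻¹ * x) := by rw [← map_mul, mul_inv_cancel_left]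
    rw [h6]
    exact H.mul_mem hH3 h5

/-- `PGO` modulo inner automorphisms, `-1 ∈ Ω` -/
theorem pgo_dihedral {m : ℕ} (hm : Fintype.card ι = 2 * m) (hneg : NegMem Q)
    (d : ↥(Gam Q)) (hd : (d : GA ι F).right = 1) {e : F} (he : ¬ IsSquare e) (hde : IsMult Q (d : GA ι F) e) :
    ∃ φ : ↥(Cfsg.pgoAut F (⇑Q)) →* DihedralGroup 4, Function.Surjective φ ∧
      φ.ker = (Cfsg.Inn (Cfsg.POmega F (⇑Q))).subgroupOf (Cfsg.pgoAut F (⇑Q)) := by
  obtain ⟨c₂, hc₂⟩ := H48.FinFieldSq.exists_not_isSquare h2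
  have hc₂0 : c₂ ≠ 0 := by
    rintro rfl
    exact hc₂ IsSquare.zero
  obtain ⟨v₁, hv₁⟩ := exists_Q_eq hQ hn (one_ne_zero (α := F))
  obtain ⟨v₂, hv₂⟩ := exists_Q_eq hQ hn hc₂0
  have h1 : Q v₁ ≠ 0 := by rw [hv₁]; exact one_ne_zero
  have h1' : IsSquare (Q v₁) := by rw [hv₁]; exact IsSquare.one
  have h2' : Q v₂ ≠ 0 := by rw [hv₂]; exact hc₂0
  have hh2 : ¬ IsSquare (Q v₂) := by rw [hv₂]; exact hc₂
  have hns : ¬ IsSquare (Q v₁ * Q v₂) := by rw [hv₁, one_mul]; exact hh2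
  have hz : pi Q (Rf Q v₁ h1) * pi Q (Rf Q v₂ h2') ≠ 1 := z_ne_one_of_neg h2 hQ hn h1 h2' hns hneg
  have ha := pi_Rf_sq (Q := Q) v₁ h1
  have hb := pi_Rf_sq (Q := Q) v₂ h2'
  have hab := pi_Rf_comm h2 hQ hn h1 h2'
  have hda : pi Q d * pi Q (Rf Q v₁ h1) * (pi Q d)⁻¹ = pi Q (Rf Q v₂ h2') := by
    apply pi_conj_Rf h2 hQ hn d hde h1 h2'
    rw [hv₁, mul_one]
    exact H48.FinFieldSq.isSquare_mul_of_not he hh2
  have hdd := pi_sq h2 hQ hn hm h1 h1' hh2 h2' d hd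
  obtain ⟨g, hg⟩ := exists_toGam hd
  have eg : pi1 Q g = pi Q d := by rw [pi1_apply, hg]
  obtain ⟨ξ, hξ1, hξ2⟩ := abs_dihedral (pi1 Q) (isoG Q (H17.OrthDet.refl Q v₁ h1)) (isoG Q (H17.OrthDet.refl Q v₂ h2'))
    g _ _ _ rfl rfl eg ha hb hab hda hdd hz
    (fun H hH1 hH2 hH3 y => gen_lin h2 hQ hn hm h1 h1' hh2 h2' d hd he hde H hH1 hH2 hH3 (toGam Q y) rfl)
  refine main (psi1 Q) ξ hξ1 _ _ (H50.OrthField.range_psi1 Q) ?_
  intro g
  rw [inn_iff1, ← hξ2]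

/-- `PGO` modulo inner automorphisms, `-1 ∉ Ω` -/
theorem pgo_four {m : ℕ} (hm : Fintype.card ι = 2 * m) (hneg : ¬ NegMem Q)
    (d : ↥(Gam Q)) (hd : (d : GA ι F).right = 1) {e : F} (he : ¬ IsSquare e) (hde : IsMult Q (d : GA ι F) e) :
    ∃ φ : ↥(Cfsg.pgoAut F (⇑Q)) →* Multiplicative (ZMod 2 × ZMod 2), Function.Surjective φ ∧
      φ.ker = (Cfsg.Inn (Cfsg.POmega F (⇑Q))).subgroupOf (Cfsg.pgoAut F (⇑Q)) := by
  rw [← pso_eq_inn h2 hQ hn hneg hm]
  exact pgo_mod_pso h2 hQ hn hm d hd he hde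

/-! ### proper similarities -/

/-- the group of proper similarities -/
theorem exists_K {m : ℕ} (hm : Fintype.card ι = 2 * m) : ∃ K : Subgroup ↥(simG Q), ∀ g, g ∈ K ↔ Prp Q m g := by
  obtain ⟨χ, hχ⟩ := exists_char (Prp Q m) (prp_mul h2 hQ hn hm)
  exact ⟨χ.ker, fun g => by rw [MonoidHom.mem_ker, hχ]⟩

theorem proper_two {m : ℕ} (hm : Fintype.card ι = 2 * m) (hneg : ¬ NegMem Q) (K : Subgroup ↥(simG Q))
    (hK : ∀ g, g ∈ K ↔ Prp Q m g) (d : ↥(simG Q)) (hd : Prp Q m d) (hds : ¬ SqM Q d)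
    (S : Subgroup (MulAut (Cfsg.POmega F (⇑Q)))) (hS : S = ((psi1 Q).comp K.subtype).range) :
    ∃ φ : ↥S →* Multiplicative (ZMod 2), Function.Surjective φ ∧
      φ.ker = (Cfsg.Inn (Cfsg.POmega F (⇑Q))).subgroupOf S := by
  obtain ⟨χ, hχ⟩ := exists_char (fun g : ↥K => SqM Q g) (fun g h => sqM_mul h2 hQ hn g h)
  refine main _ χ (char_surj hχ (g := ⟨d, (hK d).mpr hd⟩) hds) S _ hS ?_
  intro g
  rw [hχ, ← pso_eq_inn h2 hQ hn hneg hm]
  change _ ↔ psi1 Q g ∈ _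
  rw [pso_iff h2 hQ hn hm]
  exact ⟨fun h => ⟨h, (hK _).mp g.2⟩, fun h => h.1⟩

/-- the data of the proper similarity group when `-1 ∈ Ω` -/
theorem proper_neg {m : ℕ} (hm : Fintype.card ι = 2 * m) (hneg : NegMem Q) (K : Subgroup ↥(simG Q))
    (hK : ∀ g, g ∈ K ↔ Prp Q m g) (d : ↥(simG Q)) (hd : Prp Q m d) (hds : ¬ SqM Q d)
    (S : Subgroup (MulAut (Cfsg.POmega F (⇑Q)))) (hS : S = ((psi1 Q).comp K.subtype).range) {v₁ v₂ : ι → F}
    (h1 : Q v₁ ≠ 0) (h1' : IsSquare (Q v₁)) (hh2 : ¬ IsSquare (Q v₂)) (h2' : Q v₂ ≠ 0) :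
    (pi1 Q d * pi1 Q d = 1 → ∃ φ : ↥S →* Multiplicative (ZMod 2 × ZMod 2), Function.Surjective φ ∧
      φ.ker = (Cfsg.Inn (Cfsg.POmega F (⇑Q))).subgroupOf S) ∧
    (pi1 Q d * pi1 Q d = pi Q (Rf Q v₁ h1) * pi Q (Rf Q v₂ h2') →
      ∃ φ : ↥S →* Multiplicative (ZMod 4), Function.Surjective φ ∧
      φ.ker = (Cfsg.Inn (Cfsg.POmega F (⇑Q))).subgroupOf S) := by
  have hns : ¬ IsSquare (Q v₁ * Q v₂) := by
    rw [H48.FinFieldSq.isSquare_mul_iff h1 h2']
    exact fun h => hh2 (h.mp h1')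
  have hz : pi Q (Rf Q v₁ h1) * pi Q (Rf Q v₂ h2') ≠ 1 := z_ne_one_of_neg h2 hQ hn h1 h2' hns hneg
  have ha := pi_Rf_sq (Q := Q) v₁ h1
  have hb := pi_Rf_sq (Q := Q) v₂ h2'
  have hab := pi_Rf_comm h2 hQ hn h1 h2'
  obtain ⟨χ, hχ⟩ := exists_char (fun g : ↥K => SqM Q g) (fun g h => sqM_mul h2 hQ hn g h)
  let z₀ : ↥(simG Q) := isoG Q (H17.OrthDet.refl Q v₁ h1 * H17.OrthDet.refl Q v₂ h2')
  have ez₀ : pi1 Q z₀ = pi Q (Rf Q v₁ h1) * pi Q (Rf Q v₂ h2') := by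
    rw [← map_mul]
    rfl
  have hzm : IsMult Q (toGam Q z₀ : GA ι F) 1 :=
    IsMult.one (g := H17.OrthDet.refl Q v₁ h1 * H17.OrthDet.refl Q v₂ h2')
  have hzs : SqM Q z₀ := (sqM_iff h2 hQ hn hzm).mpr IsSquare.one
  have hzp : Prp Q m z₀ := by
    rw [prp_iff h2 hQ hn hzm, one_pow]
    change (((H17.OrthDet.refl Q v₁ h1 * H17.OrthDet.refl Q v₂ h2' : ↥(Cfsg.isometryGroup F (⇑Q))) : GL ι F) :
        Matrix ι ι F).det = 1
    rw [Subgroup.coe_mul, Units.val_mul, Matrix.det_mul, H17.OrthDet.refl_coe, H17.OrthDet.refl_coe,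
        H17.OrthMat.reflection_det Q v₁ h1, H17.OrthMat.reflection_det Q v₂ h2']
    ring
  let z : ↥K := ⟨z₀, (hK _).mpr hzp⟩
  let d' : ↥K := ⟨d, (hK _).mpr hd⟩
  let π : ↥K →* Cfsg.Out (Cfsg.POmega F (⇑Q)) := (pi1 Q).comp K.subtype
  have eπz : π z = pi Q (Rf Q v₁ h1) * pi Q (Rf Q v₂ h2') := ez₀
  have hπ : ∀ g, π g = 1 → χ g = 1 := by
    intro g hg
    rw [hχ]
    obtain ⟨c, hc, hgc⟩ := exists_mult (toGam Q g)
    have h5 := ker_inv hm hQ hn h1 hgc hg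
    exact (sqM_iff h2 hQ hn hgc).mpr h5.2.1
  have hcases : ∀ g, χ g = 1 → π g = 1 ∨ π g = π z := by
    intro g hg
    rw [hχ] at hg
    obtain ⟨c, hc, hgc, hcs⟩ := hg
    rw [eπz]
    exact pi_proper h2 hQ hn hm h1 h1' hh2 h2' (toGam Q g) rfl hc hgc hcs
      ((prp_iff h2 hQ hn hgc).mp ((hK _).mp g.2))
  have hχz : χ z = 1 := (hχ z).mpr hzs
  have hχd : χ d' ≠ 1 := fun h => hds ((hχ d').mp h)
  have hz1 : π z ≠ 1 := by rw [eπz]; exact hz
  have hzz : π z * π z = 1 := by rw [eπz]; exact two_sq ha hb hab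
  constructor
  · intro hdd
    obtain ⟨ξ, hξ1, hξ2⟩ := abs_four π χ hπ z d' hχz hχd hz1 hzz hcases hdd
    refine main _ ξ hξ1 S _ hS ?_
    intro g
    rw [hξ2]
    exact (inn_iff1 (g : ↥(simG Q))).symm
  · intro hdd
    obtain ⟨ξ, hξ1, hξ2⟩ := abs_cyc π χ hπ z d' hχz hχd hz1 hzz hcases (by rw [eπz]; exact hdd)
    refine main _ ξ hξ1 S _ hS ?_
    intro g
    rw [hξ2]
    exact (inn_iff1 (g : ↥(simG Q))).symm

end odd

end H48.Pgo
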