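import Cfsg.Agent.Lib.H48.Pgo4
import Cfsg.Agent.Lib.H48.OmegaLevi

set_option autoImplicit false
set_option linter.unusedSectionVars false
set_option linter.style.haveILetI false
set_option linter.unusedVariables false

/-! The squares of the diagonal similarities in the outer automorphism group. -/

namespace H48.Pgo

open Matrix QuadraticMap H48.OutO H48.QuadStd H50.OrthPsi H50.OrthSim H48.QuadSplit H48.OmegaLevi H48.OmegaPlus

theorem hom5 {G₁ G₂ G₃ G₄ A : Type*} [Group G₁] [Group G₂] [Group G₃] [Group G₄] [Group A] (l : G₁ →* G₂) (j : G₂ →* G₃)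
    (i : G₃ →* G₄) (π : G₄ →* A) {d s : G₄} {B D : G₁} {r₁ r₂ : G₂} {t₁ t₂ r₃ r₄ : G₃}
    (hd : d * d = s * i (j (l (B * D)) * (r₃ * r₄))) (hs : π s = 1) (hD : l D = r₁ * r₂) (hB : π (i (j (l B))) = 1)
    (ht₁ : j r₁ = t₁) (ht₂ : j r₂ = t₂) :
    π d * π d = (π (i t₁) * π (i t₂)) * (π (i r₃) * π (i r₄)) := by
  subst ht₁ ht₂
  rw [← map_mul π d d, hd, map_mul π, hs, one_mul, map_mul l, hD]
  simp only [map_mul, hB, one_mul]

section gen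

variable {F : Type*} [Field F] [Fintype F] {ι : Type} [Fintype ι] [DecidableEq ι] {Q : QuadraticForm F (ι → F)}

theorem pi1_scG (u : Fˣ) : pi1 Q (scG Q u) = 1 := by
  rw [← inn_iff1, psi1_scG]
  exact Subgroup.one_mem _

theorem pi1_refl (v : ι → F) (hv : Q v ≠ 0) : pi1 Q (isoG Q (H17.OrthDet.refl Q v hv)) = pi Q (Rf Q v hv) := rfl

variable (h2 : (2 : F) ≠ 0) (hQ : (polarBilin Q).Nondegenerate) (hn : 7 ≤ Fintype.card ι)
include h2 hQ hn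

theorem two_refl_sq {u₁ u₂ : ι → F} (h1 : Q u₁ = 1) {c : F} (hc : Q u₂ = c) (hc0 : c ≠ 0) (hs : IsSquare c)
    (k1 : Q u₁ ≠ 0) (k2 : Q u₂ ≠ 0) : pi Q (Rf Q u₁ k1) * pi Q (Rf Q u₂ k2) = 1 := by
  rw [pi_Rf_eq h2 hQ hn k1 k2 (by rw [h1, hc, one_mul]; exact hs)]
  exact pi_Rf_sq _ _

theorem two_refl_non {u₁ u₂ v₁ v₂ : ι → F} (h1 : Q u₁ = 1) {c : F} (hc : Q u₂ = c) (hc0 : c ≠ 0) (hs : ¬ IsSquare c)
    (k1 : Q u₁ ≠ 0) (k2 : Q u₂ ≠ 0) (l1 : Q v₁ ≠ 0) (l1' : IsSquare (Q v₁)) (l2 : Q v₂ ≠ 0) (l2' : ¬ IsSquare (Q v₂)) :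
    pi Q (Rf Q u₁ k1) * pi Q (Rf Q u₂ k2) = pi Q (Rf Q v₁ l1) * pi Q (Rf Q v₂ l2) := by
  rw [pi_Rf_eq h2 hQ hn k1 l1 (by rw [h1, one_mul]; exact l1'),
    pi_Rf_eq h2 hQ hn k2 l2 (by rw [hc]; exact H48.FinFieldSq.isSquare_mul_of_not hs l2')]

end gen

section plus

variable {F : Type*} [Field F] [Fintype F] {m : ℕ}

theorem q_u (i : Fin m) (c : F) :
    qPlus m F (Pi.single (Sum.inl i) 1 + c • Pi.single (Sum.inr i) 1) = c :=
  ((OmegaNeg.hps_plus (F := F) m).hp i).Q_add_smul c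

theorem lev_dg (i : Fin m) (c : F) (hc : c ≠ 0)
    (h1 : qPlus m F (Pi.single (Sum.inl i) 1 + (1 : F) • Pi.single (Sum.inr i) 1) ≠ 0)
    (h2 : qPlus m F (Pi.single (Sum.inl i) 1 + c • Pi.single (Sum.inr i) 1) ≠ 0) :
    lev (dg i c hc) = H17.OrthDet.refl (qPlus m F) _ h1 * H17.OrthDet.refl (qPlus m F) _ h2 := by
  apply Subtype.ext
  apply Units.ext
  rw [lev_coe, ← lm_dg, Subgroup.coe_mul, Units.val_mul, H17.OrthDet.refl_coe, H17.OrthDet.refl_coe, rprod_cons,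
    rprod_cons]
  change _ * (_ * (1 : Matrix (Fin m ⊕ Fin m) (Fin m ⊕ Fin m) F)) = _
  rw [mul_one]

/-- decomposition of a Levi element -/
theorem lev_decomp (i : Fin m) (A : GL (Fin m) F) {c : F} (hc : c ≠ 0)
    (hA : (A : Matrix (Fin m) (Fin m) F).det = c) :
    ∃ B : GL (Fin m) F, (B : Matrix (Fin m) (Fin m) F).det = 1 ∧ A = B * dg i c hc := by
  refine ⟨A * (dg i c hc)⁻¹, ?_, by rw [inv_mul_cancel_right]⟩
  have h1 : ((A * (dg i c hc)⁻¹ : GL (Fin m) F) : Matrix (Fin m) (Fin m) F).det *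
      ((dg i c hc : GL (Fin m) F) : Matrix (Fin m) (Fin m) F).det = (A : Matrix (Fin m) (Fin m) F).det := by
    rw [← Matrix.det_mul, ← Units.val_mul, inv_mul_cancel_right]
  rw [dg_det, hA] at h1
  exact mul_right_cancel₀ hc (h1.trans (one_mul c).symm)

theorem det_sc (u : Fˣ) : ((H50.PSLField.sc u : GL (Fin m) F) : Matrix (Fin m) (Fin m) F).det = (u : F) ^ m := by
  rw [H50.PSLField.sc_coe, Matrix.det_smul, Matrix.det_one, mul_one, Fintype.card_fin]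

theorem dS_sq (c : F) (hc : c ≠ 0) : dS m c hc * dS m c hc =
    scG (qPlus m F) (Units.mk0 c hc) * isoG (qPlus m F) (lev (H50.PSLField.sc (Units.mk0 c hc))) := by
  apply Subtype.ext
  apply H50.OrthDesc.gl_ext
  intro v
  rw [Subgroup.coe_mul, Subgroup.coe_mul, Units.val_mul, Units.val_mul, ← Matrix.mulVec_mulVec, ← Matrix.mulVec_mulVec,
    scG_coe, isoG_coe, sc_mulVec]
  change ((dG m c hc : GL (Fin m ⊕ Fin m) F) : Matrix (Fin m ⊕ Fin m) (Fin m ⊕ Fin m) F) *ᵥ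
    (((dG m c hc : GL (Fin m ⊕ Fin m) F) : Matrix (Fin m ⊕ Fin m) (Fin m ⊕ Fin m) F) *ᵥ v) = c •
    ((((lev (H50.PSLField.sc (Units.mk0 c hc)) : ↥(Cfsg.isometryGroup F (⇑(qPlus m F)))) : GL (Fin m ⊕ Fin m) F) :
      Matrix (Fin m ⊕ Fin m) (Fin m ⊕ Fin m) F) *ᵥ v)
  rw [dG_mulVec, dG_mulVec, lev_coe, lm_apply]
  have hinv : ((H50.PSLField.sc (Units.mk0 c hc) : GL (Fin m) F) : Matrix (Fin m) (Fin m) F)⁻¹ = c⁻¹ • 1 := by
    rw [← Matrix.coe_units_inv, ← map_inv, H50.PSLField.sc_coe]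
    rfl
  rw [hinv, H50.PSLField.sc_coe]
  funext i
  rcases i with i | i
  · simp [dPlus, Matrix.smul_mulVec]
  · simp [dPlus, Matrix.smul_mulVec, hc]

theorem pi1_dS (h2 : (2 : F) ≠ 0) (hm : 4 ≤ m) (c : F) (hc : c ≠ 0) :
    ∃ (u₁ u₂ : Fin m ⊕ Fin m → F) (k1 : qPlus m F u₁ ≠ 0) (k2 : qPlus m F u₂ ≠ 0), qPlus m F u₁ = 1 ∧
      qPlus m F u₂ = c ^ m ∧
      pi1 (qPlus m F) (dS m c hc) * pi1 (qPlus m F) (dS m c hc) =
        pi (qPlus m F) (Rf (qPlus m F) u₁ k1) * pi (qPlus m F) (Rf (qPlus m F) u₂ k2) := by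
  have hcm : c ^ m ≠ 0 := pow_ne_zero _ hc
  have k1 : qPlus m F (Pi.single (Sum.inl (⟨0, by omega⟩ : Fin m)) 1 +
      (1 : F) • Pi.single (Sum.inr (⟨0, by omega⟩ : Fin m)) 1) ≠ 0 := by
    rw [q_u]; exact one_ne_zero
  have k2 : qPlus m F (Pi.single (Sum.inl (⟨0, by omega⟩ : Fin m)) 1 +
      (c ^ m) • Pi.single (Sum.inr (⟨0, by omega⟩ : Fin m)) 1) ≠ 0 := by
    rw [q_u]; exact hcm
  refine ⟨_, _, k1, k2, q_u _ _, q_u _ _, ?_⟩
  obtain ⟨B, hB, hAB⟩ := lev_decomp (⟨0, by omega⟩ : Fin m) (H50.PSLField.sc (Units.mk0 c hc)) hcm (det_sc _)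
  rw [← map_mul, dS_sq, map_mul, pi1_scG, one_mul, hAB, map_mul, lev_dg _ _ _ k1 k2]
  have h5 : pi1 (qPlus m F) (isoG (qPlus m F) (lev B)) = 1 :=
    pi_emb_of_mem (lev_mem_of_det_one (Or.inr (by omega)) B hB)
  rw [map_mul, map_mul, h5, one_mul, map_mul, map_mul]
  rfl

end plus

section minus

variable {F : Type*} [Field F] [Fintype F] {m : ℕ} {a b : F}

/-- block embedding -/
def blk (F : Type*) [Field F] (m : ℕ) : GL (Fin m ⊕ Fin m) F →* GL ((Fin m ⊕ Fin m) ⊕ Fin 2) F :=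
  Units.map
    { toFun := fun M => Matrix.fromBlocks M 0 0 1
      map_one' := Matrix.fromBlocks_one
      map_mul' := fun M N => by
        rw [Matrix.fromBlocks_multiply]
        simp }

theorem blk_mulVec (g : GL (Fin m ⊕ Fin m) F) (v : (Fin m ⊕ Fin m) ⊕ Fin 2 → F) :
    ((blk F m g : GL ((Fin m ⊕ Fin m) ⊕ Fin 2) F) : Matrix ((Fin m ⊕ Fin m) ⊕ Fin 2) ((Fin m ⊕ Fin m) ⊕ Fin 2) F) *ᵥ v =
      Sum.elim ((g : Matrix (Fin m ⊕ Fin m) (Fin m ⊕ Fin m) F) *ᵥ (v ∘ Sum.inl)) (v ∘ Sum.inr) := by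
  change (Matrix.fromBlocks (g : Matrix (Fin m ⊕ Fin m) (Fin m ⊕ Fin m) F) 0 0 1) *ᵥ v = _
  rw [Matrix.fromBlocks_mulVec]
  simp

theorem q_split (v : (Fin m ⊕ Fin m) ⊕ Fin 2 → F) : qMinus m F a b v = qPlus m F (v ∘ Sum.inl) +
    (v (.inr 0) ^ 2 + a * v (.inr 0) * v (.inr 1) + b * v (.inr 1) ^ 2) := by
  rw [qMinus_apply, qPlus_apply]
  rfl

theorem q_elim (u : Fin m ⊕ Fin m → F) (z : Fin 2 → F) : qMinus m F a b (Sum.elim u z) = qPlus m F u +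
    (z 0 ^ 2 + a * z 0 * z 1 + b * z 1 ^ 2) := by
  rw [q_split]
  rfl

/-- block embedding of isometry groups -/
def jH (m : ℕ) (a b : F) : ↥(Cfsg.isometryGroup F (⇑(qPlus m F))) →* ↥(Cfsg.isometryGroup F (⇑(qMinus m F a b))) where
  toFun g := ⟨blk F m g, by
    rw [H17.OrthDet.mem_isometryGroup_iff]
    intro v
    rw [blk_mulVec, q_elim, (H17.OrthDet.mem_isometryGroup_iff _ _).mp g.2, q_split]
    rfl⟩
  map_one' := Subtype.ext (map_one _)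
  map_mul' g h := Subtype.ext (map_mul _ _ _)

theorem jH_coe (g : ↥(Cfsg.isometryGroup F (⇑(qPlus m F)))) :
    ((jH m a b g : ↥(Cfsg.isometryGroup F (⇑(qMinus m F a b)))) : GL ((Fin m ⊕ Fin m) ⊕ Fin 2) F) = blk F m g := rfl

theorem jH_mem {g : ↥(Cfsg.isometryGroup F (⇑(qPlus m F)))} (hg : g ∈ Cfsg.Omega F (⇑(qPlus m F))) :
    jH m a b g ∈ Cfsg.Omega F (⇑(qMinus m F a b)) := by
  have h2 : (commutator ↥(Cfsg.isometryGroup F (⇑(qPlus m F)))).map (jH m a b) ≤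
      commutator ↥(Cfsg.isometryGroup F (⇑(qMinus m F a b))) := by
    rw [commutator_def, Subgroup.map_commutator, commutator_def]
    exact Subgroup.commutator_mono le_top le_top
  exact h2 ⟨g, hg, rfl⟩

theorem jH_refl (u : Fin m ⊕ Fin m → F) (hu : qPlus m F u ≠ 0) (hu' : qMinus m F a b (Sum.elim u 0) ≠ 0) :
    jH m a b (H17.OrthDet.refl (qPlus m F) u hu) = H17.OrthDet.refl (qMinus m F a b) (Sum.elim u 0) hu' := by
  have hq : qMinus m F a b (Sum.elim u 0) = qPlus m F u := by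
    rw [q_elim]; simp
  apply Subtype.ext
  apply H50.OrthDesc.gl_ext
  intro v
  rw [jH_coe, blk_mulVec, H17.OrthDet.refl_coe, H17.OrthDet.refl_coe, H17.OrthMat.reflectionMatrix_mulVec,
    H17.OrthMat.reflectionMatrix_mulVec, hq]
  have hp : polar (⇑(qMinus m F a b)) (Sum.elim u 0) v = polar (⇑(qPlus m F)) u (v ∘ Sum.inl) := by
    rw [polar_qMinus, polar_qPlus]
    simp
  rw [hp]
  funext i
  rcases i with i | i
  · rfl
  · simp

/-- multiplication by an element of the quadratic extension -/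
def mN (a b x y : F) : Matrix (Fin 2) (Fin 2) F := !![x, -b * y; y, x + a * y]

/-- the similarity of the minus form -/
noncomputable def dMG (m : ℕ) (a b x y : F) (hc : x ^ 2 + a * x * y + b * y ^ 2 ≠ 0) : GL ((Fin m ⊕ Fin m) ⊕ Fin 2) F :=
  Matrix.GeneralLinearGroup.mkOfDetNeZero
    (Matrix.fromBlocks (Matrix.fromBlocks ((x ^ 2 + a * x * y + b * y ^ 2) • (1 : Matrix (Fin m) (Fin m) F)) 0 0 1) 0 0
      (mN a b x y)) (by
    rw [Matrix.det_fromBlocks_zero₂₁, Matrix.det_fromBlocks_zero₂₁, Matrix.det_smul, Matrix.det_one, mul_one, mul_one,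
      mN, Matrix.det_fin_two_of]
    have : x * (x + a * y) - -b * y * y = x ^ 2 + a * x * y + b * y ^ 2 := by ring
    rw [this]
    exact mul_ne_zero (pow_ne_zero _ hc) hc)

theorem dMG_det (m : ℕ) (a b x y : F) (hc : x ^ 2 + a * x * y + b * y ^ 2 ≠ 0) :
    ((dMG m a b x y hc : GL ((Fin m ⊕ Fin m) ⊕ Fin 2) F) :
      Matrix ((Fin m ⊕ Fin m) ⊕ Fin 2) ((Fin m ⊕ Fin m) ⊕ Fin 2) F).det = (x ^ 2 + a * x * y + b * y ^ 2) ^ (m + 1) := by
  change (Matrix.fromBlocks (Matrix.fromBlocks ((x ^ 2 + a * x * y + b * y ^ 2) • (1 : Matrix (Fin m) (Fin m) F)) 0 0 1) 0 0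
      (mN a b x y)).det = _
  rw [Matrix.det_fromBlocks_zero₂₁, Matrix.det_fromBlocks_zero₂₁, Matrix.det_smul, Matrix.det_one, mul_one, mul_one,
      mN, Matrix.det_fin_two_of, Fintype.card_fin, pow_succ]
  ring

theorem dMG_mulVec (m : ℕ) (a b x y : F) (hc : x ^ 2 + a * x * y + b * y ^ 2 ≠ 0) (v : (Fin m ⊕ Fin m) ⊕ Fin 2 → F) :
    ((dMG m a b x y hc : GL ((Fin m ⊕ Fin m) ⊕ Fin 2) F) :
      Matrix ((Fin m ⊕ Fin m) ⊕ Fin 2) ((Fin m ⊕ Fin m) ⊕ Fin 2) F) *ᵥ v =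
      Sum.elim (dPlus m (x ^ 2 + a * x * y + b * y ^ 2) (v ∘ Sum.inl))
        ![x * v (.inr 0) - b * y * v (.inr 1), y * v (.inr 0) + (x + a * y) * v (.inr 1)] := by
  change (Matrix.fromBlocks (Matrix.fromBlocks ((x ^ 2 + a * x * y + b * y ^ 2) • (1 : Matrix (Fin m) (Fin m) F)) 0 0 1) 0 0
      (mN a b x y)) *ᵥ v = _
  rw [Matrix.fromBlocks_mulVec, Matrix.fromBlocks_mulVec]
  funext i
  rcases i with (i | i) | i
  · simp [dPlus, Matrix.smul_mulVec]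
  · simp [dPlus]
  · fin_cases i
    · simp [mN, Matrix.mulVec, dotProduct, Fin.sum_univ_two]; ring
    · simp [mN, Matrix.mulVec, dotProduct, Fin.sum_univ_two]

theorem dMG_mem (m : ℕ) (a b x y : F) (hc : x ^ 2 + a * x * y + b * y ^ 2 ≠ 0) (v : (Fin m ⊕ Fin m) ⊕ Fin 2 → F) :
    qMinus m F a b (((dMG m a b x y hc : GL ((Fin m ⊕ Fin m) ⊕ Fin 2) F) :
      Matrix ((Fin m ⊕ Fin m) ⊕ Fin 2) ((Fin m ⊕ Fin m) ⊕ Fin 2) F) *ᵥ v) =
      (x ^ 2 + a * x * y + b * y ^ 2) * qMinus m F a b v := by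
  have h1 : qPlus m F (dPlus m (x ^ 2 + a * x * y + b * y ^ 2) (v ∘ Sum.inl)) =
      (x ^ 2 + a * x * y + b * y ^ 2) * qPlus m F (v ∘ Sum.inl) := by
    rw [qPlus_apply, qPlus_apply, Finset.mul_sum]
    exact Finset.sum_congr rfl fun i _ => mul_assoc _ _ _
  rw [dMG_mulVec, q_elim, q_split, h1]
  simp only [Matrix.cons_val_zero, Matrix.cons_val_one]
  ring

noncomputable def dM (m : ℕ) (a b x y : F) (hc : x ^ 2 + a * x * y + b * y ^ 2 ≠ 0) : ↥(simG (qMinus m F a b)) :=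
  ⟨dMG m a b x y hc, Units.mk0 _ hc, dMG_mem m a b x y hc⟩

theorem dM_mult (m : ℕ) (a b x y : F) (hc : x ^ 2 + a * x * y + b * y ^ 2 ≠ 0) :
    IsMult (qMinus m F a b) (toGam (qMinus m F a b) (dM m a b x y hc) : GA ((Fin m ⊕ Fin m) ⊕ Fin 2) F)
      (x ^ 2 + a * x * y + b * y ^ 2) := by
  intro v
  rw [toGam_coe, ap_inl]
  exact dMG_mem m a b x y hc v

theorem dM_sq (m : ℕ) (a b x y : F) (hc : x ^ 2 + a * x * y + b * y ^ 2 ≠ 0)
    (k1 : qMinus m F a b (Sum.elim 0 ![x, y]) ≠ 0) (k2 : qMinus m F a b (Sum.elim 0 ![1, 0]) ≠ 0) :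
    dM m a b x y hc * dM m a b x y hc =
    scG (qMinus m F a b) (Units.mk0 _ hc) * isoG (qMinus m F a b) (jH m a b (lev (H50.PSLField.sc (Units.mk0 _ hc))) *
      (H17.OrthDet.refl (qMinus m F a b) _ k1 * H17.OrthDet.refl (qMinus m F a b) _ k2)) := by
  apply Subtype.ext
  apply H50.OrthDesc.gl_ext
  intro v
  have q1 : qMinus m F a b (Sum.elim 0 ![x, y]) = x ^ 2 + a * x * y + b * y ^ 2 := by
    rw [q_elim, QuadraticMap.map_zero]; simp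
  have q2 : qMinus m F a b (Sum.elim 0 ![1, 0]) = 1 := by
    rw [q_elim, QuadraticMap.map_zero]; simp
  have p1 : ∀ v, polar (⇑(qMinus m F a b)) (Sum.elim 0 ![x, y]) v = 2 * x * v (.inr 0) +
      a * (x * v (.inr 1) + y * v (.inr 0)) + 2 * b * y * v (.inr 1) := by
    intro v
    rw [polar_qMinus]
    simp
  have p2 : ∀ v, polar (⇑(qMinus m F a b)) (Sum.elim 0 ![1, 0]) v = 2 * v (.inr 0) + a * v (.inr 1) := by
    intro v
    rw [polar_qMinus]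
    simp
  set c := x ^ 2 + a * x * y + b * y ^ 2 with hcdef
  rw [Subgroup.coe_mul, Subgroup.coe_mul, Units.val_mul, Units.val_mul, ← Matrix.mulVec_mulVec, ← Matrix.mulVec_mulVec,
    scG_coe, isoG_coe, sc_mulVec]
  change ((dMG m a b x y hc : GL ((Fin m ⊕ Fin m) ⊕ Fin 2) F) :
      Matrix ((Fin m ⊕ Fin m) ⊕ Fin 2) ((Fin m ⊕ Fin m) ⊕ Fin 2) F) *ᵥ
    (((dMG m a b x y hc : GL ((Fin m ⊕ Fin m) ⊕ Fin 2) F) :
      Matrix ((Fin m ⊕ Fin m) ⊕ Fin 2) ((Fin m ⊕ Fin m) ⊕ Fin 2) F) *ᵥ v) = c • _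
  rw [Subgroup.coe_mul, Subgroup.coe_mul, Units.val_mul, Units.val_mul, ← Matrix.mulVec_mulVec, ← Matrix.mulVec_mulVec,
    H17.OrthDet.refl_coe, H17.OrthDet.refl_coe, H17.OrthMat.reflectionMatrix_mulVec,
    H17.OrthMat.reflectionMatrix_mulVec, q1, q2, p1, p2, jH_coe, blk_mulVec, lev_coe, lm_apply]
  have hinv : ((H50.PSLField.sc (Units.mk0 c hc) : GL (Fin m) F) : Matrix (Fin m) (Fin m) F)⁻¹ = c⁻¹ • 1 := by
    rw [← Matrix.coe_units_inv, ← map_inv, H50.PSLField.sc_coe]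
    rfl
  have e : ∀ v, ((dMG m a b x y hc : GL ((Fin m ⊕ Fin m) ⊕ Fin 2) F) :
      Matrix ((Fin m ⊕ Fin m) ⊕ Fin 2) ((Fin m ⊕ Fin m) ⊕ Fin 2) F) *ᵥ v =
      Sum.elim (dPlus m c (v ∘ Sum.inl))
        ![x * v (.inr 0) - b * y * v (.inr 1), y * v (.inr 0) + (x + a * y) * v (.inr 1)] := dMG_mulVec m a b x y hc
  rw [hinv, H50.PSLField.sc_coe, e, e]
  funext i
  rcases i with (i | i) | i
  · simp [dPlus, Matrix.smul_mulVec]
    exact Or.inl (Or.inl hcdef)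
  · simp [dPlus, Matrix.smul_mulVec, hc]
  · fin_cases i
    · simp
      field_simp
      rw [hcdef]
      ring
    · simp
      field_simp
      rw [hcdef]
      ring

set_option maxHeartbeats 1600000 in
theorem pi1_dM (h2 : (2 : F) ≠ 0) (hm : 3 ≤ m) (x y : F) (hc : x ^ 2 + a * x * y + b * y ^ 2 ≠ 0) :
    ∃ (u₁ u₂ w₁ w₂ : (Fin m ⊕ Fin m) ⊕ Fin 2 → F) (k1 : qMinus m F a b u₁ ≠ 0) (k2 : qMinus m F a b u₂ ≠ 0)
      (l1 : qMinus m F a b w₁ ≠ 0) (l2 : qMinus m F a b w₂ ≠ 0), qMinus m F a b u₁ = 1 ∧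
      qMinus m F a b u₂ = (x ^ 2 + a * x * y + b * y ^ 2) ^ m ∧ qMinus m F a b w₁ = x ^ 2 + a * x * y + b * y ^ 2 ∧
      qMinus m F a b w₂ = 1 ∧
      pi1 (qMinus m F a b) (dM m a b x y hc) * pi1 (qMinus m F a b) (dM m a b x y hc) =
        (pi (qMinus m F a b) (Rf (qMinus m F a b) u₁ k1) * pi (qMinus m F a b) (Rf (qMinus m F a b) u₂ k2)) *
        (pi (qMinus m F a b) (Rf (qMinus m F a b) w₁ l1) * pi (qMinus m F a b) (Rf (qMinus m F a b) w₂ l2)) := by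
  have hcm : (x ^ 2 + a * x * y + b * y ^ 2) ^ m ≠ 0 := pow_ne_zero _ hc
  have hq : ∀ u : Fin m ⊕ Fin m → F, qMinus m F a b (Sum.elim u 0) = qPlus m F u := by
    intro u
    rw [q_elim]; simp
  have q1 : qMinus m F a b (Sum.elim 0 ![x, y]) = x ^ 2 + a * x * y + b * y ^ 2 := by
    rw [q_elim, QuadraticMap.map_zero]; simp
  have q2 : qMinus m F a b (Sum.elim 0 ![1, 0]) = 1 := by
    rw [q_elim, QuadraticMap.map_zero]; simp
  have l1 : qMinus m F a b (Sum.elim 0 ![x, y]) ≠ 0 := by rw [q1]; exact hc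
  have l2 : qMinus m F a b (Sum.elim 0 ![1, 0]) ≠ 0 := by rw [q2]; exact one_ne_zero
  have n1 : qPlus m F (Pi.single (Sum.inl (⟨0, by omega⟩ : Fin m)) 1 +
      (1 : F) • Pi.single (Sum.inr (⟨0, by omega⟩ : Fin m)) 1) ≠ 0 := by
    rw [q_u]; exact one_ne_zero
  have n2 : qPlus m F (Pi.single (Sum.inl (⟨0, by omega⟩ : Fin m)) 1 +
      ((x ^ 2 + a * x * y + b * y ^ 2) ^ m) • Pi.single (Sum.inr (⟨0, by omega⟩ : Fin m)) 1) ≠ 0 := by
    rw [q_u]; exact hcm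
  have k1 := (hq _).trans_ne n1
  have k2 := (hq _).trans_ne n2
  refine ⟨_, _, _, _, k1, k2, l1, l2, (hq _).trans (q_u _ _), (hq _).trans (q_u _ _), q1, q2, ?_⟩
  obtain ⟨B, hB, hAB⟩ := lev_decomp (⟨0, by omega⟩ : Fin m) (H50.PSLField.sc (Units.mk0 _ hc)) hcm (det_sc _)
  have h5 : pi1 (qMinus m F a b) (isoG (qMinus m F a b) (jH m a b (lev B))) = 1 :=
    pi_emb_of_mem (jH_mem (lev_mem_of_det_one (Or.inr (by omega)) B hB))
  have h6 := dM_sq m a b x y hc l1 l2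
  rw [hAB] at h6
  have h7 := hom5 lev (jH m a b) (isoG (qMinus m F a b)) (pi1 (qMinus m F a b)) h6 (pi1_scG _) (lev_dg _ _ _ n1 n2) h5
    (jH_refl _ n1 k1) (jH_refl _ n2 k2)
  rw [pi1_refl, pi1_refl, pi1_refl, pi1_refl] at h7
  exact h7

end minus

end H48.Pgo
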