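import Cfsg.Agent.Lib.H48.Unip

set_option autoImplicit false
set_option linter.unusedSectionVars false
set_option linter.style.haveILetI false

/-! The commutant of a regular unipotent isometry. -/

namespace H48.RegSp

open Matrix H48.Unip

variable {F : Type*} [Field F] {n : Type*} [Fintype n] [DecidableEq n]

/-- a regular unipotent isometry `u` with adjoint anti-automorphism `τ` -/
structure RA (u : Matrix n n F) (d : ℕ) (τ : Matrix n n F →ₗ[F] Matrix n n F) : Prop where
  card : Fintype.card n = d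
  pos : 0 < d
  nil : (u - 1) ^ d = 0
  rk : (u - 1).rank = d - 1
  mul : ∀ x y, τ (x * y) = τ y * τ x
  inv : ∀ x, τ (τ x) = x
  adj : τ u * u = 1

namespace RA

variable {u : Matrix n n F} {d : ℕ} {τ : Matrix n n F →ₗ[F] Matrix n n F}

theorem pow_ne (h : RA u d τ) : (u - 1) ^ (d - 1) ≠ 0 := by
  intro h0
  have h1 := rank_pow_regular' h.card h.nil h.rk (d - 1)
  rw [h0, Matrix.rank_zero] at h1
  have := h.pos
  omega

theorem pow_zero_of_le (h : RA u d τ) {k : ℕ} (hk : d ≤ k) : (u - 1) ^ k = 0 := by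
  obtain ⟨j, rfl⟩ := Nat.exists_eq_add_of_le hk
  rw [pow_add, h.nil, zero_mul]

theorem commN {x : Matrix n n F} : x * u = u * x ↔ x * (u - 1) = (u - 1) * x := by
  rw [mul_sub, sub_mul, mul_one, one_mul]
  constructor
  · intro h; rw [h]
  · intro h; exact sub_left_injective h

theorem exists_coeff (h : RA u d τ) {x : Matrix n n F} (hx : x * u = u * x) :
    ∃ a : Fin d → F, x = ∑ i : Fin d, a i • (u - 1) ^ (i : ℕ) :=
  commutant_regular_matrix h.card h.nil h.rk h.pos (commN.mp hx)

/-- if `N^(j+1)` kills `Σ a_i N^i` where `j + 1 + i = d` then `a_i = 0` -/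
theorem coeff_zero (h : RA u d τ) (a : Fin d → F) (k : ℕ)
    (ha : (u - 1) ^ k * ∑ i : Fin d, a i • (u - 1) ^ (i : ℕ) = 0) (i : Fin d) (hi : (i : ℕ) + k < d) :
    a i = 0 := by
  obtain ⟨i, hid⟩ := i
  simp only at hi
  induction i using Nat.strong_induction_on with
  | _ i ih =>
    have h1 : (u - 1) ^ (d - 1 - i) * ∑ j : Fin d, a j • (u - 1) ^ (j : ℕ) = 0 := by
      have : d - 1 - i = (d - 1 - i - k) + k := by omega
      rw [this, pow_add, mul_assoc, ha, mul_zero]
    rw [Finset.mul_sum, Finset.sum_eq_single ⟨i, hid⟩] at h1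
    · rw [mul_smul_comm, ← pow_add] at h1
      have e : d - 1 - i + i = d - 1 := by omega
      simp only [e] at h1
      exact (smul_eq_zero.mp h1).resolve_right h.pow_ne
    · rintro ⟨j, hj⟩ _ hne
      have hne' : j ≠ i := fun h => hne (Fin.ext h)
      rcases Nat.lt_or_gt_of_ne hne' with hlt | hgt
      · rw [ih j hlt hj (by omega), zero_smul, mul_zero]
      · rw [mul_smul_comm, ← pow_add, h.pow_zero_of_le (by simp only; omega), smul_zero]
    · intro h'
      exact absurd (Finset.mem_univ _) h'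

theorem comm (h : RA u d τ) {x y : Matrix n n F} (hx : x * u = u * x) (hy : y * u = u * y) :
    x * y = y * x := by
  obtain ⟨a, rfl⟩ := h.exists_coeff hx
  have hy' := commN.mp hy
  have : Commute (∑ i : Fin d, a i • (u - 1) ^ (i : ℕ)) y := by
    apply Commute.sum_left
    intro i _
    apply Commute.smul_left
    apply Commute.pow_left
    exact hy'.symm
  exact this

theorem top (h : RA u d τ) {x : Matrix n n F} (hx : x * u = u * x) (h0 : (u - 1) * x = 0) :
    ∃ c : F, x = c • (u - 1) ^ (d - 1) := by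
  obtain ⟨a, rfl⟩ := h.exists_coeff hx
  refine ⟨a ⟨d - 1, by have := h.pos; omega⟩, ?_⟩
  rw [Finset.sum_eq_single ⟨d - 1, by have := h.pos; omega⟩]
  · rintro ⟨j, hj⟩ _ hne
    have hne' : j ≠ d - 1 := fun h => hne (Fin.ext h)
    rw [h.coeff_zero a 1 (by rw [pow_one]; exact h0) ⟨j, hj⟩ (by simp only; omega), zero_smul]
  · intro h'
    exact absurd (Finset.mem_univ _) h'

theorem const (h : RA u d τ) {x : Matrix n n F} (hx : x * u = u * x) :
    ∃ c : F, x * (u - 1) ^ (d - 1) = c • (u - 1) ^ (d - 1) ∧ IsNilpotent (x - c • 1) := by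
  obtain ⟨a, rfl⟩ := h.exists_coeff hx
  obtain ⟨k, rfl⟩ : ∃ k, d = k + 1 := ⟨d - 1, by have := h.pos; omega⟩
  have e1 : ∑ i : Fin (k + 1), a i • (u - 1) ^ (i : ℕ) =
      a 0 • 1 + (u - 1) * ∑ i : Fin k, a i.succ • (u - 1) ^ (i : ℕ) := by
    rw [Fin.sum_univ_succ, Fin.val_zero, pow_zero, Finset.mul_sum]
    congr 1
    apply Finset.sum_congr rfl
    intro i _
    rw [mul_smul_comm, Fin.val_succ, pow_succ']
  have hc : Commute (u - 1) (∑ i : Fin k, a i.succ • (u - 1) ^ (i : ℕ)) := by
    apply Commute.sum_right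
    intro i _
    apply Commute.smul_right
    exact Commute.pow_right (Commute.refl _) _
  refine ⟨a 0, ?_, ?_⟩
  · rw [e1, add_mul, smul_mul_assoc, one_mul, hc.eq, mul_assoc, ← pow_succ', Nat.add_sub_cancel,
      h.nil, mul_zero, add_zero]
  · rw [e1, add_sub_cancel_left]
    refine ⟨k + 1, ?_⟩
    rw [hc.mul_pow, h.nil, zero_mul]

theorem const_unique (h : RA u d τ) {c c' : F}
    (hc : c • (u - 1) ^ (d - 1) = c' • (u - 1) ^ (d - 1)) : c = c' := by
  rw [← sub_eq_zero, ← sub_smul] at hc
  exact sub_eq_zero.mp ((smul_eq_zero.mp hc).resolve_right h.pow_ne)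

theorem tau_one (h : RA u d τ) : τ 1 = 1 := by
  have h1 := h.mul (τ 1) 1
  rw [mul_one, h.inv, mul_one] at h1
  exact h1.symm

theorem adj' (h : RA u d τ) : u * τ u = 1 := mul_eq_one_comm.mp h.adj

theorem tau_pow (h : RA u d τ) (x : Matrix n n F) (k : ℕ) : τ (x ^ k) = (τ x) ^ k := by
  induction k with
  | zero => rw [pow_zero, pow_zero, h.tau_one]
  | succ k ih => rw [pow_succ, h.mul, ih, ← pow_succ']

theorem tau_comm (h : RA u d τ) {x : Matrix n n F} (hx : x * u = u * x) : τ x * u = u * τ x := by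
  have h1 : τ u * τ x = τ x * τ u := by rw [← h.mul, hx, h.mul]
  calc τ x * u = (u * τ u) * (τ x * u) := by rw [h.adj', one_mul]
    _ = u * (τ u * τ x) * u := by simp only [mul_assoc]
    _ = u * τ x * (τ u * u) := by rw [h1]; simp only [mul_assoc]
    _ = u * τ x := by rw [h.adj, mul_one]

theorem inv_comm (h : RA u d τ) : τ u * u = u * τ u := by rw [h.adj, h.adj']

theorem pow_top_mul (h : RA u d τ) : u * (u - 1) ^ (d - 1) = (u - 1) ^ (d - 1) := by
  have h1 : (u - 1) * (u - 1) ^ (d - 1) = 0 := by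
    rw [← pow_succ', Nat.sub_add_cancel h.pos, h.nil]
  rw [sub_mul, one_mul, sub_eq_zero] at h1
  exact h1

theorem pow_top_mul' (h : RA u d τ) : τ u * (u - 1) ^ (d - 1) = (u - 1) ^ (d - 1) := by
  conv_lhs => rw [← h.pow_top_mul]
  rw [← mul_assoc, h.adj, one_mul]

theorem tau_top (h : RA u d τ) : τ ((u - 1) ^ (d - 1)) = (-1) ^ (d - 1) * (u - 1) ^ (d - 1) := by
  rw [h.tau_pow, map_sub, h.tau_one]
  have h1 : τ u - 1 = (-1) * (τ u * (u - 1)) := by
    rw [mul_sub, h.adj, mul_one]
    noncomm_ring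
  have hc : Commute (τ u) (u - 1) := by
    have : Commute (τ u) u := h.inv_comm
    exact this.sub_right (Commute.one_right _)
  have hm : Commute (-1 : Matrix n n F) (τ u * (u - 1)) := by
    rw [commute_iff_eq]; noncomm_ring
  rw [h1, hm.mul_pow, hc.mul_pow]
  congr 1
  have : ∀ k, (τ u) ^ k * (u - 1) ^ (d - 1) = (u - 1) ^ (d - 1) := by
    intro k
    induction k with
    | zero => rw [pow_zero, one_mul]
    | succ k ih => rw [pow_succ, mul_assoc, h.pow_top_mul', ih]
  exact this _

theorem const_tau (h : RA u d τ) {x : Matrix n n F} {c : F} (hx : x * u = u * x)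
    (hc : x * (u - 1) ^ (d - 1) = c • (u - 1) ^ (d - 1)) :
    τ x * (u - 1) ^ (d - 1) = c • (u - 1) ^ (d - 1) := by
  have hN : (u - 1) ^ (d - 1) * u = u * (u - 1) ^ (d - 1) := by
    have : Commute ((u - 1) ^ (d - 1)) u := ((Commute.refl u).sub_left (Commute.one_left _)).pow_left _
    exact this
  have h1 := congrArg τ hc
  rw [h.mul, map_smul, h.tau_top] at h1
  have hm : Commute ((-1 : Matrix n n F) ^ (d - 1)) (τ x) := by
    apply Commute.pow_left
    rw [commute_iff_eq]; noncomm_ring
  rw [mul_assoc, h.comm hN (h.tau_comm hx), ← mul_smul_comm] at h1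
  have hu : IsUnit ((-1 : Matrix n n F) ^ (d - 1)) := (isUnit_one.neg).pow _
  exact hu.mul_left_cancel h1

variable (u τ)

/-- the commutant -/
def R : Submodule F (Matrix n n F) where
  carrier := {x | x * u = u * x}
  add_mem' {x y} hx hy := by
    change (x + y) * u = u * (x + y)
    rw [add_mul, mul_add, show x * u = u * x from hx, show y * u = u * y from hy]
  zero_mem' := by change 0 * u = u * 0; rw [zero_mul, mul_zero]
  smul_mem' c x hx := by
    change (c • x) * u = u * (c • x)
    rw [smul_mul_assoc, mul_smul_comm, show x * u = u * x from hx]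

/-- symmetric elements -/
def P : Submodule F (Matrix n n F) := R u ⊓ LinearMap.ker (τ - LinearMap.id)

/-- skew elements -/
def S : Submodule F (Matrix n n F) := R u ⊓ LinearMap.ker (τ + LinearMap.id)

variable {u τ}

theorem mem_R {x : Matrix n n F} : x ∈ R u ↔ x * u = u * x := Iff.rfl

theorem mem_P {x : Matrix n n F} : x ∈ P u τ ↔ x * u = u * x ∧ τ x = x := by
  rw [P, Submodule.mem_inf, mem_R, LinearMap.mem_ker, LinearMap.sub_apply, LinearMap.id_apply, sub_eq_zero]

theorem mem_S {x : Matrix n n F} : x ∈ S u τ ↔ x * u = u * x ∧ τ x = -x := by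
  rw [S, Submodule.mem_inf, mem_R, LinearMap.mem_ker, LinearMap.add_apply, LinearMap.id_apply,
    add_eq_zero_iff_eq_neg]

theorem finrank_R (h : RA u d τ) : Module.finrank F (R u) = d := by
  let f : (Fin d → F) →ₗ[F] Matrix n n F :=
    { toFun := fun a => ∑ i : Fin d, a i • (u - 1) ^ (i : ℕ)
      map_add' := fun a b => by simp only [Pi.add_apply, add_smul, Finset.sum_add_distrib]
      map_smul' := fun c a => by
        simp only [Pi.smul_apply, smul_assoc, RingHom.id_apply, Finset.smul_sum] }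
  have hf : Function.Injective f := by
    rw [← LinearMap.ker_eq_bot, LinearMap.ker_eq_bot']
    intro a ha
    funext i
    have ha' : ∑ i : Fin d, a i • (u - 1) ^ (i : ℕ) = 0 := ha
    exact h.coeff_zero a 0 (by rw [ha', mul_zero]) i (by have := i.2; omega)
  have hr : LinearMap.range f = R u := by
    apply le_antisymm
    · rintro _ ⟨a, rfl⟩
      change (∑ i : Fin d, a i • (u - 1) ^ (i : ℕ)) * u = u * ∑ i : Fin d, a i • (u - 1) ^ (i : ℕ)
      have : Commute (∑ i : Fin d, a i • (u - 1) ^ (i : ℕ)) u := by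
        apply Commute.sum_left
        intro i _
        apply Commute.smul_left
        apply Commute.pow_left
        exact (Commute.refl u).sub_left (Commute.one_left _)
      exact this
    · intro x hx
      obtain ⟨a, rfl⟩ := h.exists_coeff (mem_R.mp hx)
      exact ⟨a, rfl⟩
  rw [← hr, LinearMap.finrank_range_of_inj hf]
  simp

theorem finrank_add (h : RA u d τ) (h2 : (2 : F) ≠ 0) :
    Module.finrank F (P u τ) + Module.finrank F (S u τ) = d := by
  have h1 := Submodule.finrank_sup_add_finrank_inf_eq (P u τ) (S u τ)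
  have hinf : P u τ ⊓ S u τ = ⊥ := by
    rw [eq_bot_iff]
    intro x hx
    obtain ⟨hp, hs⟩ := Submodule.mem_inf.mp hx
    have e1 := (mem_P.mp hp).2
    have e2 := (mem_S.mp hs).2
    rw [e1] at e2
    have e3 : (2 : F) • x = 0 := by rw [two_smul]; nth_rewrite 1 [e2]; rw [neg_add_cancel]
    exact (smul_eq_zero.mp e3).resolve_left h2
  have hsup : P u τ ⊔ S u τ = R u := by
    apply le_antisymm (sup_le inf_le_left inf_le_left)
    intro x hx
    have hx' := mem_R.mp hx
    have hτ := h.tau_comm hx'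
    have e : x = (2 : F)⁻¹ • (x + τ x) + (2 : F)⁻¹ • (x - τ x) := by
      rw [← smul_add]
      have : x + τ x + (x - τ x) = (2 : F) • x := by rw [two_smul]; abel
      rw [this, smul_smul, inv_mul_cancel₀ h2, one_smul]
    rw [e]
    apply Submodule.add_mem_sup
    · apply Submodule.smul_mem
      apply mem_P.mpr
      refine ⟨by rw [add_mul, mul_add, hx', hτ], ?_⟩
      rw [map_add, h.inv, add_comm]
    · apply Submodule.smul_mem
      apply mem_S.mpr
      refine ⟨by rw [sub_mul, mul_sub, hx', hτ], ?_⟩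
      rw [map_sub, h.inv, neg_sub]
  rw [hinf, hsup, h.finrank_R, finrank_bot, add_zero] at h1
  omega

/-- multiplication by `w = u - u⁻¹` -/
def mw (u : Matrix n n F) (τ : Matrix n n F →ₗ[F] Matrix n n F) : Matrix n n F →ₗ[F] Matrix n n F :=
  LinearMap.mulLeft F (u - τ u)

theorem w_comm (h : RA u d τ) : (u - τ u) * u = u * (u - τ u) := by
  rw [sub_mul, mul_sub, h.adj, h.adj']

theorem w_tau (h : RA u d τ) : τ (u - τ u) = -(u - τ u) := by
  rw [map_sub, h.inv, neg_sub]

theorem isUnit_add (h : RA u d τ) (h2 : (2 : F) ≠ 0) : IsUnit (u + 1) := by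
  have e3 : u + 1 = (2 : F) • (1 : Matrix n n F) + (u - 1) := by
    rw [two_smul]; abel
  rw [e3]
  apply IsNilpotent.isUnit_add_left_of_commute ⟨d, h.nil⟩
  · have : (2 : F) • (1 : Matrix n n F) = algebraMap F (Matrix n n F) 2 := (Algebra.algebraMap_eq_smul_one _).symm
    rw [this]
    exact (isUnit_iff_ne_zero.mpr h2).map _
  · exact (Commute.one_right _).smul_right _

theorem w_mul_eq_zero (h : RA u d τ) (h2 : (2 : F) ≠ 0) {x : Matrix n n F} :
    (u - τ u) * x = 0 ↔ (u - 1) * x = 0 := by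
  have e : u - τ u = (τ u * (u + 1)) * (u - 1) := by
    rw [mul_add, h.adj, mul_one, add_mul, mul_sub, mul_sub, one_mul, mul_one, h.adj, mul_one]
    abel
  have hu : IsUnit (τ u * (u + 1)) := by
    apply IsUnit.mul
    · exact ⟨⟨τ u, u, h.adj, h.adj'⟩, rfl⟩
    · exact h.isUnit_add h2
  rw [e, mul_assoc]
  constructor
  · intro h0
    apply hu.mul_left_cancel
    rw [h0, mul_zero]
  · intro h0
    rw [h0, mul_zero]

theorem w_mem_S (h : RA u d τ) {x : Matrix n n F} (hx : x ∈ P u τ) : (u - τ u) * x ∈ S u τ := by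
  obtain ⟨h1, h2⟩ := mem_P.mp hx
  refine mem_S.mpr ⟨by rw [mul_assoc, h1, ← mul_assoc, h.w_comm, mul_assoc], ?_⟩
  rw [h.mul, h2, h.w_tau, mul_neg, h.comm h1 h.w_comm]

theorem w_mem_P (h : RA u d τ) {x : Matrix n n F} (hx : x ∈ S u τ) : (u - τ u) * x ∈ P u τ := by
  obtain ⟨h1, h2⟩ := mem_S.mp hx
  refine mem_P.mpr ⟨by rw [mul_assoc, h1, ← mul_assoc, h.w_comm, mul_assoc], ?_⟩
  rw [h.mul, h2, h.w_tau, mul_neg, neg_mul, neg_neg, h.comm h1 h.w_comm]

theorem finrank_P_le (h : RA u d τ) (h2 : (2 : F) ≠ 0) (hd : Even d) :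
    Module.finrank F (P u τ) ≤ Module.finrank F (S u τ) := by
  let f : P u τ →ₗ[F] S u τ :=
    { toFun := fun x => ⟨(u - τ u) * x.1, h.w_mem_S x.2⟩
      map_add' := fun x y => Subtype.ext (mul_add _ _ _)
      map_smul' := fun c x => Subtype.ext (mul_smul_comm _ _ _) }
  apply LinearMap.finrank_le_finrank_of_injective (f := f)
  rw [← LinearMap.ker_eq_bot, LinearMap.ker_eq_bot']
  intro x hx
  have h0 : (u - τ u) * x.1 = 0 := congrArg Subtype.val hx
  rw [h.w_mul_eq_zero h2] at h0
  obtain ⟨h3, h4⟩ := mem_P.mp x.2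
  obtain ⟨c, hc⟩ := h.top h3 h0
  have hodd : Odd (d - 1) := by
    obtain ⟨r, hr⟩ := hd
    have := h.pos
    exact ⟨r - 1, by omega⟩
  have h5 : τ x.1 = - x.1 := by
    rw [hc, map_smul, h.tau_top, hodd.neg_one_pow, neg_one_mul, smul_neg]
  rw [h4] at h5
  have e3 : (2 : F) • x.1 = 0 := by rw [two_smul]; nth_rewrite 1 [h5]; rw [neg_add_cancel]
  exact Subtype.ext ((smul_eq_zero.mp e3).resolve_left h2)

theorem finrank_S_le (h : RA u d τ) (h2 : (2 : F) ≠ 0) :
    Module.finrank F (S u τ) ≤ Module.finrank F (P u τ) := by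
  let f : S u τ →ₗ[F] P u τ :=
    { toFun := fun x => ⟨(u - τ u) * x.1, h.w_mem_P x.2⟩
      map_add' := fun x y => Subtype.ext (mul_add _ _ _)
      map_smul' := fun c x => Subtype.ext (mul_smul_comm _ _ _) }
  have h1 := LinearMap.finrank_range_add_finrank_ker f
  have hker : Module.finrank F (LinearMap.ker f) ≤ 1 := by
    let g : LinearMap.ker f →ₗ[F] (F ∙ ((u - 1) ^ (d - 1))) :=
      { toFun := fun x => ⟨x.1.1, by
          have h0 : (u - τ u) * x.1.1 = 0 := congrArg Subtype.val x.2
          rw [h.w_mul_eq_zero h2] at h0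
          obtain ⟨c, hc⟩ := h.top (mem_S.mp x.1.2).1 h0
          rw [hc]
          exact Submodule.smul_mem _ _ (Submodule.mem_span_singleton_self _)⟩
        map_add' := fun x y => rfl
        map_smul' := fun c x => rfl }
    have hg : Function.Injective g := by
      intro x y hxy
      apply Subtype.ext
      apply Subtype.ext
      exact congrArg (fun z : (F ∙ ((u - 1) ^ (d - 1))) => z.1) hxy
    calc _ ≤ Module.finrank F (F ∙ ((u - 1) ^ (d - 1))) := LinearMap.finrank_le_finrank_of_injective hg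
      _ ≤ 1 := (finrank_span_singleton h.pow_ne).le
  have hrange : Module.finrank F (LinearMap.range f) < Module.finrank F (P u τ) := by
    apply Submodule.finrank_lt
    intro htop
    have hone : (1 : Matrix n n F) ∈ P u τ := mem_P.mpr ⟨by rw [one_mul, mul_one], h.tau_one⟩
    have hmem : (⟨1, hone⟩ : P u τ) ∈ LinearMap.range f := by rw [htop]; exact Submodule.mem_top
    obtain ⟨x, hx⟩ := hmem
    have hx' : (u - τ u) * x.1 = 1 := congrArg Subtype.val hx
    have h3 : (u - τ u) * (u - 1) ^ (d - 1) = 0 := by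
      rw [h.w_mul_eq_zero h2, ← pow_succ', Nat.sub_add_cancel h.pos, h.nil]
    have hx'' : x.1 * (u - τ u) = 1 := mul_eq_one_comm.mp hx'
    apply h.pow_ne
    calc (u - 1) ^ (d - 1) = (x.1 * (u - τ u)) * (u - 1) ^ (d - 1) := by rw [hx'', one_mul]
      _ = 0 := by rw [mul_assoc, h3, mul_zero]
  omega

theorem finrank_S (h : RA u d τ) (h2 : (2 : F) ≠ 0) (hd : Even d) :
    2 * Module.finrank F (S u τ) = d := by
  have h1 := h.finrank_add h2
  have h3 := h.finrank_P_le h2 hd
  have h4 := h.finrank_S_le h2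
  omega

theorem nil_of_const (h : RA u d τ) {x : Matrix n n F} (hx : x * u = u * x)
    (hc : x * (u - 1) ^ (d - 1) = 0) : IsNilpotent x := by
  obtain ⟨c, h1, h2⟩ := h.const hx
  rw [hc] at h1
  have : c = 0 := h.const_unique (by rw [← h1, zero_smul])
  rw [this, zero_smul, sub_zero] at h2
  exact h2

theorem nil_of_S (h : RA u d τ) (h2 : (2 : F) ≠ 0) {x : Matrix n n F} (hx : x ∈ S u τ) : IsNilpotent x := by
  obtain ⟨h3, h4⟩ := mem_S.mp hx
  obtain ⟨c, h1, h5⟩ := h.const h3
  have h6 := h.const_tau h3 h1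
  rw [h4, neg_mul, h1, ← neg_smul] at h6
  have h7 := h.const_unique h6
  have h8 : c = 0 := by
    have : (2 : F) * c = 0 := by linear_combination -h7
    exact (mul_eq_zero.mp this).resolve_left h2
  rw [h8, zero_smul, sub_zero] at h5
  exact h5

theorem card_T [Finite F] (h : RA u d τ) (h2 : (2 : F) ≠ 0) :
    Nat.card {g : Matrix n n F // g * u = u * g ∧ τ g * g = 1} = 2 * Nat.card (S u τ) := by
  classical
  have hcardE : Nat.card {ε : F // ε = 1 ∨ ε = -1} = 2 := by
    have hne : (1 : F) ≠ -1 := by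
      intro h'
      apply h2
      linear_combination h'
    have : Fintype F := Fintype.ofFinite F
    rw [Nat.card_eq_fintype_card, Fintype.card_subtype]
    have : Finset.univ.filter (fun ε : F => ε = 1 ∨ ε = -1) = {1, -1} := by
      ext x; simp
    rw [this, Finset.card_pair hne]
  have h1u : (1 : Matrix n n F) * u = u * 1 := by rw [one_mul, mul_one]
  have key : ∀ x : {ε : F // ε = 1 ∨ ε = -1} × S u τ, ∃ g : Matrix n n F, (g * u = u * g ∧ τ g * g = 1) ∧
      g * (1 - x.2.1) = x.1.1 • (1 + x.2.1) := by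
    rintro ⟨⟨ε, hε⟩, ⟨a, ha⟩⟩
    have hn := h.nil_of_S h2 ha
    obtain ⟨h3, h4⟩ := mem_S.mp ha
    obtain ⟨v, hv⟩ := hn.isUnit_one_sub
    obtain ⟨w, hw⟩ := hn.isUnit_one_add
    have hvi : (v : Matrix n n F) * (↑v⁻¹ : Matrix n n F) = 1 := v.mul_inv
    have hvi' : (↑v⁻¹ : Matrix n n F) * (v : Matrix n n F) = 1 := v.inv_mul
    have hε2 : ε * ε = 1 := by rcases hε with h | h <;> rw [h] <;> ring
    have hcv : Commute (v : Matrix n n F) u := by
      rw [hv]; exact (Commute.one_left u).sub_left h3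
    have hcvi : Commute (↑v⁻¹ : Matrix n n F) u := hcv.units_inv_left
    have hc1 : Commute (1 + a) u := (Commute.one_left u).add_left h3
    have hgv : (ε • (1 + a) * (↑v⁻¹ : Matrix n n F)) * (1 - a) = ε • (1 + a) := by
      rw [← hv, mul_assoc, hvi', mul_one]
    refine ⟨ε • (1 + a) * (↑v⁻¹ : Matrix n n F), ⟨?_, ?_⟩, hgv⟩
    · exact ((hc1.smul_left ε).mul_left hcvi).eq
    · set g := ε • (1 + a) * (↑v⁻¹ : Matrix n n F) with hg
      have e1 := congrArg τ hgv
      rw [h.mul, map_smul, map_sub, map_add, h.tau_one, h4, sub_neg_eq_add, ← sub_eq_add_neg] at e1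
      have e2 : (1 + a) * (τ g * g) * (1 - a) = (1 + a) * (1 - a) := by
        calc (1 + a) * (τ g * g) * (1 - a) = ((1 + a) * τ g) * (g * (1 - a)) := by simp only [mul_assoc]
          _ = (ε • (1 - a)) * (ε • (1 + a)) := by rw [e1, hgv]
          _ = (1 - a) * (1 + a) := by rw [smul_mul_smul_comm, hε2, one_smul]
          _ = (1 + a) * (1 - a) := by noncomm_ring
      rw [← hv, ← hw] at e2
      have e3 : (w : Matrix n n F) * (τ g * g) = w := by
        calc (w : Matrix n n F) * (τ g * g) = w * (τ g * g) * v * (↑v⁻¹ : Matrix n n F) := by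
              rw [mul_assoc _ (v : Matrix n n F), hvi, mul_one]
          _ = w := by rw [e2, mul_assoc, hvi, mul_one]
      calc τ g * g = (↑w⁻¹ : Matrix n n F) * (w * (τ g * g)) := by
            rw [← mul_assoc (↑w⁻¹ : Matrix n n F), w.inv_mul, one_mul]
        _ = 1 := by rw [e3, w.inv_mul]
  choose f hfT hfe using key
  have hbij : Function.Bijective (fun x => (⟨f x, hfT x⟩ : {g : Matrix n n F // g * u = u * g ∧ τ g * g = 1})) := by
    constructor
    · rintro ⟨⟨ε, hε⟩, ⟨a, ha⟩⟩ ⟨⟨ε', hε'⟩, ⟨a', ha'⟩⟩ hxy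
      have hg : f (⟨ε, hε⟩, ⟨a, ha⟩) = f (⟨ε', hε'⟩, ⟨a', ha'⟩) := congrArg Subtype.val hxy
      have e1 : f (⟨ε, hε⟩, ⟨a, ha⟩) * (1 - a) = ε • (1 + a) := hfe (⟨ε, hε⟩, ⟨a, ha⟩)
      have e2 : f (⟨ε', hε'⟩, ⟨a', ha'⟩) * (1 - a') = ε' • (1 + a') := hfe (⟨ε', hε'⟩, ⟨a', ha'⟩)
      rw [← hg] at e2
      have hgu := (hfT (⟨ε, hε⟩, ⟨a, ha⟩)).1
      set g := f (⟨ε, hε⟩, ⟨a, ha⟩) with hgdef
      have hzero : ∀ b ∈ S u τ, b * (u - 1) ^ (d - 1) = 0 := by
        intro b hb
        obtain ⟨h3, h4⟩ := mem_S.mp hb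
        obtain ⟨c, h1, h5⟩ := h.const h3
        have h6 := h.const_tau h3 h1
        rw [h4, neg_mul, h1, ← neg_smul] at h6
        have h7 := h.const_unique h6
        have h8 : c = 0 := by
          have : (2 : F) * c = 0 := by linear_combination -h7
          exact (mul_eq_zero.mp this).resolve_left h2
        rw [h1, h8, zero_smul]
      have hcg : ∀ (δ : F) (b : Matrix n n F), b ∈ S u τ → g * (1 - b) = δ • (1 + b) →
          g * (u - 1) ^ (d - 1) = δ • (u - 1) ^ (d - 1) := by
        intro δ b hb hgb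
        have h9 : g * (1 - b) * (u - 1) ^ (d - 1) = δ • (1 + b) * (u - 1) ^ (d - 1) := by rw [hgb]
        rw [mul_assoc, sub_mul, one_mul, hzero b hb, sub_zero, smul_mul_assoc, add_mul, one_mul, hzero b hb,
          add_zero] at h9
        exact h9
      have hεε : ε = ε' := by
        apply h.const_unique
        rw [← hcg ε a ha e1, ← hcg ε' a' ha' e2]
      subst hεε
      have hε2 : ε * ε = 1 := by rcases hε with h | h <;> rw [h] <;> ring
      have hnil : IsNilpotent (ε • g - 1) := by
        apply h.nil_of_const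
        · rw [sub_mul, mul_sub, smul_mul_assoc, mul_smul_comm, hgu, one_mul, mul_one]
        · rw [sub_mul, smul_mul_assoc, hcg ε a ha e1, smul_smul, hε2, one_smul, one_mul, sub_self]
      have hunit : IsUnit (ε • g + 1) := by
        have e3 : ε • g + 1 = (2 : F) • (1 : Matrix n n F) + (ε • g - 1) := by
          rw [two_smul]; abel
        rw [e3]
        apply IsNilpotent.isUnit_add_left_of_commute hnil
        · have : (2 : F) • (1 : Matrix n n F) = algebraMap F (Matrix n n F) 2 :=
            (Algebra.algebraMap_eq_smul_one _).symm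
          rw [this]
          exact (isUnit_iff_ne_zero.mpr h2).map _
        · exact (Commute.one_right _).smul_right _
      have hrel : ∀ b : Matrix n n F, g * (1 - b) = ε • (1 + b) → (ε • g + 1) * b = ε • g - 1 := by
        intro b hb
        have h9 : ε • (g * (1 - b)) = 1 + b := by rw [hb, smul_smul, hε2, one_smul]
        have h10 : (ε • g + 1) * b = ε • g - ε • (g * (1 - b)) + b := by
          rw [mul_sub, mul_one, smul_sub, add_mul, one_mul, smul_mul_assoc]; abel
        rw [h10, h9]; abel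
      have haa : a = a' := hunit.mul_left_cancel (by rw [hrel a e1, hrel a' e2])
      subst haa
      rfl
    · rintro ⟨g, hgu, hgg⟩
      obtain ⟨ε, hc, hnil⟩ := h.const hgu
      have hcτ := h.const_tau hgu hc
      have hε2 : ε * ε = 1 := by
        apply h.const_unique
        rw [one_smul, mul_smul, ← hcτ, ← mul_smul_comm, ← hc, ← mul_assoc, hgg, one_mul]
      have hε : ε = 1 ∨ ε = -1 := mul_self_eq_one_iff.mp hε2
      have hnil : IsNilpotent (ε • g - 1) := by
        apply h.nil_of_const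
        · rw [sub_mul, mul_sub, smul_mul_assoc, mul_smul_comm, hgu, one_mul, mul_one]
        · rw [sub_mul, smul_mul_assoc, hc, smul_smul, hε2, one_smul, one_mul, sub_self]
      have hunit : IsUnit (ε • g + 1) := by
        have e3 : ε • g + 1 = (2 : F) • (1 : Matrix n n F) + (ε • g - 1) := by
          rw [two_smul]; abel
        rw [e3]
        apply IsNilpotent.isUnit_add_left_of_commute hnil
        · have : (2 : F) • (1 : Matrix n n F) = algebraMap F (Matrix n n F) 2 :=
            (Algebra.algebraMap_eq_smul_one _).symm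
          rw [this]
          exact (isUnit_iff_ne_zero.mpr h2).map _
        · exact (Commute.one_right _).smul_right _
      obtain ⟨v, hv⟩ := hunit
      have hvi : (v : Matrix n n F) * (↑v⁻¹ : Matrix n n F) = 1 := v.mul_inv
      have hvi' : (↑v⁻¹ : Matrix n n F) * (v : Matrix n n F) = 1 := v.inv_mul
      have hgc : Commute g u := hgu
      have hcv : Commute (v : Matrix n n F) u := by
        rw [hv]; exact (hgc.smul_left ε).add_left (Commute.one_left u)
      have hcvi : Commute (↑v⁻¹ : Matrix n n F) u := hcv.units_inv_left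
      have hau : Commute ((↑v⁻¹ : Matrix n n F) * (ε • g - 1)) u :=
        hcvi.mul_left ((hgc.smul_left ε).sub_left (Commute.one_left u))
      set a := (↑v⁻¹ : Matrix n n F) * (ε • g - 1) with ha
      have hva : (ε • g + 1) * a = ε • g - 1 := by
        rw [← hv, ha, ← mul_assoc, hvi, one_mul]
      have hrel : g * (1 - a) = ε • (1 + a) := by
        have h9 : ε • (g * (1 - a)) = 1 + a := by
          have h10 : (ε • g + 1) * a = ε • g - ε • (g * (1 - a)) + a := by
            rw [mul_sub, mul_one, smul_sub, add_mul, one_mul, smul_mul_assoc]; abel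
          rw [hva] at h10
          have h11 : ε • (g * (1 - a)) = (ε • g - (ε • g - ε • (g * (1 - a)) + a)) + a := by abel
          rw [h11, ← h10]; abel
        rw [← h9, smul_smul, hε2, one_smul]
      have hτa : τ a = -a := by
        have h12 := congrArg τ hva
        rw [h.mul, map_add, map_sub, map_smul, h.tau_one] at h12
        have h13 : τ a * (ε • τ g + 1) * (ε • g) = (ε • τ g - 1) * (ε • g) := by rw [h12]
        have h14 : (ε • τ g + 1) * (ε • g) = ε • g + 1 := by
          rw [add_mul, smul_mul_smul_comm, hε2, hgg, one_smul, one_mul]; abel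
        have h15 : (ε • τ g - 1) * (ε • g) = -(ε • g - 1) := by
          rw [sub_mul, smul_mul_smul_comm, hε2, hgg, one_smul, one_mul]; abel
        rw [mul_assoc, h14, h15, ← hva] at h13
        have h16 : (ε • g + 1) * a = a * (ε • g + 1) := by
          apply h.comm
          · rw [← hv]; exact hcv.eq
          · exact hau.eq
        rw [h16, ← neg_mul, ← hv] at h13
        exact v.isUnit.mul_right_cancel h13
      have hmem : a ∈ S u τ := mem_S.mpr ⟨hau.eq, hτa⟩
      refine ⟨(⟨ε, hε⟩, ⟨a, hmem⟩), ?_⟩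
      apply Subtype.ext
      change f (⟨ε, hε⟩, ⟨a, hmem⟩) = g
      have e2 : f (⟨ε, hε⟩, ⟨a, hmem⟩) * (1 - a) = ε • (1 + a) := hfe (⟨ε, hε⟩, ⟨a, hmem⟩)
      rw [← hrel] at e2
      exact (h.nil_of_S h2 hmem).isUnit_one_sub.mul_right_cancel e2
  rw [← Nat.card_eq_of_bijective _ hbij, Nat.card_prod, hcardE]

end RA

end H48.RegSp
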