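import Cfsg.Agent.Lib.H48.RegSp
import Cfsg.Agent.Lib.H48.JTForm2
import Cfsg.Agent.Lib.H48.FinFieldSq
import Cfsg.Agent.Lib.H48.ClassCount

set_option autoImplicit false
set_option linter.unusedSectionVars false
set_option linter.style.haveILetI false

/-! Regular unipotent elements of symplectic groups in odd characteristic. -/

namespace H48.RegSp

open Matrix H48.Unip

variable {F : Type*} [Field F] {m : ℕ}

/-- the symplectic adjoint -/
def tau (m : ℕ) (F : Type*) [Field F] : Matrix (Fin m ⊕ Fin m) (Fin m ⊕ Fin m) F →ₗ[F]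
    Matrix (Fin m ⊕ Fin m) (Fin m ⊕ Fin m) F where
  toFun X := -(Matrix.J (Fin m) F * Xᵀ * Matrix.J (Fin m) F)
  map_add' X Y := by
    rw [Matrix.transpose_add, mul_add, add_mul, neg_add]
  map_smul' c X := by
    rw [Matrix.transpose_smul, mul_smul_comm, smul_mul_assoc, smul_neg, RingHom.id_apply]

theorem tau_apply (X : Matrix (Fin m ⊕ Fin m) (Fin m ⊕ Fin m) F) :
    tau m F X = -(Matrix.J (Fin m) F * Xᵀ * Matrix.J (Fin m) F) := rfl

theorem tau_mul (X Y : Matrix (Fin m ⊕ Fin m) (Fin m ⊕ Fin m) F) :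
    tau m F (X * Y) = tau m F Y * tau m F X := by
  rw [tau_apply, tau_apply, tau_apply, Matrix.transpose_mul, neg_mul_neg]
  calc -(J (Fin m) F * (Yᵀ * Xᵀ) * J (Fin m) F) = J (Fin m) F * Yᵀ * (-1) * Xᵀ * J (Fin m) F := by
        simp only [mul_assoc, neg_mul, mul_neg, one_mul]
    _ = J (Fin m) F * Yᵀ * (J (Fin m) F * J (Fin m) F) * Xᵀ * J (Fin m) F := by rw [Matrix.J_squared]
    _ = _ := by simp only [mul_assoc]

theorem tau_tau (X : Matrix (Fin m ⊕ Fin m) (Fin m ⊕ Fin m) F) : tau m F (tau m F X) = X := by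
  rw [tau_apply, tau_apply, Matrix.transpose_neg, Matrix.transpose_mul, Matrix.transpose_mul,
    Matrix.transpose_transpose, Matrix.J_transpose]
  calc _ = (J (Fin m) F * J (Fin m) F) * X * (J (Fin m) F * J (Fin m) F) := by
        simp only [mul_assoc, neg_mul, mul_neg, neg_neg]
    _ = X := by rw [Matrix.J_squared]; simp

theorem tau_mul_self (X : Matrix (Fin m ⊕ Fin m) (Fin m ⊕ Fin m) F) :
    tau m F X * X = -(J (Fin m) F) * (Xᵀ * J (Fin m) F * X) := by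
  rw [tau_apply]
  simp only [mul_assoc, neg_mul]

theorem J_tau_mul (X Y : Matrix (Fin m ⊕ Fin m) (Fin m ⊕ Fin m) F) :
    J (Fin m) F * (tau m F X * Y) = Xᵀ * J (Fin m) F * Y := by
  rw [tau_apply]
  calc _ = -(J (Fin m) F * J (Fin m) F) * Xᵀ * J (Fin m) F * Y := by
        simp only [mul_assoc, neg_mul, mul_neg]
    _ = _ := by rw [Matrix.J_squared, neg_neg, one_mul]

theorem mem_iff_tau {X : Matrix (Fin m ⊕ Fin m) (Fin m ⊕ Fin m) F} :
    X ∈ Matrix.symplecticGroup (Fin m) F ↔ tau m F X * X = 1 := by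
  rw [SymplecticGroup.mem_iff']
  constructor
  · intro h
    rw [tau_mul_self, h, neg_mul, Matrix.J_squared, neg_neg]
  · intro h
    rw [← J_tau_mul, h, mul_one]

theorem ra (hm : 1 ≤ m) {u : Matrix (Fin m ⊕ Fin m) (Fin m ⊕ Fin m) F}
    (hu : u ∈ Matrix.symplecticGroup (Fin m) F) (h1 : (u - 1) ^ (2 * m) = 0)
    (h2 : (u - 1).rank = 2 * m - 1) : RA u (2 * m) (tau m F) where
  card := by rw [Fintype.card_sum, Fintype.card_fin]; omega
  pos := by omega
  nil := h1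
  rk := h2
  mul := tau_mul
  inv := tau_tau
  adj := mem_iff_tau.mp hu

theorem card_centralizer [Fintype F] {q : ℕ} (hF : Fintype.card F = q) (hq : Odd q) (hm : 1 ≤ m)
    (u : Matrix.symplecticGroup (Fin m) F)
    (hnil : ((u : Matrix (Fin m ⊕ Fin m) (Fin m ⊕ Fin m) F) - 1) ^ (2 * m) = 0)
    (hreg : ((u : Matrix (Fin m ⊕ Fin m) (Fin m ⊕ Fin m) F) - 1).rank = 2 * m - 1) :
    Nat.card ↥(Subgroup.centralizer ({u} : Set ↥(Matrix.symplecticGroup (Fin m) F))) = 2 * q ^ m := by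
  have h2 : (2 : F) ≠ 0 := by
    rw [H48.FinFieldSq.two_ne_zero_iff_odd_card, Nat.card_eq_fintype_card, hF]
    exact hq
  have h := ra hm u.2 hnil hreg
  have h3 := h.finrank_S h2 (even_two_mul m)
  have h4 := h.card_T h2
  have h5 : Module.finrank F (RA.S (u : Matrix (Fin m ⊕ Fin m) (Fin m ⊕ Fin m) F) (tau m F)) = m := by omega
  rw [Module.natCard_eq_pow_finrank (K := F)
    (V := RA.S (u : Matrix (Fin m ⊕ Fin m) (Fin m ⊕ Fin m) F) (tau m F)), h5,
    Nat.card_eq_fintype_card (α := F), hF] at h4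
  rw [← h4]
  refine Nat.card_congr ⟨fun g => ⟨(g.1 : Matrix (Fin m ⊕ Fin m) (Fin m ⊕ Fin m) F), ?_, ?_⟩,
    fun g => ⟨⟨g.1, mem_iff_tau.mpr g.2.2⟩, ?_⟩, fun g => rfl, fun g => rfl⟩
  · have := Subgroup.mem_centralizer_singleton_iff.mp g.2
    exact congrArg (fun x : Matrix.symplecticGroup (Fin m) F =>
      (x : Matrix (Fin m ⊕ Fin m) (Fin m ⊕ Fin m) F)) this
  · exact mem_iff_tau.mp g.1.2
  · rw [Subgroup.mem_centralizer_singleton_iff]
    apply Subtype.ext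
    exact g.2.1

/-- the quadratic invariant -/
def Phi (u : Matrix (Fin m ⊕ Fin m) (Fin m ⊕ Fin m) F) (x y : Fin m ⊕ Fin m → F) : F :=
  x ⬝ᵥ (J (Fin m) F * (u - 1) ^ (2 * m - 1)) *ᵥ y

theorem Phi_mul {u : Matrix (Fin m ⊕ Fin m) (Fin m ⊕ Fin m) F} (h : RA u (2 * m) (tau m F))
    (x y : Fin m ⊕ Fin m → F) : Phi u x x * Phi u y y = Phi u x y * Phi u y x := by
  have hr : ((u - 1) ^ (2 * m - 1)).rank = 1 := by
    rw [rank_pow_regular' h.card h.nil h.rk]
    have := h.pos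
    omega
  rw [Matrix.rank, finrank_eq_one_iff'] at hr
  obtain ⟨z, hz0, hz⟩ := hr
  have hcoef : ∀ w, ∃ c : F, (u - 1) ^ (2 * m - 1) *ᵥ w = c • z.1 := by
    intro w
    obtain ⟨c, hc⟩ := hz ⟨(u - 1) ^ (2 * m - 1) *ᵥ w, ⟨w, rfl⟩⟩
    exact ⟨c, (congrArg Subtype.val hc).symm⟩
  obtain ⟨a, ha⟩ := hcoef x
  obtain ⟨b, hb⟩ := hcoef y
  simp only [Phi, ← Matrix.mulVec_mulVec, ha, hb, Matrix.mulVec_smul, dotProduct_smul, smul_eq_mul]
  ring

theorem Phi_symm {u : Matrix (Fin m ⊕ Fin m) (Fin m ⊕ Fin m) F} (h : RA u (2 * m) (tau m F))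
    (x y : Fin m ⊕ Fin m → F) : Phi u x y = Phi u y x := by
  have h1 := h.tau_top
  have hodd : Odd (2 * m - 1) := ⟨m - 1, by have := h.pos; omega⟩
  rw [hodd.neg_one_pow, neg_one_mul] at h1
  have h2 : (J (Fin m) F * (u - 1) ^ (2 * m - 1))ᵀ = J (Fin m) F * (u - 1) ^ (2 * m - 1) := by
    rw [Matrix.transpose_mul, Matrix.J_transpose]
    have h3 := J_tau_mul ((u - 1) ^ (2 * m - 1)) (1 : Matrix (Fin m ⊕ Fin m) (Fin m ⊕ Fin m) F)
    rw [h1, mul_one, mul_one] at h3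
    rw [mul_neg, ← h3, mul_neg, neg_neg]
  rw [Phi, Phi, Matrix.dotProduct_mulVec, ← Matrix.mulVec_transpose, h2, dotProduct_comm]

theorem Phi_exists (h2 : (2 : F) ≠ 0) {u : Matrix (Fin m ⊕ Fin m) (Fin m ⊕ Fin m) F}
    (h : RA u (2 * m) (tau m F)) : ∃ x, Phi u x x ≠ 0 := by
  by_contra hcon
  push Not at hcon
  have h1 : ∀ x y, Phi u x y = 0 := by
    intro x y
    have h3 := hcon (x + y)
    have h4 : Phi u (x + y) (x + y) = Phi u x x + Phi u x y + Phi u y x + Phi u y y := by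
      simp only [Phi, Matrix.mulVec_add, dotProduct_add, add_dotProduct]
      ring
    rw [h4, hcon x, hcon y, Phi_symm h y x] at h3
    have h5 : (2 : F) * Phi u x y = 0 := by linear_combination h3
    exact (mul_eq_zero.mp h5).resolve_left h2
  have h6 : J (Fin m) F * (u - 1) ^ (2 * m - 1) = 0 := by
    ext i j
    have := h1 (Pi.single i 1) (Pi.single j 1)
    simpa [Phi] using this
  have h7 : J (Fin m) F * (J (Fin m) F * (u - 1) ^ (2 * m - 1)) = 0 := by rw [h6, mul_zero]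
  rw [← mul_assoc, Matrix.J_squared, neg_one_mul, neg_eq_zero] at h7
  exact h.pow_ne h7

theorem Phi_sq {u : Matrix (Fin m ⊕ Fin m) (Fin m ⊕ Fin m) F} (h : RA u (2 * m) (tau m F))
    (x y : Fin m ⊕ Fin m → F) : IsSquare (Phi u x x * Phi u y y) := by
  rw [Phi_mul h, Phi_symm h y x]
  exact ⟨_, rfl⟩

theorem exists_conj [Finite F] (h2 : (2 : F) ≠ 0) {u u' : Matrix (Fin m ⊕ Fin m) (Fin m ⊕ Fin m) F}
    (h : RA u (2 * m) (tau m F)) (h' : RA u' (2 * m) (tau m F)) {x y : Fin m ⊕ Fin m → F}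
    (hx : Phi u x x ≠ 0) (hy : Phi u' y y ≠ 0) (hxy : IsSquare (Phi u x x * Phi u' y y)) :
    ∃ g : Matrix (Fin m ⊕ Fin m) (Fin m ⊕ Fin m) F, tau m F g * g = 1 ∧ g * u = u' * g := by
  classical
  have : Fintype F := Fintype.ofFinite F
  obtain ⟨c, hc⟩ := isConj_regular h.card h.nil h'.nil h.rk h'.rk
  set g : Matrix (Fin m ⊕ Fin m) (Fin m ⊕ Fin m) F := (c : Matrix (Fin m ⊕ Fin m) (Fin m ⊕ Fin m) F) with hg
  have hgu : g * u = u' * g := hc
  have hgi : IsUnit g := c.isUnit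
  -- `τ g u' = u τ g`
  have h3 : tau m F g * u' = u * tau m F g := by
    have e1 := congrArg (tau m F) hgu
    rw [tau_mul, tau_mul] at e1
    calc tau m F g * u' = (u * tau m F u) * (tau m F g * u') := by rw [h.adj', one_mul]
      _ = u * (tau m F u * tau m F g) * u' := by simp only [mul_assoc]
      _ = u * tau m F g * (tau m F u' * u') := by rw [e1]; simp only [mul_assoc]
      _ = _ := by rw [h'.adj, mul_one]
  set k₀ := tau m F g * g with hk₀
  have hk₀u : k₀ * u = u * k₀ := by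
    rw [hk₀, mul_assoc, hgu, ← mul_assoc, h3, mul_assoc]
  have hk₀τ : tau m F k₀ = k₀ := by rw [hk₀, tau_mul, tau_tau]
  have hk₀unit : IsUnit k₀ := by
    apply IsUnit.mul _ hgi
    refine ⟨⟨tau m F g, tau m F (↑c⁻¹ : Matrix (Fin m ⊕ Fin m) (Fin m ⊕ Fin m) F), ?_, ?_⟩, rfl⟩
    · rw [← tau_mul, hg, c.inv_mul, h.tau_one]
    · rw [← tau_mul, hg, c.mul_inv, h.tau_one]
  obtain ⟨s, hs, hnil⟩ := h.const hk₀u
  -- `Phi u' (g x) (g x) = s Phi u x x`
  have hgN : ∀ k, g * (u - 1) ^ k = (u' - 1) ^ k * g := by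
    intro k
    have : SemiconjBy g (u - 1) (u' - 1) := SemiconjBy.sub_right hgu (SemiconjBy.one_right _)
    exact this.pow_right k
  have hPhi : Phi u' (g *ᵥ x) (g *ᵥ x) = s * Phi u x x := by
    rw [Phi, H48.JTForm.dot_conj]
    have e1 : gᵀ * (J (Fin m) F * (u' - 1) ^ (2 * m - 1)) * g = s • (J (Fin m) F * (u - 1) ^ (2 * m - 1)) := by
      rw [← mul_smul_comm, ← hs, hk₀, mul_assoc (tau m F g), hgN, J_tau_mul]
      simp only [mul_assoc]
    rw [e1, Matrix.smul_mulVec, dotProduct_smul, smul_eq_mul]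
    rfl
  have hs0 : s ≠ 0 := by
    intro h0
    rw [h0, zero_smul, sub_zero] at hnil
    obtain ⟨k, hk⟩ := hnil
    have hu := hk₀unit.pow k
    rw [hk] at hu
    have h10 : (0 : Matrix (Fin m ⊕ Fin m) (Fin m ⊕ Fin m) F) = 1 := by
      obtain ⟨v, hv⟩ := hu
      calc (0 : Matrix (Fin m ⊕ Fin m) (Fin m ⊕ Fin m) F) = 0 * (↑v⁻¹ : Matrix (Fin m ⊕ Fin m) (Fin m ⊕ Fin m) F) := by
            rw [zero_mul]
        _ = 1 := by rw [← hv, v.mul_inv]
    apply h.pow_ne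
    rw [← one_mul ((u - 1) ^ (2 * m - 1)), ← h10, zero_mul]
  have hsq : IsSquare s := by
    have e1 := Phi_sq h' (g *ᵥ x) y
    rw [hPhi] at e1
    have e2 : IsSquare (s * (Phi u x x * Phi u' y y)) := by rw [← mul_assoc]; exact e1
    obtain ⟨a, ha⟩ := hxy
    obtain ⟨b, hb⟩ := e2
    have hne : Phi u x x * Phi u' y y ≠ 0 := mul_ne_zero hx hy
    have ha0 : a ≠ 0 := by
      rintro rfl
      rw [mul_zero] at ha
      exact hne ha
    refine ⟨b / a, ?_⟩
    rw [ha] at hb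
    field_simp
    linear_combination hb
  obtain ⟨r, hr⟩ := hsq
  have hr0 : r ≠ 0 := by
    rintro rfl
    rw [mul_zero] at hr
    exact hs0 hr
  -- unipotent part
  obtain ⟨p, hp⟩ := CharP.exists F
  have hpp : p.Prime := by
    rcases CharP.char_is_prime_or_zero F p with h | h
    · exact h
    · subst h
      exact absurd (CharP.charP_to_charZero F) (by
        intro h0
        exact not_injective_infinite_finite (fun n : ℕ => (n : F)) Nat.cast_injective)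
  haveI : Fact p.Prime := ⟨hpp⟩
  have hp2 : p ≠ 2 := by
    rintro rfl
    apply h2
    exact_mod_cast CharP.cast_eq_zero F 2
  set k₁ := s⁻¹ • k₀ with hk₁
  have hk₁0 : k₀ = s • k₁ := by rw [hk₁, smul_smul, mul_inv_cancel₀ hs0, one_smul]
  have hnil1 : IsNilpotent (k₁ - 1) := by
    obtain ⟨e, he⟩ := hnil
    refine ⟨e, ?_⟩
    have : k₁ - 1 = s⁻¹ • (k₀ - s • 1) := by
      rw [smul_sub, smul_smul, inv_mul_cancel₀ hs0, one_smul]
    rw [this, smul_pow, he, smul_zero]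
  obtain ⟨e, he⟩ := hnil1
  have hpe : e ≤ p ^ e := (Nat.lt_pow_self hpp.one_lt).le
  have hpow : k₁ ^ (p ^ e) = 1 := by
    haveI : Nonempty (Fin m ⊕ Fin m) := by
      have := h.pos
      exact ⟨Sum.inl ⟨0, by omega⟩⟩
    have e1 : k₁ = (k₁ - 1) + 1 := by abel
    rw [e1, add_pow_char_pow_of_commute (p := p) _ (Commute.one_right _), one_pow]
    obtain ⟨j, hj⟩ := Nat.exists_eq_add_of_le hpe
    rw [hj, pow_add, he, zero_mul, zero_add]
  have hoddp : Odd (p ^ e) := (hpp.odd_of_ne_two hp2).pow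
  obtain ⟨w, hw⟩ := hoddp
  set k := r • k₁ ^ (w + 1) with hk
  have hk₁τ : tau m F k₁ = k₁ := by rw [hk₁, map_smul, hk₀τ]
  have hkτ : tau m F k = k := by rw [hk, map_smul, h.tau_pow, hk₁τ]
  have hk2 : k * k = k₀ := by
    rw [hk, smul_mul_smul_comm, ← hr, ← pow_add, hk₁0]
    congr 1
    have : w + 1 + (w + 1) = p ^ e + 1 := by omega
    rw [this, pow_succ, hpow, one_mul]
  have hk₁u : Commute k₁ u := by
    rw [hk₁]
    exact (show Commute k₀ u from hk₀u).smul_left _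
  have hku : Commute k u := by
    rw [hk]
    exact (hk₁u.pow_left _).smul_left _
  have hkunit : IsUnit k := by
    have : IsUnit (k * k) := by rw [hk2]; exact hk₀unit
    exact ((Commute.refl k).isUnit_mul_iff.mp this).1
  obtain ⟨v, hv⟩ := hkunit
  have hvτ : tau m F (↑v⁻¹ : Matrix (Fin m ⊕ Fin m) (Fin m ⊕ Fin m) F) = ↑v⁻¹ := by
    have e1 := congrArg (tau m F) v.mul_inv
    rw [tau_mul, h.tau_one, hv, hkτ, ← hv] at e1
    calc tau m F (↑v⁻¹ : Matrix (Fin m ⊕ Fin m) (Fin m ⊕ Fin m) F) =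
        tau m F (↑v⁻¹ : Matrix (Fin m ⊕ Fin m) (Fin m ⊕ Fin m) F) * (v * ↑v⁻¹) := by rw [v.mul_inv, mul_one]
      _ = ↑v⁻¹ := by rw [← mul_assoc, e1, one_mul]
  have hvu : Commute (v : Matrix (Fin m ⊕ Fin m) (Fin m ⊕ Fin m) F) u := by rw [hv]; exact hku
  have hviu : Commute (↑v⁻¹ : Matrix (Fin m ⊕ Fin m) (Fin m ⊕ Fin m) F) u := hvu.units_inv_left
  obtain ⟨w', hw'⟩ : ∃ w' : Matrix (Fin m ⊕ Fin m) (Fin m ⊕ Fin m) F,
    w' = (↑v⁻¹ : Matrix (Fin m ⊕ Fin m) (Fin m ⊕ Fin m) F) := ⟨_, rfl⟩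
  have hvw : k * w' = 1 := by rw [hw', ← hv, v.mul_inv]
  have hwv : w' * k = 1 := by rw [hw', ← hv, v.inv_mul]
  rw [← hw'] at hvτ hviu
  refine ⟨g * w', ?_, ?_⟩
  · rw [tau_mul, hvτ]
    calc w' * tau m F g * (g * w') = w' * k₀ * w' := by rw [hk₀]; simp only [mul_assoc]
      _ = (w' * k) * (k * w') := by rw [← hk2]; simp only [mul_assoc]
      _ = 1 := by rw [hwv, hvw, one_mul]
  · rw [mul_assoc, hviu.eq, ← mul_assoc, hgu, mul_assoc]

theorem Phi_conj {u u' g : Matrix (Fin m ⊕ Fin m) (Fin m ⊕ Fin m) F} (hg : tau m F g * g = 1)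
    (hgu : g * u = u' * g) (x : Fin m ⊕ Fin m → F) : Phi u' (g *ᵥ x) (g *ᵥ x) = Phi u x x := by
  have hgN : ∀ k, g * (u - 1) ^ k = (u' - 1) ^ k * g := by
    intro k
    have : SemiconjBy g (u - 1) (u' - 1) := SemiconjBy.sub_right hgu (SemiconjBy.one_right _)
    exact this.pow_right k
  rw [Phi, H48.JTForm.dot_conj, Phi]
  congr 2
  rw [mul_assoc, mul_assoc, ← hgN, ← mul_assoc, ← mul_assoc, mul_assoc _ g, ← J_tau_mul, ← mul_assoc (tau m F g),
    hg, one_mul]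

theorem card_classes [Fintype F] {q : ℕ} (hF : Fintype.card F = q) (hq : Odd q) (hm : 1 ≤ m) :
    Nat.card {C : ConjClasses ↥(Matrix.symplecticGroup (Fin m) F) //
      ∃ u : Matrix.symplecticGroup (Fin m) F, ConjClasses.mk u = C ∧
        ((u : Matrix (Fin m ⊕ Fin m) (Fin m ⊕ Fin m) F) - 1) ^ (2 * m) = 0 ∧
        ((u : Matrix (Fin m ⊕ Fin m) (Fin m ⊕ Fin m) F) - 1).rank = 2 * m - 1} = 2 := by
  classical
  have h2 : (2 : F) ≠ 0 := by
    rw [H48.FinFieldSq.two_ne_zero_iff_odd_card, Nat.card_eq_fintype_card, hF]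
    exact hq
  let inv : ↥(Matrix.symplecticGroup (Fin m) F) → Bool := fun u =>
    decide (∃ x, Phi (u : Matrix (Fin m ⊕ Fin m) (Fin m ⊕ Fin m) F) x x ≠ 0 ∧
      IsSquare (Phi (u : Matrix (Fin m ⊕ Fin m) (Fin m ⊕ Fin m) F) x x))
  have hinv : ∀ (u : ↥(Matrix.symplecticGroup (Fin m) F)),
      RA (u : Matrix (Fin m ⊕ Fin m) (Fin m ⊕ Fin m) F) (2 * m) (tau m F) →
      ∀ x, Phi (u : Matrix (Fin m ⊕ Fin m) (Fin m ⊕ Fin m) F) x x ≠ 0 →
      (inv u = true ↔ IsSquare (Phi (u : Matrix (Fin m ⊕ Fin m) (Fin m ⊕ Fin m) F) x x)) := by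
    intro u h x hx
    simp only [inv, decide_eq_true_eq]
    constructor
    · rintro ⟨y, hy, hys⟩
      have := Phi_sq h x y
      rw [H48.FinFieldSq.isSquare_mul_iff hx hy] at this
      exact this.mpr hys
    · intro hs
      exact ⟨x, hx, hs⟩
  have hT : (Finset.univ : Finset Bool).card = 2 := by simp
  rw [← hT]
  apply H48.ClassCount.card_classes_inv _ inv
  · intro g _
    exact Finset.mem_univ _
  · -- existence
    have hodd : ∀ j : ℕ, Odd j → Even (Finset.univ.filter (fun k : Fin 1 => 2 * m = j)).card := by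
      intro j hj
      have : Finset.univ.filter (fun k : Fin 1 => 2 * m = j) = ∅ := by
        rw [Finset.filter_eq_empty_iff]
        intro k _ hk
        rw [← hk] at hj
        exact (Nat.not_odd_iff_even.mpr (even_two_mul m)) hj
      rw [this]; simp
    obtain ⟨e, A, hA⟩ := (H48.JTForm.sp_types (F := F) (d := fun _ : Fin 1 => 2 * m) (m := m) (by simp)).mpr hodd
    have hrank : ∀ r, (((A : Matrix (Fin m ⊕ Fin m) (Fin m ⊕ Fin m) F) - 1) ^ r).rank = 2 * m - r := by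
      intro r
      rw [← H48.JTForm.isConj_rank hA, H48.JTForm.rank_reindex_jt]
      simp
    have hAnil : ((A : Matrix (Fin m ⊕ Fin m) (Fin m ⊕ Fin m) F) - 1) ^ (2 * m) = 0 := by
      apply H48.Jordan.eq_zero_of_rank
      rw [hrank]; omega
    have hAr : ((A : Matrix (Fin m ⊕ Fin m) (Fin m ⊕ Fin m) F) - 1).rank = 2 * m - 1 := by
      have := hrank 1
      rwa [pow_one] at this
    have hRA := ra hm A.2 hAnil hAr
    obtain ⟨x, hx⟩ := Phi_exists h2 hRA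
    obtain ⟨δ, hδ⟩ := H48.FinFieldSq.exists_not_isSquare h2
    have hδ0 : δ ≠ 0 := by
      rintro rfl
      exact hδ IsSquare.zero
    let D : Matrix (Fin m ⊕ Fin m) (Fin m ⊕ Fin m) F := Matrix.fromBlocks (δ • 1) 0 0 1
    let D' : Matrix (Fin m ⊕ Fin m) (Fin m ⊕ Fin m) F := Matrix.fromBlocks (δ⁻¹ • 1) 0 0 1
    have hDD' : D * D' = 1 := by
      simp only [D, D', Matrix.fromBlocks_multiply]
      simp [smul_smul, hδ0]
    have hD'D : D' * D = 1 := mul_eq_one_comm.mp hDD'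
    have hDJ : Dᵀ * J (Fin m) F * D = δ • J (Fin m) F := by
      simp only [D, Matrix.J, Matrix.fromBlocks_transpose, Matrix.fromBlocks_multiply, Matrix.fromBlocks_smul]
      simp
    have hD'J : D'ᵀ * J (Fin m) F * D' = δ⁻¹ • J (Fin m) F := by
      simp only [D', Matrix.J, Matrix.fromBlocks_transpose, Matrix.fromBlocks_multiply, Matrix.fromBlocks_smul]
      simp
    have hmem : D * (A : Matrix (Fin m ⊕ Fin m) (Fin m ⊕ Fin m) F) * D' ∈ Matrix.symplecticGroup (Fin m) F := by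
      rw [SymplecticGroup.mem_iff', Matrix.transpose_mul, Matrix.transpose_mul]
      calc D'ᵀ * ((A : Matrix (Fin m ⊕ Fin m) (Fin m ⊕ Fin m) F)ᵀ * Dᵀ) * J (Fin m) F * (D * A * D')
          = D'ᵀ * (A : Matrix (Fin m ⊕ Fin m) (Fin m ⊕ Fin m) F)ᵀ * (Dᵀ * J (Fin m) F * D) * A * D' := by
            simp only [mul_assoc]
        _ = δ • (D'ᵀ * ((A : Matrix (Fin m ⊕ Fin m) (Fin m ⊕ Fin m) F)ᵀ * J (Fin m) F * A) * D') := by
            rw [hDJ]; simp only [mul_assoc, mul_smul_comm, smul_mul_assoc]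
        _ = J (Fin m) F := by
            rw [SymplecticGroup.mem_iff'.mp A.2, hD'J, smul_smul, mul_inv_cancel₀ hδ0, one_smul]
    let A' : ↥(Matrix.symplecticGroup (Fin m) F) := ⟨_, hmem⟩
    have hsub : ∀ r, ((A' : Matrix (Fin m ⊕ Fin m) (Fin m ⊕ Fin m) F) - 1) ^ r =
        D * ((A : Matrix (Fin m ⊕ Fin m) (Fin m ⊕ Fin m) F) - 1) ^ r * D' := by
      intro r
      have e1 : SemiconjBy D ((A : Matrix (Fin m ⊕ Fin m) (Fin m ⊕ Fin m) F) - 1)
          ((A' : Matrix (Fin m ⊕ Fin m) (Fin m ⊕ Fin m) F) - 1) := by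
        apply SemiconjBy.sub_right _ (SemiconjBy.one_right _)
        change D * (A : Matrix (Fin m ⊕ Fin m) (Fin m ⊕ Fin m) F) = D * A * D' * D
        rw [mul_assoc _ D' D, hD'D, mul_one]
      have e2 := e1.pow_right r
      rw [e2.eq, mul_assoc, hDD', mul_one]
    have hDu : IsUnit D.det := by
      rw [← Matrix.isUnit_iff_isUnit_det]
      exact ⟨⟨D, D', hDD', hD'D⟩, rfl⟩
    have hD'u : IsUnit D'.det := by
      rw [← Matrix.isUnit_iff_isUnit_det]
      exact ⟨⟨D', D, hD'D, hDD'⟩, rfl⟩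
    have hA'nil : ((A' : Matrix (Fin m ⊕ Fin m) (Fin m ⊕ Fin m) F) - 1) ^ (2 * m) = 0 := by
      rw [hsub, hAnil, mul_zero, zero_mul]
    have hA'r : ((A' : Matrix (Fin m ⊕ Fin m) (Fin m ⊕ Fin m) F) - 1).rank = 2 * m - 1 := by
      rw [← pow_one ((A' : Matrix (Fin m ⊕ Fin m) (Fin m ⊕ Fin m) F) - 1), hsub,
        Matrix.rank_mul_eq_left_of_isUnit_det _ _ hD'u, Matrix.rank_mul_eq_right_of_isUnit_det _ _ hDu, pow_one, hAr]
    have hRA' := ra hm A'.2 hA'nil hA'r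
    have hPhi : Phi (A' : Matrix (Fin m ⊕ Fin m) (Fin m ⊕ Fin m) F) (D *ᵥ x) (D *ᵥ x) =
        δ * Phi (A : Matrix (Fin m ⊕ Fin m) (Fin m ⊕ Fin m) F) x x := by
      rw [Phi, H48.JTForm.dot_conj, hsub, Phi]
      have e1 : Dᵀ * (J (Fin m) F * (D * ((A : Matrix (Fin m ⊕ Fin m) (Fin m ⊕ Fin m) F) - 1) ^ (2 * m - 1) * D')) * D =
          δ • (J (Fin m) F * ((A : Matrix (Fin m ⊕ Fin m) (Fin m ⊕ Fin m) F) - 1) ^ (2 * m - 1)) := by
        calc _ = (Dᵀ * J (Fin m) F * D) * ((A : Matrix (Fin m ⊕ Fin m) (Fin m ⊕ Fin m) F) - 1) ^ (2 * m - 1) * (D' * D) := by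
              simp only [mul_assoc]
          _ = _ := by rw [hDJ, hD'D, mul_one, smul_mul_assoc]
      rw [e1, Matrix.smul_mulVec, dotProduct_smul, smul_eq_mul]
    have hx' : Phi (A' : Matrix (Fin m ⊕ Fin m) (Fin m ⊕ Fin m) F) (D *ᵥ x) (D *ᵥ x) ≠ 0 := by
      rw [hPhi]; exact mul_ne_zero hδ0 hx
    have hi1 := hinv A hRA x hx
    have hi2 := hinv A' hRA' _ hx'
    have hne : inv A ≠ inv A' := by
      intro heq
      rw [heq] at hi1
      have h9 := hi1.symm.trans hi2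
      rw [hPhi] at h9
      have h10 : IsSquare (δ * Phi (A : Matrix (Fin m ⊕ Fin m) (Fin m ⊕ Fin m) F) x x *
          Phi (A : Matrix (Fin m ⊕ Fin m) (Fin m ⊕ Fin m) F) x x) :=
        (H48.FinFieldSq.isSquare_mul_iff (mul_ne_zero hδ0 hx) hx).mpr h9.symm
      apply hδ
      obtain ⟨a, ha⟩ := h10
      refine ⟨a / Phi (A : Matrix (Fin m ⊕ Fin m) (Fin m ⊕ Fin m) F) x x, ?_⟩
      field_simp
      linear_combination ha
    intro s _
    by_cases hs : inv A = s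
    · exact ⟨A, ⟨hAnil, hAr⟩, hs⟩
    · refine ⟨A', ⟨hA'nil, hA'r⟩, ?_⟩
      revert hs hne
      generalize inv A = b₁
      generalize inv A' = b₂
      revert s b₁ b₂
      decide
  · rintro g h ⟨hg1, hg2⟩ ⟨hh1, hh2⟩
    have hRg := ra hm g.2 hg1 hg2
    have hRh := ra hm h.2 hh1 hh2
    obtain ⟨x, hx⟩ := Phi_exists h2 hRg
    obtain ⟨y, hy⟩ := Phi_exists h2 hRh
    have hi1 := hinv g hRg x hx
    have hi2 := hinv h hRh y hy
    constructor
    · rintro hc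
      obtain ⟨c, hc⟩ := isConj_iff.mp hc
      have hc' : (c : Matrix (Fin m ⊕ Fin m) (Fin m ⊕ Fin m) F) * g = h * c := by
        rw [← hc]
        have : c * g = c * g * c⁻¹ * c := by group
        exact congrArg (fun x : Matrix.symplecticGroup (Fin m) F =>
          (x : Matrix (Fin m ⊕ Fin m) (Fin m ⊕ Fin m) F)) this
      have hP := Phi_conj (mem_iff_tau.mp c.2) hc' x
      have hx'' : Phi (h : Matrix (Fin m ⊕ Fin m) (Fin m ⊕ Fin m) F)
          ((c : Matrix (Fin m ⊕ Fin m) (Fin m ⊕ Fin m) F) *ᵥ x)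
          ((c : Matrix (Fin m ⊕ Fin m) (Fin m ⊕ Fin m) F) *ᵥ x) ≠ 0 := by rw [hP]; exact hx
      have hi3 := hinv h hRh _ hx''
      rw [hP] at hi3
      rw [Bool.eq_iff_iff, hi1, hi3]
    · intro heq
      rw [heq] at hi1
      have h9 := hi1.symm.trans hi2
      obtain ⟨c, hc1, hc2⟩ := exists_conj h2 hRg hRh hx hy ((H48.FinFieldSq.isSquare_mul_iff hx hy).mpr h9)
      rw [isConj_iff]
      refine ⟨⟨c, mem_iff_tau.mpr hc1⟩, ?_⟩
      rw [mul_inv_eq_iff_eq_mul]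
      exact Subtype.ext hc2

end H48.RegSp
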