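import Mathlib
import Cfsg.Agent.Lib.H48.SLConj
/-!
Splitting of a `GL`-class in `SL`: the number of `SL`-classes is the index of the group of
determinants of the centralizer.
-/
set_option autoImplicit false
set_option linter.unusedSectionVars false
set_option linter.style.haveILetI false

namespace H48.SLClasses

open H48.SLConj

variable {F : Type*} [Field F] {n : Type*} [Fintype n] [DecidableEq n]

theorem exists_gl_det [Nonempty n] (a : Fˣ) :
    ∃ g : Matrix.GeneralLinearGroup n F, (g : Matrix n n F).det = a := by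
  obtain ⟨i0⟩ := (inferInstance : Nonempty n)
  let D : Matrix n n F := Matrix.diagonal (Function.update 1 i0 (a : F))
  have hD : D.det = a := by
    rw [Matrix.det_diagonal, Finset.prod_update_of_mem (Finset.mem_univ _)]
    simp
  exact ⟨Matrix.GeneralLinearGroup.mkOfDetNeZero D (by rw [hD]; exact a.ne_zero), hD⟩

/-- conjugate of an element of `SL` by an element of `GL` -/
def conjSL (g : Matrix.GeneralLinearGroup n F) (u : Matrix.SpecialLinearGroup n F) :
    Matrix.SpecialLinearGroup n F :=
  ⟨(g : Matrix n n F) * u * ((g⁻¹ : Matrix.GeneralLinearGroup n F) : Matrix n n F), by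
    rw [Matrix.det_mul, Matrix.det_mul, u.2, mul_one, ← Matrix.det_mul, Units.mul_inv,
      Matrix.det_one]⟩

theorem coe_conjSL (g : Matrix.GeneralLinearGroup n F) (u : Matrix.SpecialLinearGroup n F) :
    (conjSL g u : Matrix n n F) = (g : Matrix n n F) * u * ((g⁻¹ : Matrix.GeneralLinearGroup n F) : Matrix n n F) := rfl

theorem isConj_conjSL (g : Matrix.GeneralLinearGroup n F) (u : Matrix.SpecialLinearGroup n F) :
    IsConj (u : Matrix n n F) (conjSL g u : Matrix n n F) := by
  refine ⟨g, ?_⟩
  change (g : Matrix n n F) * u = (conjSL g u : Matrix n n F) * g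
  rw [coe_conjSL, mul_assoc _ _ (g : Matrix n n F), Units.inv_mul, mul_one]

theorem det_inv_gl (g : Matrix.GeneralLinearGroup n F) :
    ((g⁻¹ : Matrix.GeneralLinearGroup n F) : Matrix n n F).det = ((g : Matrix n n F).det)⁻¹ := by
  have h : (g : Matrix n n F).det * ((g⁻¹ : Matrix.GeneralLinearGroup n F) : Matrix n n F).det = 1 := by
    rw [← Matrix.det_mul, Units.mul_inv, Matrix.det_one]
  exact eq_inv_of_mul_eq_one_right h

theorem det_ne_zero (g : Matrix.GeneralLinearGroup n F) : (g : Matrix n n F).det ≠ 0 :=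
  ((Matrix.isUnit_iff_isUnit_det _).1 g.isUnit).ne_zero

/-- the number of `SL`-classes in a `GL`-class -/
theorem card_classes [Nonempty n] (P : Matrix.SpecialLinearGroup n F → Prop)
    (u0 : Matrix.SpecialLinearGroup n F)
    (hP : ∀ u : Matrix.SpecialLinearGroup n F, P u ↔ IsConj (u0 : Matrix n n F) (u : Matrix n n F))
    (H : Subgroup Fˣ)
    (hH : ∀ d : Fˣ, d ∈ H ↔ ∃ D : Matrix n n F, D * u0 = u0 * D ∧ D.det = d) :
    Nat.card {C : ConjClasses (Matrix.SpecialLinearGroup n F) //
      ∃ u : Matrix.SpecialLinearGroup n F, ConjClasses.mk u = C ∧ P u} = H.index := by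
  classical
  choose g hg using fun a : Fˣ => exists_gl_det (F := F) (n := n) a
  have hPg : ∀ a, P (conjSL (g a) u0) := fun a => (hP _).2 (isConj_conjSL _ _)
  let f : Fˣ → {C : ConjClasses (Matrix.SpecialLinearGroup n F) //
      ∃ u : Matrix.SpecialLinearGroup n F, ConjClasses.mk u = C ∧ P u} := fun a =>
    ⟨ConjClasses.mk (conjSL (g a) u0), _, rfl, hPg a⟩
  -- fibres
  have hf : ∀ a b, f a = f b ↔ b⁻¹ * a ∈ H := by
    intro a b
    rw [Subtype.ext_iff]
    change ConjClasses.mk _ = ConjClasses.mk _ ↔ _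
    rw [ConjClasses.mk_eq_mk_iff_isConj, isConj_iff, hH]
    constructor
    · rintro ⟨h, hh⟩
      have h1 : (h : Matrix n n F) * (conjSL (g a) u0 : Matrix n n F) =
          (conjSL (g b) u0 : Matrix n n F) * h := by
        rw [mul_inv_eq_iff_eq_mul] at hh
        exact congrArg Subtype.val hh
      rw [coe_conjSL, coe_conjSL] at h1
      refine ⟨(((g b)⁻¹ : Matrix.GeneralLinearGroup n F) : Matrix n n F) * h * g a, ?_, ?_⟩
      · have h2 := congrArg (fun M => (((g b)⁻¹ : Matrix.GeneralLinearGroup n F) : Matrix n n F) * M *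
          (g a : Matrix n n F)) h1
        simp only [mul_assoc, Units.inv_mul, mul_one] at h2
        rw [← mul_assoc _ (g b : Matrix n n F), Units.inv_mul, one_mul] at h2
        simp only [mul_assoc]
        exact h2
      · rw [Matrix.det_mul, Matrix.det_mul, det_inv_gl, h.2, hg, hg, mul_one]
        simp
    · rintro ⟨D, hD, hDd⟩
      have hdet : ((g b : Matrix n n F) * D * (((g a)⁻¹ : Matrix.GeneralLinearGroup n F) : Matrix n n F)).det = 1 := by
        rw [Matrix.det_mul, Matrix.det_mul, det_inv_gl, hDd, hg, hg]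
        simp
      let gg : Matrix.SpecialLinearGroup n F := ⟨_, hdet⟩
      refine ⟨gg, ?_⟩
      rw [mul_inv_eq_iff_eq_mul]
      apply Subtype.ext
      change ((g b : Matrix n n F) * D * (((g a)⁻¹ : Matrix.GeneralLinearGroup n F) : Matrix n n F)) *
        (conjSL (g a) u0 : Matrix n n F) = (conjSL (g b) u0 : Matrix n n F) *
        ((g b : Matrix n n F) * D * (((g a)⁻¹ : Matrix.GeneralLinearGroup n F) : Matrix n n F))
      rw [coe_conjSL, coe_conjSL]
      have e1 : ((g b : Matrix n n F) * D * (((g a)⁻¹ : Matrix.GeneralLinearGroup n F) : Matrix n n F)) *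
          ((g a : Matrix n n F) * u0 * (((g a)⁻¹ : Matrix.GeneralLinearGroup n F) : Matrix n n F)) =
          (g b : Matrix n n F) * (D * ((((g a)⁻¹ : Matrix.GeneralLinearGroup n F) : Matrix n n F) *
            (g a : Matrix n n F)) * u0) * (((g a)⁻¹ : Matrix.GeneralLinearGroup n F) : Matrix n n F) := by
        simp only [mul_assoc]
      have e2 : ((g b : Matrix n n F) * u0 * (((g b)⁻¹ : Matrix.GeneralLinearGroup n F) : Matrix n n F)) *
          ((g b : Matrix n n F) * D * (((g a)⁻¹ : Matrix.GeneralLinearGroup n F) : Matrix n n F)) =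
          (g b : Matrix n n F) * (u0 * ((((g b)⁻¹ : Matrix.GeneralLinearGroup n F) : Matrix n n F) *
            (g b : Matrix n n F)) * D) * (((g a)⁻¹ : Matrix.GeneralLinearGroup n F) : Matrix n n F) := by
        simp only [mul_assoc]
      rw [e1, e2, Units.inv_mul, Units.inv_mul, mul_one, mul_one, hD]
  have hsurj : Function.Surjective f := by
    rintro ⟨C, u, rfl, hu⟩
    obtain ⟨c, hc⟩ := (hP u).1 hu
    have hc' : (c : Matrix n n F) * u0 = u * (c : Matrix n n F) := hc
    let a : Fˣ := Units.mk0 (c : Matrix n n F).det (det_ne_zero c)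
    refine ⟨a, Subtype.ext ?_⟩
    change ConjClasses.mk _ = ConjClasses.mk _
    rw [ConjClasses.mk_eq_mk_iff_isConj, isConj_iff]
    have hdet : ((c : Matrix n n F) * (((g a)⁻¹ : Matrix.GeneralLinearGroup n F) : Matrix n n F)).det = 1 := by
      rw [Matrix.det_mul, det_inv_gl, hg]
      exact mul_inv_cancel₀ (det_ne_zero c)
    let gg : Matrix.SpecialLinearGroup n F := ⟨_, hdet⟩
    refine ⟨gg, ?_⟩
    rw [mul_inv_eq_iff_eq_mul]
    apply Subtype.ext
    change ((c : Matrix n n F) * (((g a)⁻¹ : Matrix.GeneralLinearGroup n F) : Matrix n n F)) *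
      (conjSL (g a) u0 : Matrix n n F) = (u : Matrix n n F) *
      ((c : Matrix n n F) * (((g a)⁻¹ : Matrix.GeneralLinearGroup n F) : Matrix n n F))
    rw [coe_conjSL]
    have e1 : ((c : Matrix n n F) * (((g a)⁻¹ : Matrix.GeneralLinearGroup n F) : Matrix n n F)) *
          ((g a : Matrix n n F) * u0 * (((g a)⁻¹ : Matrix.GeneralLinearGroup n F) : Matrix n n F)) =
          (c : Matrix n n F) * (((((g a)⁻¹ : Matrix.GeneralLinearGroup n F) : Matrix n n F) *
            (g a : Matrix n n F)) * u0) * (((g a)⁻¹ : Matrix.GeneralLinearGroup n F) : Matrix n n F) := by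
      simp only [mul_assoc]
    rw [e1, Units.inv_mul, one_mul, hc', mul_assoc]
  -- conclude
  have hker : ∀ a b, (QuotientGroup.leftRel H) a b ↔ f b = f a := by
    intro a b
    rw [QuotientGroup.leftRel_apply, hf]
  let φ : (Fˣ ⧸ H) → {C : ConjClasses (Matrix.SpecialLinearGroup n F) //
      ∃ u : Matrix.SpecialLinearGroup n F, ConjClasses.mk u = C ∧ P u} :=
    Quotient.lift f (fun a b hab => ((hker a b).1 hab).symm)
  have hφ : Function.Bijective φ := by
    constructor
    · intro x y
      induction x using Quotient.inductionOn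
      induction y using Quotient.inductionOn
      intro h
      apply Quotient.sound
      exact (hker _ _).2 h.symm
    · intro C
      obtain ⟨a, ha⟩ := hsurj C
      exact ⟨Quotient.mk _ a, ha⟩
  rw [← Nat.card_congr (Equiv.ofBijective φ hφ)]
  rfl

end H48.SLClasses
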