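import Cfsg.Agent.Lib.H41.SpMat2
import Cfsg.Agent.Lib.H48.SLConj
import Cfsg.Agent.S0245
import Cfsg.Agent.S0271

set_option autoImplicit false
set_option linter.unusedSectionVars false
set_option linter.style.haveILetI false

/-! Symplectic transvections and their centralizers in characteristic two. -/

namespace H48.SpTransv

open Matrix H41.SpMat

variable {F : Type*} [Field F] {m : ℕ}

theorem bsp_symm [CharP F 2] (x y : Fin m ⊕ Fin m → F) : bsp m F x y = bsp m F y x := by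
  rw [H41.AltForm.alt_antisymm (bsp m F) bsp_self x y, CharTwo.neg_eq]

theorem exists_bsp_one {v : Fin m ⊕ Fin m → F} (hv : v ≠ 0) : ∃ y, bsp m F v y = 1 := by
  have : ∃ y, bsp m F v y ≠ 0 := by
    by_contra h
    push Not at h
    exact hv (bsp_nondeg v h)
  obtain ⟨y, hy⟩ := this
  exact ⟨(bsp m F v y)⁻¹ • y, by rw [map_smul, smul_eq_mul, inv_mul_cancel₀ hy]⟩

/-- A symplectic matrix with `rank (t - 1) = 1` is a transvection (characteristic two, perfect field). -/
theorem exists_vec [Finite F] [CharP F 2] (t : Matrix.symplecticGroup (Fin m) F)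
    (ht : ((t : Matrix (Fin m ⊕ Fin m) (Fin m ⊕ Fin m) F) - 1).rank = 1) :
    ∃ v : Fin m ⊕ Fin m → F, v ≠ 0 ∧
      ∀ x, (t : Matrix (Fin m ⊕ Fin m) (Fin m ⊕ Fin m) F) *ᵥ x = x + bsp m F v x • v := by
  obtain ⟨u, φ, hN, hu, hφ⟩ := H48.SLConj.exists_vecMulVec_of_rank_one ht
  have h1 : ∀ x, (t : Matrix (Fin m ⊕ Fin m) (Fin m ⊕ Fin m) F) *ᵥ x = x + (φ ⬝ᵥ x) • u := by
    intro x
    have : (t : Matrix (Fin m ⊕ Fin m) (Fin m ⊕ Fin m) F) = 1 + Matrix.vecMulVec u φ := by
      rw [← hN]; abel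
    rw [this, Matrix.add_mulVec, Matrix.one_mulVec, Matrix.vecMulVec_mulVec]
    simp
  have h2 := (bsp_mem_iff (t : Matrix (Fin m ⊕ Fin m) (Fin m ⊕ Fin m) F)).mp t.2
  obtain ⟨y, hy⟩ := exists_bsp_one hu
  have h3 : ∀ x, φ ⬝ᵥ x = (φ ⬝ᵥ y) * bsp m F u x := by
    intro x
    have := h2 x y
    rw [h1, h1] at this
    simp only [map_add, map_smul, LinearMap.add_apply, LinearMap.smul_apply, smul_eq_mul, bsp_self,
      hy] at this
    rw [bsp_symm x u] at this
    have h2' : (2 : F) = 0 := CharTwo.two_eq_zero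
    linear_combination this - (φ ⬝ᵥ y) * bsp m F u x * h2'
  have hy0 : φ ⬝ᵥ y ≠ 0 := by
    intro h0
    apply hφ
    apply dotProduct_eq_zero_iff.mp
    intro x
    rw [h3, h0, zero_mul]
  obtain ⟨s, hs⟩ := H41.SpMat2.exists_sqrt (φ ⬝ᵥ y)
  have hs0 : s ≠ 0 := by
    rintro rfl
    apply hy0
    rw [← hs]; ring
  refine ⟨s • u, smul_ne_zero hs0 hu, ?_⟩
  intro x
  rw [h1, h3, ← hs, map_smul, LinearMap.smul_apply, smul_smul, smul_eq_mul]
  congr 2
  ring

theorem commute_iff [CharP F 2] (t g : Matrix.symplecticGroup (Fin m) F) (v : Fin m ⊕ Fin m → F)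
    (hv : v ≠ 0)
    (ht : ∀ x, (t : Matrix (Fin m ⊕ Fin m) (Fin m ⊕ Fin m) F) *ᵥ x = x + bsp m F v x • v) :
    t * g = g * t ↔ (g : Matrix (Fin m ⊕ Fin m) (Fin m ⊕ Fin m) F) *ᵥ v = v := by
  have hg := (bsp_mem_iff (g : Matrix (Fin m ⊕ Fin m) (Fin m ⊕ Fin m) F)).mp g.2
  have h1 : t * g = g * t ↔ ∀ x, bsp m F v ((g : Matrix (Fin m ⊕ Fin m) (Fin m ⊕ Fin m) F) *ᵥ x) • v =
      bsp m F v x • ((g : Matrix (Fin m ⊕ Fin m) (Fin m ⊕ Fin m) F) *ᵥ v) := by
    constructor
    · intro h x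
      have h2 : (t : Matrix (Fin m ⊕ Fin m) (Fin m ⊕ Fin m) F) * (g : Matrix (Fin m ⊕ Fin m) (Fin m ⊕ Fin m) F)
          = (g : Matrix (Fin m ⊕ Fin m) (Fin m ⊕ Fin m) F) * (t : Matrix (Fin m ⊕ Fin m) (Fin m ⊕ Fin m) F) :=
        congrArg Subtype.val h
      have h3 := congrArg (fun M => M *ᵥ x) h2
      simp only [← Matrix.mulVec_mulVec] at h3
      rw [ht, ht, Matrix.mulVec_add, Matrix.mulVec_smul] at h3
      exact add_left_cancel h3
    · intro h
      apply Subtype.ext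
      change (t : Matrix (Fin m ⊕ Fin m) (Fin m ⊕ Fin m) F) * (g : Matrix (Fin m ⊕ Fin m) (Fin m ⊕ Fin m) F)
          = (g : Matrix (Fin m ⊕ Fin m) (Fin m ⊕ Fin m) F) * (t : Matrix (Fin m ⊕ Fin m) (Fin m ⊕ Fin m) F)
      apply Matrix.toLin'.injective
      apply LinearMap.ext
      intro x
      rw [Matrix.toLin'_apply, Matrix.toLin'_apply, ← Matrix.mulVec_mulVec, ← Matrix.mulVec_mulVec,
        ht, ht, Matrix.mulVec_add, Matrix.mulVec_smul, h x]
  rw [h1]
  constructor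
  · intro h
    obtain ⟨y, hy⟩ := exists_bsp_one hv
    have h2 := h y
    rw [hy, one_smul] at h2
    set c := bsp m F v ((g : Matrix (Fin m ⊕ Fin m) (Fin m ⊕ Fin m) F) *ᵥ y) with hc
    -- g v = c v; then f(gv, gy) = 1 gives c * c = 1
    have h3 := hg v y
    rw [← h2, map_smul, LinearMap.smul_apply, ← hc, hy, smul_eq_mul] at h3
    have h4 : (c - 1) ^ 2 = 0 := by
      have h2' : (2 : F) = 0 := CharTwo.two_eq_zero
      linear_combination h3 + (1 - c) * h2'
    have h5 : c = 1 := by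
      have := pow_eq_zero_iff (two_ne_zero) |>.mp h4
      linear_combination this
    rw [← h2, h5, one_smul]
  · intro h x
    rw [h]
    congr 1
    nth_rewrite 1 [← h]
    exact hg v x

theorem card_centralizer [Fintype F] [CharP F 2] {q : ℕ} (hF : Fintype.card F = q)
    (t : Matrix.symplecticGroup (Fin m) F)
    (ht : ((t : Matrix (Fin m ⊕ Fin m) (Fin m ⊕ Fin m) F) - 1).rank = 1) :
    Nat.card ↥(Subgroup.centralizer ({t} : Set ↥(Matrix.symplecticGroup (Fin m) F))) *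
      (q ^ (2 * m) - 1) = Nat.card ↥(Matrix.symplecticGroup (Fin m) F) := by
  classical
  obtain ⟨v, hv, hvt⟩ := exists_vec t ht
  let act : MulAction (Matrix.symplecticGroup (Fin m) F) (Fin m ⊕ Fin m → F) :=
    { smul := fun g x => (g : Matrix (Fin m ⊕ Fin m) (Fin m ⊕ Fin m) F) *ᵥ x
      one_smul := fun x => Matrix.one_mulVec x
      mul_smul := fun g h x => (Matrix.mulVec_mulVec x g.1 h.1).symm }
  have hsmul : ∀ (g : Matrix.symplecticGroup (Fin m) F) (x : Fin m ⊕ Fin m → F),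
      g • x = (g : Matrix (Fin m ⊕ Fin m) (Fin m ⊕ Fin m) F) *ᵥ x := fun _ _ => rfl
  have h1 : Subgroup.centralizer ({t} : Set ↥(Matrix.symplecticGroup (Fin m) F)) =
      MulAction.stabilizer (Matrix.symplecticGroup (Fin m) F) v := by
    ext g
    rw [Subgroup.mem_centralizer_singleton_iff, MulAction.mem_stabilizer_iff, hsmul,
      ← commute_iff t g v hv hvt]
    exact eq_comm
  have h2 : MulAction.orbit (Matrix.symplecticGroup (Fin m) F) v = {x | x ≠ 0} := by
    ext x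
    constructor
    · rintro ⟨g, rfl⟩
      intro h0
      apply hv
      have : g⁻¹ • (g • v) = g⁻¹ • (0 : Fin m ⊕ Fin m → F) := congrArg _ h0
      rw [inv_smul_smul, hsmul, Matrix.mulVec_zero] at this
      exact this
    · intro hx
      obtain ⟨g, hg⟩ := Cfsg.Agent.S0271.result m v x hv hx
      exact ⟨g, hg⟩
  have h3 : Nat.card ↥(MulAction.orbit (Matrix.symplecticGroup (Fin m) F) v) = q ^ (2 * m) - 1 := by
    rw [h2, Nat.card_eq_fintype_card]
    have : Fintype.card {x : Fin m ⊕ Fin m → F // x ≠ 0} = q ^ (2 * m) - 1 := by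
      rw [Fintype.card_subtype_compl]
      simp [hF, two_mul]
    rw [← this]
    exact Fintype.card_congr (Equiv.refl _)
  have h4 := Nat.card_congr (MulAction.orbitProdStabilizerEquivGroup
    (Matrix.symplecticGroup (Fin m) F) v)
  rw [Nat.card_prod, h3, ← h1] at h4
  rw [← h4, mul_comm]

end H48.SpTransv
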